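import Mathlib
import Cfsg.Agent.H863.SExt

/-!
# S5591 (`3^4371 · B`): cochains, cocycles, permutation modules (definitions)

All cochains are total functions on `G`; the conditions are imposed on a subgroup `K` only.
-/

set_option autoImplicit false

namespace Cfsg.Agent.B5591

section Coc

variable {F M G : Type*} [Field F] [AddCommGroup M] [Module F M] [Group G] (σ : G →* Module.End F M)

/-- No non-zero vector is fixed by `K`. -/
def Fx (K : Subgroup G) : Prop := ∀ m : M, (∀ g ∈ K, σ g m = m) → m = 0

/-- `1`-cocycles on `K`. -/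
def Z1 (K : Subgroup G) (c : G → M) : Prop := ∀ g ∈ K, ∀ h ∈ K, c (g * h) = c g + σ g (c h)

/-- `1`-coboundaries on `K`. -/
def B1 (K : Subgroup G) (c : G → M) : Prop := ∃ m : M, ∀ g ∈ K, c g = m - σ g m

/-- `H¹(K, M) = 0`. -/
def H1 (K : Subgroup G) : Prop := ∀ c : G → M, Z1 σ K c → B1 σ K c

/-- `2`-cocycles on `K`. -/
def Z2 (K : Subgroup G) (γ : G → G → M) : Prop :=
  ∀ g ∈ K, ∀ h ∈ K, ∀ k ∈ K, γ g h + γ (g * h) k = σ g (γ h k) + γ g (h * k)

/-- `2`-coboundaries on `K`. -/
def B2 (K : Subgroup G) (γ : G → G → M) : Prop :=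
  ∃ b : G → M, ∀ g ∈ K, ∀ h ∈ K, γ g h = b g + σ g (b h) - b (g * h)

end Coc

section Ext

open Cfsg.Agent.H863.SExt

variable {F M G : Type*} [Field F] [AddCommGroup M] [Module F M] [Group G] {σ : G →* Module.End F M}
  {E : Type*} [Group E] (X : Ext σ E)

/-- `γ` is the cocycle of the extension `X` for the set-theoretic section `t`. -/
def IsCoc (t : G → E) (γ : G → G → M) : Prop :=
  (∀ g, X.π (t g) = g) ∧ ∀ g h, t g * t h = X.j (γ g h) * t (g * h)

/-- `S` is a complement over `K`: it meets the kernel trivially and maps onto `K`. -/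
def IsLift (S : Subgroup E) (K : Subgroup G) : Prop :=
  (∀ x ∈ S, X.π x = 1 → x = 1) ∧ S.map X.π = K

/-- The extension splits over `K`. -/
def Spl (K : Subgroup G) : Prop := ∃ S : Subgroup E, IsLift X S K

end Ext

section Perm

variable (F : Type*) [Field F] (G D : Type*) [Group G] [MulAction G D]

/-- The module of all functions on a `G`-set: `(g f) d = f (g⁻¹ d)`. -/
def perm : G →* Module.End F (D → F) where
  toFun g := LinearMap.funLeft F F (fun d => g⁻¹ • d)
  map_one' := by
    ext f d
    simp [LinearMap.funLeft_apply]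
  map_mul' g h := by
    apply LinearMap.ext
    intro f
    funext d
    simp [LinearMap.funLeft_apply, mul_smul]

theorem perm_apply (g : G) (f : D → F) (d : D) : perm F G D g f d = f (g⁻¹ • d) := rfl

/-- The trivial module. -/
abbrev triv : G →* Module.End F F := 1

variable {F G}

/-- The commutator pairing of a `2`-cocycle with values in the trivial module. -/
def pairing (a : G → G → F) (x y : G) : F := a x y - a y x

/-- The cube invariant of a `2`-cocycle with values in the trivial module (for `x ^ 3 = 1`). -/
def cube (a : G → G → F) (x : G) : F := a 1 1 + a x x + a (x * x) x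

end Perm

end Cfsg.Agent.B5591
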