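import Mathlib
import Cfsg.Agent.B5591.Defs
import Cfsg.Agent.B5591.Cover3Mat
import Cfsg.Agent.BM.KHAll
import Cfsg.Agent.BM.HBFinal
import Cfsg.Agent.TwoESix.Cover

/-!
# S5591: `H²(2 · ²E₆(2), 𝔽₃)` is spanned by the class of the triple cover
-/

set_option autoImplicit false

namespace Cfsg.Agent.B5591.Cover3

open Subgroup Function
open Cfsg Cfsg.Agent.TwoESix Cfsg.Agent.TwoESix.Cox10 Cfsg.Agent.TwoESix.Lift Cfsg.Agent.TwoESix.Cover
open Cfsg.Spor.BabyMonster (Gen)

/-! ### The double cover in the Baby Monster -/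

/-- The nodes. -/
def nd : Fin 10 → Gen := ![.t2, .t3, .t4, .t5, .t6, .t7, .t8, .t9, .t10, .t11]

theorem nd_ne (i : Fin 10) : nd i ≠ Gen.t1 := by
  fin_cases i <;> exact fun h => Gen.noConfusion h

theorem nd_lab (i j : Fin 10) : Spor.coxLabel Spor.BabyMonster.edges (nd i) (nd j) = lab i j := by
  revert i j; decide +kernel

/-- The double cover `2.²E₆(2)`. -/
abbrev Y : Type := ↥(BM.FactsB.HB BM.StageBFinalOf.gB)

/-- The ten generators. -/
def sY (i : Fin 10) : Y := ⟨BM.StageBFinalOf.gB (nd i), BM.FactsB.mem_HB _ (nd_ne i)⟩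

theorem closure_sY : closure (Set.range sY) = ⊤ := by
  have h1 : (closure (Set.range sY)).map (BM.FactsB.HB BM.StageBFinalOf.gB).subtype =
      (⊤ : Subgroup Y).map (BM.FactsB.HB BM.StageBFinalOf.gB).subtype := by
    rw [MonoidHom.map_closure, ← Set.range_comp, ← MonoidHom.range_eq_map, Subgroup.range_subtype]
    apply le_antisymm
    · rw [closure_le]
      rintro _ ⟨i, rfl⟩
      exact (sY i).2
    · unfold BM.FactsB.HB
      rw [closure_le]
      rintro _ ⟨t, ht, rfl⟩
      have key : ∃ i, nd i = t := by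
        cases t
        · exact absurd rfl ht
        · exact ⟨0, rfl⟩
        · exact ⟨1, rfl⟩
        · exact ⟨2, rfl⟩
        · exact ⟨3, rfl⟩
        · exact ⟨4, rfl⟩
        · exact ⟨5, rfl⟩
        · exact ⟨6, rfl⟩
        · exact ⟨7, rfl⟩
        · exact ⟨8, rfl⟩
        · exact ⟨9, rfl⟩
      obtain ⟨i, rfl⟩ := key
      exact subset_closure ⟨i, rfl⟩
  exact Subgroup.map_injective (Subgroup.subtype_injective _) h1

theorem coe_ev_sY (w : List (Fin 10)) :
    ((ev sY w : Y) : Spor.BabyMonster) = ev (fun i => BM.StageBFinalOf.gB (nd i)) w :=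
  ev_map (BM.FactsB.HB BM.StageBFinalOf.gB).subtype sY w

/-- The central involution. -/
def zY : Y := ev sY W321 ^ 9

theorem zrels_sY : ZRels sY zY where
  lift := by
    intro i j
    apply Subtype.ext
    show (BM.StageBFinalOf.gB (nd i) * BM.StageBFinalOf.gB (nd j)) ^ lab i j = 1
    rw [← nd_lab]
    exact BM.Psi.Rel.cox BM.StageBFinalOf.rel_gB _ _
  spider := by
    apply Subtype.ext
    rw [SubmonoidClass.coe_pow, coe_ev_sY]
    have h := BM.Psi.Rel.spider BM.StageBFinalOf.rel_gB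
    simp only [mul_assoc] at h
    simp only [ev, spider, List.map_cons, List.map_nil, List.prod_cons, List.prod_nil, mul_one]
    exact h
  e321 := rfl
  e231 := by
    apply Subtype.ext
    rw [SubmonoidClass.coe_pow, coe_ev_sY]
    have h := BM.Psi.Rel.e7a BM.StageBFinalOf.rel_gB
    simp only [mul_assoc] at h
    simp only [ev, W231, List.map_cons, List.map_nil, List.prod_cons, List.prod_nil, mul_one]
    exact h
  e213 := by
    apply Subtype.ext
    rw [SubmonoidClass.coe_pow, coe_ev_sY]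
    have h := BM.Psi.Rel.e7b BM.StageBFinalOf.rel_gB
    simp only [mul_assoc] at h
    simp only [ev, W213, List.map_cons, List.map_nil, List.prod_cons, List.prod_nil, mul_one]
    exact h

theorem card_Y : Nat.card Y = 2 * 76532479683774853939200 := BM.KHAll.card_H

theorem finite_Y : Finite Y := Nat.finite_of_card_ne_zero (by rw [card_Y]; norm_num)

theorem card_HB_Y : 2 * Nat.card HB ≤ Nat.card Y := by
  have := BM.HBFinal.card_HB_le
  rw [card_Y]
  omega

/-! ### The presentation of `Y` -/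

section Pres

variable {E : Type*} [Group E] {s : Fin 10 → E} {z : E}

/-- **Universal property of `Y`.** -/
theorem exists_hom (h : ZRels s z) : ∃ φ : Y →* E, ∀ i, φ (sY i) = s i := by
  have hfin := finite_Y
  let H : Subgroup (Y × E) := closure (Set.range fun i => (sY i, s i))
  let t : Fin 10 → H := fun i => ⟨(sY i, s i), subset_closure ⟨i, rfl⟩⟩
  have hevt : ∀ w, ((ev t w : H) : Y × E) = (ev sY w, ev s w) := by
    intro w
    have h1 : ((ev t w : H) : Y × E) = ev (fun i => (sY i, s i)) w := ev_map H.subtype t w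
    rw [h1]
    exact Prod.ext (ev_map (MonoidHom.fst Y E) _ w) (ev_map (MonoidHom.snd Y E) _ w)
  have ht : ZRels t (ev t W321 ^ 9) := by
    refine ⟨fun x y => ?_, ?_, rfl, ?_, ?_⟩
    · exact Subtype.ext (Prod.ext (zrels_sY.lift x y) (h.lift x y))
    · apply Subtype.ext
      rw [SubmonoidClass.coe_pow, hevt]
      exact Prod.ext zrels_sY.spider h.spider
    · apply Subtype.ext
      rw [SubmonoidClass.coe_pow, hevt]
      exact Prod.ext zrels_sY.e231 h.e231
    · apply Subtype.ext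
      rw [SubmonoidClass.coe_pow, hevt]
      exact Prod.ext zrels_sY.e213 h.e213
  have httop : closure (Set.range t) = ⊤ := by
    have h1 : Subgroup.map H.subtype (closure (Set.range t)) = Subgroup.map H.subtype ⊤ := by
      rw [MonoidHom.map_closure, ← Set.range_comp, ← MonoidHom.range_eq_map, Subgroup.range_subtype]
      rfl
    exact Subgroup.map_injective (Subgroup.subtype_injective _) h1
  obtain ⟨hfH, hcH⟩ := card_le ht httop
  let p : H →* Y := (MonoidHom.fst Y E).comp H.subtype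
  have hp : Surjective p := by
    rw [← MonoidHom.range_eq_top, eq_top_iff, ← closure_sY, closure_le]
    rintro _ ⟨x, rfl⟩
    exact ⟨t x, rfl⟩
  have heq : Nat.card H = Nat.card Y :=
    le_antisymm (hcH.trans card_HB_Y) (Nat.card_le_card_of_surjective _ hp)
  have hb : Bijective p := (Nat.bijective_iff_surjective_and_card _).2 ⟨hp, heq⟩
  let e := MulEquiv.ofBijective p hb
  refine ⟨((MonoidHom.snd Y E).comp H.subtype).comp e.symm.toMonoidHom, fun i => ?_⟩
  have : e.symm (sY i) = t i := by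
    rw [MulEquiv.symm_apply_eq]; rfl
  show (((e.symm (sY i) : H) : Y × E)).2 = s i
  rw [this]

end Pres

/-! ### Central extensions given by a cocycle -/

/-- The central extension of `G` by `ZMod 3` defined by a cocycle. -/
@[ext] structure CE {G : Type*} (a : G → G → ZMod 3) where
  /-- the central coordinate -/
  c : ZMod 3
  /-- the image in `G` -/
  g : G

section CE

variable {G : Type*} [Group G] {a : G → G → ZMod 3}

theorem z2_apply (ha : Z2 (triv (ZMod 3) G) ⊤ a) (g h k : G) : a g h + a (g * h) k = a h k + a g (h * k) :=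
  ha g (mem_top _) h (mem_top _) k (mem_top _)

theorem z2_one_left (ha : Z2 (triv (ZMod 3) G) ⊤ a) (g : G) : a 1 g = a 1 1 := by
  have h := z2_apply ha 1 1 g
  rw [one_mul, one_mul] at h
  exact (add_right_cancel h).symm

/-- The group structure. -/
@[reducible] def CE.grp (ha : Z2 (triv (ZMod 3) G) ⊤ a) : Group (CE a) :=
  @Group.ofLeftAxioms (CE a) ⟨fun x y => ⟨x.c + y.c + a x.g y.g, x.g * y.g⟩⟩
    ⟨fun x => ⟨- x.c - a x.g⁻¹ x.g - a 1 1, x.g⁻¹⟩⟩ ⟨⟨- a 1 1, 1⟩⟩
    (fun x y w => by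
      apply CE.ext
      · show x.c + y.c + a x.g y.g + w.c + a (x.g * y.g) w.g = x.c + (y.c + w.c + a y.g w.g) + a x.g (y.g * w.g)
        linear_combination z2_apply ha x.g y.g w.g
      · exact mul_assoc _ _ _)
    (fun x => by
      apply CE.ext
      · show - a 1 1 + x.c + a 1 x.g = x.c
        rw [z2_one_left ha x.g]
        ring
      · exact one_mul _)
    (fun x => by
      apply CE.ext
      · show - x.c - a x.g⁻¹ x.g - a 1 1 + x.c + a x.g⁻¹ x.g = - a 1 1
        ring
      · exact inv_mul_cancel _)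

theorem z2_one_right (ha : Z2 (triv (ZMod 3) G) ⊤ a) (g : G) : a g 1 = a 1 1 := by
  have h := z2_apply ha g 1 1
  rw [mul_one, mul_one] at h
  exact add_right_cancel h

/-- The central coordinate of the canonical lift of a word in involutions. -/
def val (a : G → G → ZMod 3) (s : Fin 10 → G) : List (Fin 10) → ZMod 3
  | [] => - a 1 1
  | i :: w => a (s i) (s i) + a 1 1 + val a s w + a (s i) (ev s w)

theorem val_sub (a b : G → G → ZMod 3) (c : ZMod 3) (s : Fin 10 → G) (w : List (Fin 10)) :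
    val (a - c • b) s w = val a s w - c * val b s w := by
  induction w with
  | nil => simp only [val, Pi.sub_apply, Pi.smul_apply, smul_eq_mul]; ring
  | cons i w ih => simp only [val, ih, Pi.sub_apply, Pi.smul_apply, smul_eq_mul]; ring

/-- The invariant of a cocycle. -/
def inv3 (a : G → G → ZMod 3) (s : Fin 10 → G) : ZMod 3 := val a s (rep 10 spider) + a 1 1

theorem inv3_sub (a b : G → G → ZMod 3) (c : ZMod 3) (s : Fin 10 → G) :
    inv3 (a - c • b) s = inv3 a s - c * inv3 b s := by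
  simp only [inv3, val_sub, Pi.sub_apply, Pi.smul_apply, smul_eq_mul]; ring

theorem z2_sub {b : G → G → ZMod 3} (ha : Z2 (triv (ZMod 3) G) ⊤ a) (hb : Z2 (triv (ZMod 3) G) ⊤ b) (c : ZMod 3) :
    Z2 (triv (ZMod 3) G) ⊤ (a - c • b) := by
  intro g _ h _ k _
  have h1 := z2_apply ha g h k
  have h2 := z2_apply hb g h k
  show (a g h - c * b g h) + (a (g * h) k - c * b (g * h) k) = (a h k - c * b h k) + (a g (h * k) - c * b g (h * k))
  linear_combination h1 - c * h2

end CE

theorem chk18a : chk (rep 9 W231 ++ rep 9 W231) [] = true := by decide +kernel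
theorem chk18b : chk (rep 9 W213 ++ rep 9 W213) [] = true := by decide +kernel

theorem three_zero (x : ZMod 3) (h : x + x = 0) : x = 0 := by
  revert x; decide

/-- **A cocycle with trivial invariant is a coboundary.** -/
theorem b2_of_inv3 {a : Y → Y → ZMod 3} (ha : Z2 (triv (ZMod 3) Y) ⊤ a) (h0 : inv3 a sY = 0) :
    B2 (triv (ZMod 3) Y) ⊤ a := by
  let _ : Group (CE a) := CE.grp ha
  have mc : ∀ x y : CE a, (x * y).c = x.c + y.c + a x.g y.g := fun _ _ => rfl
  have mg : ∀ x y : CE a, (x * y).g = x.g * y.g := fun _ _ => rfl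
  have oc : (1 : CE a).c = - a 1 1 := rfl
  have og : (1 : CE a).g = 1 := rfl
  let p : CE a →* Y := MonoidHom.mk' (fun x => x.g) mg
  let t : Fin 10 → CE a := fun i => ⟨a (sY i) (sY i) + a 1 1, sY i⟩
  have hev : ∀ w, ev t w = ⟨val a sY w, ev sY w⟩ := by
    intro w
    induction w with
    | nil => rfl
    | cons i w ih => rw [ev_cons, ih]; rfl
  have hp : ∀ w, p (ev t w) = ev sY w := fun w => by rw [hev]; rfl
  -- elements of the kernel
  have hcen : ∀ x y : CE a, x.g = 1 → x * y = y * x := by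
    intro x y hx
    apply CE.ext
    · rw [mc, mc, hx, z2_one_left ha y.g, z2_one_right ha y.g]; ring
    · rw [mg, mg, hx, one_mul, mul_one]
  have hker : ∀ x : CE a, x.g = 1 → x * x = 1 → x = 1 := by
    intro x hx hxx
    have h1 := congrArg CE.c hxx
    rw [mc, oc, hx] at h1
    apply CE.ext
    · rw [oc]
      have h2 := three_zero (x.c + a 1 1) (by linear_combination h1)
      linear_combination h2
    · rw [og, hx]
  have hsq : ∀ i, t i * t i = 1 := by
    intro i
    apply CE.ext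
    · rw [mc, oc]
      show a (sY i) (sY i) + a 1 1 + (a (sY i) (sY i) + a 1 1) + a (sY i) (sY i) = - a 1 1
      have h3 : (3 : ZMod 3) = 0 := rfl
      linear_combination (a (sY i) (sY i) + a 1 1) * h3
    · rw [mg, og]; exact sq zrels_sY.lift i
  have hlift : M10.IsLiftable t := by
    intro i j
    have h1 : ((t i * t j) ^ M10 i j).g = 1 := by
      show p ((t i * t j) ^ M10 i j) = 1
      rw [map_pow, map_mul]
      exact zrels_sY.lift i j
    apply hker _ h1
    have ei : (t i)⁻¹ = t i := inv_eq_of_mul_eq_one_left (hsq i)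
    have ej : (t j)⁻¹ = t j := inv_eq_of_mul_eq_one_left (hsq j)
    have h2 : t i * (t i * t j) ^ M10 i j * (t i)⁻¹ = ((t i * t j) ^ M10 i j)⁻¹ := by
      have h3 : t i * (t i * t j) * (t i)⁻¹ = (t i * t j)⁻¹ := by
        rw [mul_inv_rev, ei, ej, ← mul_assoc, hsq, one_mul]
      rw [← conj_pow, ← inv_pow, h3]
    rw [← hcen _ _ h1, mul_inv_cancel_right] at h2
    nth_rewrite 1 [h2]
    exact inv_mul_cancel _
  have hz : ZRels t (ev t W321 ^ 9) := by
    refine ⟨hlift, ?_, rfl, ?_, ?_⟩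
    · rw [← ev_rep, hev]
      have h1 : val a sY (rep 10 spider) = - a 1 1 := eq_neg_of_add_eq_zero_left h0
      rw [h1, ev_rep, zrels_sY.spider]
      rfl
    · apply hker
      · show p (ev t W231 ^ 9) = 1
        rw [map_pow, hp]; exact zrels_sY.e231
      · have h1 := ev_eq_ev hlift chk18a
        rwa [ev_append, ev_rep, ev_nil] at h1
    · apply hker
      · show p (ev t W213 ^ 9) = 1
        rw [map_pow, hp]; exact zrels_sY.e213
      · have h1 := ev_eq_ev hlift chk18b
        rwa [ev_append, ev_rep, ev_nil] at h1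
  obtain ⟨φ, hφ⟩ := exists_hom hz
  have hpφ : ∀ g, (φ g).g = g := by
    have h1 : p.comp φ = MonoidHom.id Y := by
      apply MonoidHom.eq_of_eqOn_dense closure_sY
      rintro _ ⟨i, rfl⟩
      show p (φ (sY i)) = sY i
      rw [hφ]; rfl
    exact fun g => DFunLike.congr_fun h1 g
  refine ⟨fun g => - (φ g).c, fun g _ h _ => ?_⟩
  have h1 := congrArg CE.c (map_mul φ g h)
  rw [mc, hpφ, hpφ] at h1
  show a g h = - (φ g).c + - (φ h).c - - (φ (g * h)).c
  linear_combination - h1

/-! ### The cocycle of the triple cover -/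

section Cov

variable {G E : Type*} [Group G] [Group E]

/-- Powers of an element of order three. -/
def zc (ζ : E) (k : ZMod 3) : E := ζ ^ k.val

theorem zc_nat {ζ : E} (h3 : ζ ^ 3 = 1) (k : ℕ) : zc ζ (k : ZMod 3) = ζ ^ k := by
  rw [zc, ZMod.val_natCast]
  conv_rhs => rw [← Nat.div_add_mod k 3, pow_add, pow_mul, h3, one_pow, one_mul]

theorem zc_add {ζ : E} (h3 : ζ ^ 3 = 1) (j k : ZMod 3) : zc ζ (j + k) = zc ζ j * zc ζ k := by
  have h := zc_nat h3 (j.val + k.val)
  rw [Nat.cast_add, ZMod.natCast_zmod_val, ZMod.natCast_zmod_val, pow_add] at h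
  exact h

theorem zc_inj {ζ : E} (h3 : ζ ^ 3 = 1) (hne : ζ ≠ 1) {j k : ZMod 3} (h : zc ζ j = zc ζ k) : j = k := by
  have ho : orderOf ζ = 3 := orderOf_eq_prime h3 hne
  have h1 := pow_injOn_Iio_orderOf (x := ζ) (by rw [ho]; exact j.val_lt) (by rw [ho]; exact k.val_lt) h
  exact ZMod.val_injective 3 h1

theorem exists_coc {ζ : E} (h3 : ζ ^ 3 = 1) (hne : ζ ≠ 1) (hc : ∀ x, ζ * x = x * ζ) [hN : (zpowers ζ).Normal]
    (φ : G →* E ⧸ zpowers ζ) : ∃ a : G → G → ZMod 3, Z2 (triv (ZMod 3) G) ⊤ a ∧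
      (∀ (x y : G) (X Y : E) (k : ℕ), φ x = X → φ y = Y → x * y = y * x → X * Y = ζ ^ k * (Y * X) →
        pairing a x y = k) ∧
      (∀ (x : G) (X : E), φ x = X → x ^ 3 = 1 → X ^ 3 = 1 → cube a x = 0) := by
  have hcz : ∀ k x, zc ζ k * x = x * zc ζ k := fun k x => ((show Commute ζ x from hc x).pow_left _).eq
  have hmem : ∀ X Y : E, (X : E ⧸ zpowers ζ) = Y → ∃ k, X = zc ζ k * Y := by
    intro X Y h
    obtain ⟨n, hn⟩ := QuotientGroup.eq.1 h.symm
    have hf : IsOfFinOrder ζ := isOfFinOrder_iff_pow_eq_one.2 ⟨3, by norm_num, h3⟩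
    obtain ⟨m, hm⟩ : ζ ^ n ∈ Submonoid.powers ζ := (hf.mem_powers_iff_mem_zpowers).2 ⟨n, rfl⟩
    refine ⟨m, ?_⟩
    have h1 : ζ ^ m = Y⁻¹ * X := hm.trans hn
    rw [hcz, zc_nat h3, h1, mul_inv_cancel_left]
  let T : G → E := fun g => (φ g).out
  have hT : ∀ g, (T g : E ⧸ zpowers ζ) = φ g := fun g => QuotientGroup.out_eq' _
  have ha : ∀ g h, ∃ k, T g * T h = zc ζ k * T (g * h) := fun g h =>
    hmem _ _ (by rw [QuotientGroup.mk_mul, hT, hT, hT, map_mul])
  choose a ha using ha
  have hcancel : ∀ (j k : ZMod 3) (x : E), zc ζ j * x = zc ζ k * x → j = k := fun j k x h =>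
    zc_inj h3 hne (mul_right_cancel h)
  have h1 : T 1 = zc ζ (a 1 1) := by
    have h := ha 1 1
    rw [mul_one] at h
    exact mul_right_cancel h
  refine ⟨a, ?_, ?_, ?_⟩
  · intro g _ h _ k _
    show a g h + a (g * h) k = a h k + a g (h * k)
    apply hcancel _ _ (T (g * h * k))
    calc zc ζ (a g h + a (g * h) k) * T (g * h * k) = T g * T h * T k := by
          rw [zc_add h3, mul_assoc, ← ha, ← mul_assoc, ← ha]
      _ = T g * (zc ζ (a h k) * T (h * k)) := by rw [mul_assoc, ha]
      _ = zc ζ (a h k) * (T g * T (h * k)) := by rw [← mul_assoc, ← hcz, mul_assoc]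
      _ = _ := by rw [ha, ← mul_assoc, ← zc_add h3, mul_assoc g]
  · intro x y X Y k hx hy hxy hXY
    obtain ⟨i, hi⟩ := hmem X (T x) (by rw [hT, hx])
    obtain ⟨j, hj⟩ := hmem Y (T y) (by rw [hT, hy])
    have e1 : X * Y = zc ζ (i + j + a x y) * T (x * y) := by
      rw [hi, hj, mul_assoc, ← mul_assoc (T x), ← hcz, mul_assoc, ha, zc_add h3, zc_add h3]
      simp only [mul_assoc]
    have e2 : Y * X = zc ζ (j + i + a y x) * T (x * y) := by
      rw [hi, hj, mul_assoc, ← mul_assoc (T y), ← hcz, mul_assoc, ha, zc_add h3, zc_add h3, hxy]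
      simp only [mul_assoc]
    rw [e1, e2, ← zc_nat h3, ← mul_assoc, ← zc_add h3] at hXY
    have h2 := hcancel _ _ _ hXY
    show a x y - a y x = k
    linear_combination h2
  · intro x X hx hx3 hX3
    obtain ⟨i, hi⟩ := hmem X (T x) (by rw [hT, hx])
    have hxx : x * x * x = 1 := by rw [← hx3, pow_succ, pow_two]
    have e1 : T x ^ 3 = zc ζ (cube a x) := by
      rw [pow_succ, pow_two, ha, mul_assoc, ha, hxx, h1, ← zc_add h3, ← zc_add h3]
      congr 1
      show _ = a 1 1 + a x x + a (x * x) x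
      ring
    have e2 : X ^ 3 = T x ^ 3 := by
      rw [hi, (show Commute (zc ζ i) (T x) from hcz _ _).mul_pow, zc, ← pow_mul, mul_comm, pow_mul, h3, one_pow,
        one_mul]
    apply zc_inj h3 hne
    rw [← e1, ← e2, hX3]
    exact (pow_zero ζ).symm

end Cov

/-- The group generated by the ten matrices. -/
abbrev MM : Subgroup GM := closure (Set.range mM)

/-- The ten generators. -/
def mS (i : Fin 10) : MM := ⟨mM i, subset_closure ⟨i, rfl⟩⟩

theorem coe_ev_mS (w : List (Fin 10)) : ((ev mS w : MM) : GM) = ev mM w := ev_map MM.subtype mS w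

/-- The scalar. -/
def zS : MM := ev mS spider ^ 10

theorem coe_zS : (zS : GM) = zM := by
  rw [zS, SubmonoidClass.coe_pow, coe_ev_mS, spider_m]

theorem zS_cube : zS ^ 3 = 1 := Subtype.ext (by rw [SubmonoidClass.coe_pow, coe_zS]; exact z_cube)

theorem zS_ne : zS ≠ 1 := fun h => z_ne (by rw [← coe_zS, h, OneMemClass.coe_one])

theorem zS_comm (x : MM) : zS * x = x * zS := by
  apply Subtype.ext
  rw [Subgroup.coe_mul, Subgroup.coe_mul, coe_zS]
  have h : MM ≤ centralizer {zM} := by
    rw [closure_le]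
    rintro _ ⟨i, rfl⟩ _ rfl
    exact z_comm i
  exact h x.2 zM rfl

theorem normal_of_comm {E : Type*} [Group E] {ζ : E} (hc : ∀ x, ζ * x = x * ζ) : (zpowers ζ).Normal :=
  ⟨fun n hn g => by
    obtain ⟨k, rfl⟩ := hn
    have h : Commute (ζ ^ k) g := (show Commute ζ g from hc g).zpow_left k
    show g * ζ ^ k * g⁻¹ ∈ zpowers ζ
    rw [← h.eq, mul_inv_cancel_right]
    exact ⟨k, rfl⟩⟩

theorem zS_normal : (zpowers zS).Normal := normal_of_comm zS_comm

theorem b2_pairing {G : Type*} [Group G] {a : G → G → ZMod 3} (h : B2 (triv (ZMod 3) G) ⊤ a) {x y : G}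
    (hxy : x * y = y * x) : pairing a x y = 0 := by
  obtain ⟨b, hb⟩ := h
  have h1 : a x y = b x + b y - b (x * y) := hb x (mem_top _) y (mem_top _)
  have h2 : a y x = b y + b x - b (y * x) := hb y (mem_top _) x (mem_top _)
  rw [pairing, h1, h2, hxy]
  ring

theorem uv_Y : ev sY uW * ev sY vW = ev sY vW * ev sY uW := uv_comm zrels_sY.lift zrels_sY.spider
theorem u_Y : ev sY uW ^ 3 = 1 := u_cube zrels_sY.lift
theorem v_Y : ev sY vW ^ 3 = 1 := v_cube zrels_sY.lift

/-- **The class of the triple cover spans `H²(Y, 𝔽₃)`.** -/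
theorem exists_a0 : ∃ a0 : Y → Y → ZMod 3, Z2 (triv (ZMod 3) Y) ⊤ a0 ∧
    (∀ a : Y → Y → ZMod 3, Z2 (triv (ZMod 3) Y) ⊤ a → ∃ c : ZMod 3, B2 (triv (ZMod 3) Y) ⊤ (a - c • a0)) ∧
    (∀ (u v : List (Fin 10)) (k : ℕ), chkPair u v k = true → ev sY u * ev sY v = ev sY v * ev sY u →
      pairing a0 (ev sY u) (ev sY v) = k) ∧
    (∀ u : List (Fin 10), chkCube u = true → ev sY u ^ 3 = 1 → cube a0 (ev sY u) = 0) := by
  have hN := zS_normal
  let P := QuotientGroup.mk' (zpowers zS)
  have hev : ∀ w, ev (fun i => P (mS i)) w = P (ev mS w) := fun w => (ev_map P mS w).symm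
  have hz : ZRels (fun i => P (mS i)) 1 := by
    refine ⟨fun i j => ?_, ?_, ?_, ?_, ?_⟩
    · show (P (mS i) * P (mS j)) ^ _ = 1
      have h1 : (mS i * mS j) ^ M10 i j = 1 := Subtype.ext (lift_m i j)
      rw [← map_mul, ← map_pow, h1, map_one]
    · rw [hev, ← map_pow]
      exact (QuotientGroup.eq_one_iff _).2 (mem_zpowers _)
    · have h1 : ev mS W321 ^ 9 = 1 := Subtype.ext (by rw [SubmonoidClass.coe_pow, coe_ev_mS]; exact e321_m)
      rw [hev, ← map_pow, h1, map_one]
    · have h1 : ev mS W231 ^ 9 = 1 := Subtype.ext (by rw [SubmonoidClass.coe_pow, coe_ev_mS]; exact e231_m)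
      rw [hev, ← map_pow, h1, map_one]
    · have h1 : ev mS W213 ^ 9 = 1 := Subtype.ext (by rw [SubmonoidClass.coe_pow, coe_ev_mS]; exact e213_m)
      rw [hev, ← map_pow, h1, map_one]
  obtain ⟨φ, hφ⟩ := exists_hom hz
  have hφw : ∀ w, φ (ev sY w) = ((ev mS w : MM) : MM ⧸ zpowers zS) := by
    intro w
    rw [ev_map, funext hφ, hev]
    rfl
  obtain ⟨a0, h0, hp, hc⟩ := exists_coc zS_cube zS_ne zS_comm φ
  have hp' : ∀ (u v : List (Fin 10)) (k : ℕ), chkPair u v k = true → ev sY u * ev sY v = ev sY v * ev sY u →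
      pairing a0 (ev sY u) (ev sY v) = k := by
    intro u v k h huv
    refine hp _ _ _ _ k (hφw u) (hφw v) huv (Subtype.ext ?_)
    have h1 := chkM_sound h
    rw [ev_append, ev_append] at h1
    rw [Subgroup.coe_mul, Subgroup.coe_mul, Subgroup.coe_mul, SubmonoidClass.coe_pow, coe_zS, coe_ev_mS, coe_ev_mS]
    exact h1
  refine ⟨a0, h0, fun a ha => ?_, hp', fun u h hu => ?_⟩
  · have hne : inv3 a0 sY ≠ 0 := by
      intro h
      have h1 := b2_pairing (b2_of_inv3 h0 h) uv_Y
      rw [hp' _ _ 1 pair_uv uv_Y] at h1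
      exact absurd h1 (by decide)
    refine ⟨inv3 a sY / inv3 a0 sY, b2_of_inv3 (z2_sub ha h0 _) ?_⟩
    rw [inv3_sub, div_mul_cancel₀ _ hne, sub_self]
  · refine hc _ _ (hφw u) hu (Subtype.ext ?_)
    have h1 := chkM_sound h
    rw [ev_append, ev_append, pow_zero, ev_nil, one_mul] at h1
    rw [SubmonoidClass.coe_pow, coe_ev_mS, pow_succ, pow_two]
    exact h1

end Cfsg.Agent.B5591.Cover3
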