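import Cfsg.Agent.B5591.LocDef
import Cfsg.Agent.B5591.Cover3
import Cfsg.Agent.H863.BGL

/-!
# S5591: the stabiliser of `dS` is `⟨t2, …, t11⟩`; the class of its triple cover on the pair `uA`, `vA`
-/

set_option autoImplicit false

namespace Cfsg.Agent.B5591.Geo

open Cfsg.Agent.Monster.VecEngine Cfsg.Agent.Monster.VecSpace
open Cfsg.Agent.BabyM.Conc Cfsg.Agent.BabyM
open Cfsg.Agent.H863.BRep Cfsg.Agent.H863
open Cfsg.Agent.TwoESix.Cox10 Cfsg.Agent.B5591.Cover3
open Cfsg.Spor.BabyMonster (Gen)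

/-- The generators `t2, …, t11` in the group of the model. -/
noncomputable def sA (i : Fin 10) : G := SMod.x (nd i)

/-- The first element of the pair. -/
noncomputable def uA : G := ev sA uW

/-- The second element of the pair. -/
noncomputable def vA : G := ev sA vW

/-- The letters of a word in `t2, …, t11` (the last node acts first). -/
def lettA (w : List (Fin 10)) : List Ltr := w.reverse.flatMap fun i => BM.StageW.tw (nd i)

theorem ev_sA (w : List (Fin 10)) : ev sA w = gW (lettA w) := by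
  induction w with
  | nil => exact Subtype.ext W_nil.symm
  | cons i w ih =>
    rw [ev_cons, ih]
    unfold lettA
    rw [List.reverse_cons, List.flatMap_append, SMod.gW_append, List.flatMap_singleton]
    rfl

theorem card_Ax : Nat.card Ax = 27143910000 := by
  have h := Instance.all.orb.card_D
  rw [Count.D_eq_orbit Instance.all.orb] at h
  rw [Nat.card_coe_set_eq]
  exact h

theorem d0_val0 : (d0 : V) = (1 / 8 : ℚ) • vecU ℚ U InstVec.dv0 := Inst.d_zero.symm

theorem fix_of_check {v : List Ltr}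
    (h : check ((Ltr.y1 :: v).map Ltr.prog) InstVec.dv0 ([Ltr.y1].map Ltr.prog) InstVec.dv0 = true) :
    gW v • dS = dS := by
  apply Subtype.ext
  have h1 := W_eq_of_check h
  rw [W_cons, W_single, LinearEquiv.mul_apply] at h1
  show W v (E .y1 (d0 : V)) = E .y1 (d0 : V)
  rw [d0_val0, map_smul, map_smul, h1]

theorem fa2 : check ((Ltr.y1 :: BM.StageW.tw .t2).map Ltr.prog) InstVec.dv0 ([Ltr.y1].map Ltr.prog) InstVec.dv0 = true := by
  decide +kernel
theorem fa3 : check ((Ltr.y1 :: BM.StageW.tw .t3).map Ltr.prog) InstVec.dv0 ([Ltr.y1].map Ltr.prog) InstVec.dv0 = true := by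
  decide +kernel
theorem fa4 : check ((Ltr.y1 :: BM.StageW.tw .t4).map Ltr.prog) InstVec.dv0 ([Ltr.y1].map Ltr.prog) InstVec.dv0 = true := by
  decide +kernel
theorem fa5 : check ((Ltr.y1 :: BM.StageW.tw .t5).map Ltr.prog) InstVec.dv0 ([Ltr.y1].map Ltr.prog) InstVec.dv0 = true := by
  decide +kernel
theorem fa6 : check ((Ltr.y1 :: BM.StageW.tw .t6).map Ltr.prog) InstVec.dv0 ([Ltr.y1].map Ltr.prog) InstVec.dv0 = true := by
  decide +kernel
theorem fa7 : check ((Ltr.y1 :: BM.StageW.tw .t7).map Ltr.prog) InstVec.dv0 ([Ltr.y1].map Ltr.prog) InstVec.dv0 = true := by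
  decide +kernel
theorem fa8 : check ((Ltr.y1 :: BM.StageW.tw .t8).map Ltr.prog) InstVec.dv0 ([Ltr.y1].map Ltr.prog) InstVec.dv0 = true := by
  decide +kernel
theorem fa9 : check ((Ltr.y1 :: BM.StageW.tw .t9).map Ltr.prog) InstVec.dv0 ([Ltr.y1].map Ltr.prog) InstVec.dv0 = true := by
  decide +kernel
theorem fa10 : check ((Ltr.y1 :: BM.StageW.tw .t10).map Ltr.prog) InstVec.dv0 ([Ltr.y1].map Ltr.prog) InstVec.dv0 = true := by
  decide +kernel
theorem fa11 : check ((Ltr.y1 :: BM.StageW.tw .t11).map Ltr.prog) InstVec.dv0 ([Ltr.y1].map Ltr.prog) InstVec.dv0 = true := by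
  decide +kernel

theorem x_fix {t : Gen} (ht : t ≠ .t1) : SMod.x t • dS = dS := by
  cases t
  · exact absurd rfl ht
  · exact fix_of_check fa2
  · exact fix_of_check fa3
  · exact fix_of_check fa4
  · exact fix_of_check fa5
  · exact fix_of_check fa6
  · exact fix_of_check fa7
  · exact fix_of_check fa8
  · exact fix_of_check fa9
  · exact fix_of_check fa10
  · exact fix_of_check fa11

theorem index_stab : (MulAction.stabilizer G dS).index = 27143910000 := by
  rw [MulAction.index_stabilizer, ← card_Ax]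
  have h : MulAction.orbit G dS = Set.univ := by
    rw [Set.eq_univ_iff_forall]
    intro d
    obtain ⟨g, rfl⟩ := trans d
    exact ⟨g * (gE .y1)⁻¹, by
      show (g * (gE .y1)⁻¹) • gE .y1 • d0 = g • d0
      rw [mul_smul, inv_smul_smul]⟩
  rw [h, Set.ncard_univ]

/-- **The stabiliser of `dS`.** -/
theorem stab_eq : (MulAction.stabilizer G dS).comap (BGL.iso : Spor.BabyMonster →* G) =
    BM.FactsB.HB BM.StageBFinalOf.gB := by
  have hle : BM.FactsB.HB BM.StageBFinalOf.gB ≤
      (MulAction.stabilizer G dS).comap (BGL.iso : Spor.BabyMonster →* G) := by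
    unfold BM.FactsB.HB
    rw [Subgroup.closure_le]
    rintro _ ⟨t, ht, rfl⟩
    show BGL.iso (BM.StageBFinalOf.gB t) • dS = dS
    have e : BGL.iso (BM.StageBFinalOf.gB t) = SMod.x t := BM.KHAll.iso_gB t
    rw [e]
    exact x_fix ht
  have h1 : ((MulAction.stabilizer G dS).comap (BGL.iso : Spor.BabyMonster →* G)).index = 27143910000 := by
    rw [← index_stab]
    exact Subgroup.index_comap_of_surjective (f := (BGL.iso : Spor.BabyMonster →* G)) _ BGL.iso.surjective
  have h2 := Subgroup.relIndex_mul_index hle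
  rw [h1, BM.KHAll.index_H] at h2
  have h3 : (BM.FactsB.HB BM.StageBFinalOf.gB).relIndex
      ((MulAction.stabilizer G dS).comap (BGL.iso : Spor.BabyMonster →* G)) = 1 :=
    Nat.eq_of_mul_eq_mul_right (by norm_num) (h2.trans (one_mul _).symm)
  exact le_antisymm (Subgroup.relIndex_eq_one.1 h3) hle

theorem mem_of_stab {g : G} (hg : g ∈ MulAction.stabilizer G dS) :
    BGL.iso.symm g ∈ BM.FactsB.HB BM.StageBFinalOf.gB := by
  rw [← stab_eq, Subgroup.mem_comap]
  show BGL.iso (BGL.iso.symm g) ∈ _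
  rw [MulEquiv.apply_symm_apply]
  exact hg

theorem iso_ev (w : List (Fin 10)) : BGL.iso ((ev sY w : Y) : Spor.BabyMonster) = ev sA w := by
  rw [coe_ev_sY]
  have h := ev_map (BGL.iso : Spor.BabyMonster →* G) (fun i => BM.StageBFinalOf.gB (nd i)) w
  have e : (fun i => (BGL.iso : Spor.BabyMonster →* G) (BM.StageBFinalOf.gB (nd i))) = sA :=
    funext fun i => BM.KHAll.iso_gB _
  rw [e] at h
  exact h

/-- **Box A0.** -/
theorem boxA0 : BoxA0 uA vA := by
  classical
  obtain ⟨a0, h0, -, hp, -⟩ := exists_a0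
  let ρ : G → Y := fun g => if h : BGL.iso.symm g ∈ BM.FactsB.HB BM.StageBFinalOf.gB then ⟨_, h⟩ else 1
  have hρ : ∀ {g : G} (h : BGL.iso.symm g ∈ BM.FactsB.HB BM.StageBFinalOf.gB), ρ g = ⟨_, h⟩ := fun h => dif_pos h
  have hmul : ∀ g ∈ MulAction.stabilizer G dS, ∀ h ∈ MulAction.stabilizer G dS, ρ (g * h) = ρ g * ρ h := by
    intro g hg h hh
    rw [hρ (mem_of_stab hg), hρ (mem_of_stab hh), hρ (mem_of_stab (Subgroup.mul_mem _ hg hh))]
    exact Subtype.ext (map_mul _ _ _)
  have hev : ∀ w, ρ (ev sA w) = ev sY w := by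
    intro w
    have e : BGL.iso.symm (ev sA w) = ((ev sY w : Y) : Spor.BabyMonster) := by
      rw [← iso_ev, MulEquiv.symm_apply_apply]
    rw [hρ (by rw [e]; exact (ev sY w).2)]
    exact Subtype.ext e
  refine ⟨fun g h => a0 (ρ g) (ρ h), ?_, ?_⟩
  · intro g hg h hh k hk
    have h1 := h0 (ρ g) (Subgroup.mem_top _) (ρ h) (Subgroup.mem_top _) (ρ k) (Subgroup.mem_top _)
    rw [← hmul g hg h hh, ← hmul h hh k hk] at h1
    exact h1
  · have h1 := hp _ _ 1 pair_uv uv_Y
    show a0 (ρ (ev sA uW)) (ρ (ev sA vW)) - a0 (ρ (ev sA vW)) (ρ (ev sA uW)) = 1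
    rw [hev, hev]
    exact h1

end Cfsg.Agent.B5591.Geo
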