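import Cfsg.Agent.B5591.GenA

/-!
# S5591: the boxes `BoxGen0`, `BoxGenP`, `BoxKS`
-/

set_option autoImplicit false

namespace Cfsg.Agent.B5591.Geo

open Cfsg Cfsg.Agent.SporadicA Cfsg.Agent.SporadicA.M24Gens
open Cfsg.Agent.BabyM.Conc Cfsg.Agent.BabyM Cfsg.Agent.H863 Cfsg.Agent.H863.BRep Cfsg.Agent.H863.BCode
open Cfsg.Agent.BabyM.NbAct (pPerm hPerm pPerm_tab hPerm_tab)
open Cfsg.Agent.BabyM.DuadGen (duad evalW)

/-! ### Words in the duad group -/

/-- The permutations of the elements of a subgroup. -/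
def PH (H : Subgroup G) : Subgroup (Equiv.Perm GolayPt) where
  carrier := {σ | ∃ t ∈ H, Pm t σ}
  one_mem' := ⟨1, one_mem _, Pm.one⟩
  mul_mem' := by
    rintro a b ⟨s, h1, h2⟩ ⟨t, h3, h4⟩
    exact ⟨s * t, mul_mem h1 h3, h2.mul h4⟩
  inv_mem' := by
    rintro a ⟨s, h1, h2⟩
    exact ⟨s⁻¹, inv_mem h1, h2.inv⟩

/-- `σ` has the table of the word `w`. -/
def Tb (σ : Equiv.Perm GolayPt) (w : List ℕ) : Prop := ∀ x, pidx (σ x) = evalW w (pidx x)

theorem exists_word {w : List ℕ} (hw : ∀ i ∈ w, i < 31) : ∃ σ ∈ duad, Tb σ w := by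
  obtain ⟨σ, h1, h2, -⟩ := DuadGen.word_spec pPerm_tab hPerm_tab [] w
    fun i hi => ⟨hw i hi, fun _ hb => absurd hb List.not_mem_nil⟩
  exact ⟨σ, DuadGen.closure_le pPerm_tab hPerm_tab h1, h2⟩

theorem pieces {P : Subgroup (Equiv.Perm GolayPt)} {L : List (List ℕ)} (h : ∀ w ∈ L, ∃ σ ∈ P, Tb σ w) :
    ∃ σ ∈ P, Tb σ L.flatten := by
  induction L with
  | nil => exact ⟨1, one_mem _, fun _ => rfl⟩
  | cons w L ih =>
    obtain ⟨σ, h1, h2⟩ := h w List.mem_cons_self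
    obtain ⟨τ, h3, h4⟩ := ih fun v hv => h v (List.mem_cons_of_mem _ hv)
    refine ⟨σ * τ, mul_mem h1 h3, fun x => ?_⟩
    rw [Equiv.Perm.mul_apply, h2, h4, List.flatten_cons]
    unfold evalW
    rw [List.foldr_append]

/-- The code of the image of a duad under a word. -/
def kw (w : List ℕ) (a b : ℕ) : ℕ := kap (evalW w a) ^^^ kap (evalW w b)

theorem Tb.kk_eq {σ : Equiv.Perm GolayPt} {w : List ℕ} (h : Tb σ w) (a b : GolayPt) :
    kk σ a b = kw w (pidx a) (pidx b) := by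
  unfold kk kw
  rw [h a, h b]

theorem Tb.k1 {σ : Equiv.Perm GolayPt} {w : List ℕ} (h : Tb σ w) : kk σ (some 1) (some 2) = kw w 1 2 :=
  h.kk_eq _ _

theorem Tb.k2 {σ : Equiv.Perm GolayPt} {w : List ℕ} (h : Tb σ w) : kk σ (some 13) (some 16) = kw w 13 16 :=
  h.kk_eq _ _

theorem Tb.k3 {σ : Equiv.Perm GolayPt} {w : List ℕ} (h : Tb σ w) : kk σ (some 19) (some 21) = kw w 19 21 :=
  h.kk_eq _ _

/-! ### Generation of `N0` -/

/-- The test for a piece. -/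
abbrev Ok0 (w : List ℕ) : Prop := (∀ i ∈ w, i < 31) ∧
  ((kw w 1 2 ∈ sp ∧ kw w 13 16 ∈ sp ∧ kw w 19 21 ∈ sp) ∨ (kw w 1 2 = 0xea ∧ kw w 13 16 = 0x9))

/-- The generated subgroup. -/
noncomputable def H0 : Subgroup G :=
  Subgroup.closure (((N0 ⊓ Subgroup.normalizer (KO : Set G) : Subgroup G) : Set G) ∪ KS)

theorem H0_le : H0 ≤ N0 := by
  unfold H0
  rw [Subgroup.closure_le]
  rintro g (hg | hg)
  · exact hg.1
  · exact KP_le_N0 (KS_le_KP hg)

theorem piece0 {w : List ℕ} (h : Ok0 w) : ∃ σ ∈ PH H0, Tb σ w := by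
  obtain ⟨σ, h1, h2⟩ := exists_word h.1
  refine ⟨σ, ?_, h2⟩
  rcases h.2 with ⟨h3, h4, h5⟩ | ⟨h3, h4⟩
  · obtain ⟨t, h6, h7, -⟩ := lift_T h1
    exact ⟨t, Subgroup.subset_closure (Or.inl ⟨h6, norm_KO h6 h7 (by rw [h2.k1]; exact h3)
      (by rw [h2.k2]; exact h4) (by rw [h2.k3]; exact h5)⟩), h7⟩
  · obtain ⟨t, h6, h7⟩ := lift_S h1 (h2.k1.trans h3) (h2.k2.trans h4)
    exact ⟨t, Subgroup.subset_closure (Or.inr h6), h7⟩

/-- The pieces of `p`. -/
def Lp : List (List ℕ) := [[9, 28, 24, 3], [21, 24], [4, 20, 3], [21, 24], [24], [21, 24], [7, 15, 17, 19, 0]]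

/-- The pieces of `h`. -/
def Lh : List (List ℕ) := [[16, 10, 9, 21], [10, 20, 12], [21, 24], [4, 20, 3], [21, 24], [24], [21, 24], [11, 1, 17, 0]]

theorem Lp_ok : (∀ w ∈ Lp, Ok0 w) ∧ ∀ j < 24, evalW Lp.flatten j = DuadGen.tabP.getD j 0 := by decide +kernel

theorem Lh_ok : (∀ w ∈ Lh, Ok0 w) ∧ ∀ j < 24, evalW Lh.flatten j = DuadGen.tabH.getD j 0 := by decide +kernel

theorem duad_le : duad ≤ PH H0 := by
  rw [← DuadGen.closure_eq pPerm_tab hPerm_tab, Subgroup.closure_le]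
  rintro g (rfl | rfl)
  · obtain ⟨σ, h1, h2⟩ := pieces fun w hw => piece0 (Lp_ok.1 w hw)
    have e : σ = pPerm := Equiv.ext fun x => pidx_injective (by rw [h2 x, pPerm_tab, Lp_ok.2 _ (pidx_lt x)])
    exact e ▸ h1
  · obtain ⟨σ, h1, h2⟩ := pieces fun w hw => piece0 (Lh_ok.1 w hw)
    have e : σ = hPerm := Equiv.ext fun x => pidx_injective (by rw [h2 x, hPerm_tab, Lh_ok.2 _ (pidx_lt x)])
    exact e ▸ h1

theorem boxGen0 : BoxGen0 := by
  intro g hg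
  obtain ⟨σ, h1, h2⟩ := exists_pm (N0_le_NN hg)
  obtain ⟨t, h3, h4⟩ := duad_le h1
  have h5 : g * t⁻¹ ∈ N0 := mul_mem hg (inv_mem (H0_le h3))
  have h6 : g * t⁻¹ ∈ H0 := Subgroup.subset_closure (Or.inl ⟨h5, R0_norm_KO h5
    (R0_of_pm2 (N0_le_NN hg) (N0_le_NN (H0_le h3)) h2 h4)⟩)
  have h7 := mul_mem h6 h3
  rwa [inv_mul_cancel_right] at h7

/-! ### Generation of `KP` -/

/-- The test for a piece. -/
abbrev OkP (w : List ℕ) : Prop := (∀ i ∈ w, i < 31) ∧ kw w 1 2 = 0xea ∧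
  ((kw w 13 16 ∈ sp ∧ kw w 19 21 ∈ sp) ∨ kw w 13 16 = 0x9)

/-- The generated subgroup. -/
noncomputable def HP : Subgroup G :=
  Subgroup.closure (((KP ⊓ Subgroup.normalizer (KO : Set G) : Subgroup G) : Set G) ∪ KS)

theorem HP_le : HP ≤ KP := by
  unfold HP
  rw [Subgroup.closure_le]
  rintro g (hg | hg)
  · exact hg.1
  · exact KS_le_KP hg

theorem pieceP {w : List ℕ} (h : OkP w) : ∃ σ ∈ PH HP, Tb σ w := by
  obtain ⟨σ, h1, h2⟩ := exists_word h.1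
  refine ⟨σ, ?_, h2⟩
  have h3 := h2.k1.trans h.2.1
  rcases h.2.2 with ⟨h4, h5⟩ | h4
  · obtain ⟨t, h6, h7, -⟩ := lift_P h1 h3
    exact ⟨t, Subgroup.subset_closure (Or.inl ⟨h6, norm_KO (KP_le_N0 h6) h7 (by rw [h3]; decide)
      (by rw [h2.k2]; exact h4) (by rw [h2.k3]; exact h5)⟩), h7⟩
  · obtain ⟨t, h6, h7⟩ := lift_S h1 h3 (h2.k2.trans h4)
    exact ⟨t, Subgroup.subset_closure (Or.inr h6), h7⟩

/-- A transversal for the thirty duads. -/
def LP : List (List (List ℕ)) :=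
  [[],
   [[24]],
   [[26]],
   [[18, 12]],
   [[28, 12]],
   [[22, 14]],
   [[24], [21, 24]],
   [[24], [22, 29]],
   [[24], [12, 20, 14]],
   [[24], [21, 30, 25]],
   [[24], [21, 24], [24]],
   [[24], [21, 24], [18, 12]],
   [[24], [21, 24], [28, 12]],
   [[24], [21, 24], [30, 12]],
   [[24], [21, 24], [22, 14]],
   [[24], [21, 24], [20, 19]],
   [[24], [21, 24], [14, 20]],
   [[24], [21, 24], [0, 19, 6]],
   [[24], [21, 24], [24], [21, 24]],
   [[24], [21, 24], [24], [12, 20, 14]],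
   [[24], [21, 24], [24], [25, 20, 14]],
   [[24], [21, 24], [24], [18, 23, 18]],
   [[24], [21, 24], [24], [12, 18, 5, 2]],
   [[24], [21, 24], [24], [25, 18, 5, 2]],
   [[24], [21, 24], [24], [12, 1, 6, 4]],
   [[24], [21, 24], [24], [25, 1, 6, 4]],
   [[24], [21, 24], [24], [21, 24], [18, 12]],
   [[24], [21, 24], [24], [21, 24], [18, 27]],
   [[24], [21, 24], [24], [21, 24], [2, 15, 5]],
   [[24], [21, 24], [24], [21, 24], [8, 14, 17]]]

/-- The set of the codes of duads. -/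
def DD : ℕ := 0x61020484d8414021079811024100284804241d42401086024100842b22860018009188e14207118061040288042180114200248024890014d842401240101976008b22104122840089e2408810840210124284018808e094208108120410917016024088204108190080241e881811728b2402140210917042181178117177f

theorem LP_ok : ∀ L ∈ LP, ∀ w ∈ L, OkP w := by decide +kernel

theorem DD_ok : ∀ a < 24, ∀ b < 24, DD.testBit (kap a ^^^ kap b) = true := by decide +kernel

set_option synthInstance.maxSize 1024 in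
theorem LP_cover : ∀ u < 24, ∀ v < 24, DD.testBit (0xea ^^^ (kap u ^^^ kap v)) = true → u ≠ v →
    u ∉ [0, 23, 1, 2] → v ∉ [0, 23, 1, 2] → ∃ L ∈ LP, kw L.flatten u v = 0x9 := by decide +kernel

theorem duad_1 : ∀ a < 24, ∀ b < 24, kap a ^^^ kap b = 0xea → (a = 1 ∧ b = 2) ∨ (a = 2 ∧ b = 1) := by
  decide +kernel

theorem duad_2 : ∀ a < 24, ∀ b < 24, kap a ^^^ kap b = 0x9 → (a = 13 ∧ b = 16) ∨ (a = 16 ∧ b = 13) := by
  decide +kernel

theorem duad_4 : ∀ a < 24, ∀ b < 24, kap a ^^^ kap b = 0xe3 → (a = 4 ∧ b = 22) ∨ (a = 22 ∧ b = 4) := by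
  decide +kernel

theorem swap_of {σ : Equiv.Perm GolayPt} {a b : GolayPt}
    (h : (pidx (σ a) = pidx a ∧ pidx (σ b) = pidx b) ∨ (pidx (σ a) = pidx b ∧ pidx (σ b) = pidx a)) :
    (σ a = a ∧ σ b = b) ∨ (σ a = b ∧ σ b = a) :=
  h.imp (fun h => ⟨pidx_injective h.1, pidx_injective h.2⟩) fun h => ⟨pidx_injective h.1, pidx_injective h.2⟩

theorem ne_of_swap {σ : Equiv.Perm GolayPt} {a b x : GolayPt} (h : (σ a = a ∧ σ b = b) ∨ (σ a = b ∧ σ b = a))
    (ha : x ≠ a) (hb : x ≠ b) : σ x ≠ a ∧ σ x ≠ b := by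
  rcases h with ⟨h1, h2⟩ | ⟨h1, h2⟩
  · exact ⟨fun h => ha (σ.injective (h.trans h1.symm)), fun h => hb (σ.injective (h.trans h2.symm))⟩
  · exact ⟨fun h => hb (σ.injective (h.trans h2.symm)), fun h => ha (σ.injective (h.trans h1.symm))⟩

theorem avoid {σ : Equiv.Perm GolayPt} (hσ : σ ∈ duad) (h1 : kk σ (some 1) (some 2) = 0xea) {x : GolayPt}
    (hx : x ≠ none ∧ x ≠ some 0 ∧ x ≠ some 1 ∧ x ≠ some 2) : pidx (σ x) ∉ [0, 23, 1, 2] := by
  have h2 := ne_of_swap hσ.2 hx.1 hx.2.1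
  have h3 := ne_of_swap (swap_of (a := some 1) (b := some 2) (duad_1 _ (pidx_lt _) _ (pidx_lt _) h1))
    hx.2.2.1 hx.2.2.2
  have key : ∀ y : GolayPt, y ≠ none → y ≠ some 0 → y ≠ some 1 → y ≠ some 2 → pidx y ∉ [0, 23, 1, 2] := by
    decide +kernel
  exact key _ h2.1 h2.2 h3.1 h3.2

theorem boxGenP : BoxGenP := by
  intro g hg
  have hN := N0_le_NN (KP_le_N0 hg)
  obtain ⟨σ, h1, h2⟩ := exists_pm hN
  have h3 := kk_KP hg h2
  have h4 : 0xea ^^^ kk σ (some 13) (some 16) = kk σ (some 4) (some 22) := by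
    have h5 := (link2 hN h2 (some 1) (some 2)).xor (link2 hN h2 (some 13) (some 16))
    have h6 := link2 hN h2 (some 4) (some 22)
    have e : (0xea ^^^ 0x9 : ℕ) = 0xe3 := by decide
    rw [kk1, kk2, e, h3] at h5
    rw [kk4] at h6
    exact h5.uniq h6 (Nat.xor_lt_two_pow (by norm_num) (kk_lt _ _ _)) (kk_lt _ _ _)
  obtain ⟨L, hL, h5⟩ := LP_cover _ (pidx_lt (σ (some 13))) _ (pidx_lt (σ (some 16)))
    (by
      have h6 := DD_ok _ (pidx_lt (σ (some 4))) _ (pidx_lt (σ (some 22)))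
      unfold kk at h4
      rw [h4]
      exact h6)
    (fun h => absurd (σ.injective (pidx_injective h)) (by decide))
    (avoid h1 h3 (by decide)) (avoid h1 h3 (by decide))
  obtain ⟨τ, ⟨t, h6, h7⟩, h8⟩ := pieces fun w hw => pieceP (LP_ok L hL w hw)
  have h9 : t * g ∈ KP := mul_mem (HP_le h6) hg
  have h10 := h7.mul h2
  have h11 : kk (τ * σ) (some 13) (some 16) = 0x9 := (h8.kk_eq (σ (some 13)) (σ (some 16))).trans h5
  obtain ⟨s, h12, h13⟩ := lift_S (h10.duad (N0_le_NN (KP_le_N0 h9))) (kk_KP h9 h10) h11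
  have h14 : t * g * s⁻¹ ∈ KP := mul_mem h9 (inv_mem (KS_le_KP h12))
  have h15 : t * g * s⁻¹ ∈ HP := Subgroup.subset_closure (Or.inl ⟨h14, R0_norm_KO (KP_le_N0 h14)
    (R0_of_pm2 (N0_le_NN (KP_le_N0 h9)) (N0_le_NN (KP_le_N0 (KS_le_KP h12))) h10 h13)⟩)
  have h16 : s ∈ HP := Subgroup.subset_closure (Or.inr h12)
  have h17 := mul_mem (inv_mem h6) (mul_mem h15 h16)
  rwa [inv_mul_cancel_right, inv_mul_cancel_left] at h17

/-! ### The order of `KS` -/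

theorem fix_of_swap {σ : Equiv.Perm GolayPt} (h3 : σ ^ 3 = 1) {a b : GolayPt}
    (h : (σ a = a ∧ σ b = b) ∨ (σ a = b ∧ σ b = a)) : σ a = a ∧ σ b = b := by
  rcases h with h | ⟨h1, h2⟩
  · exact h
  · have h4 : σ (σ (σ a)) = a := by
      have h5 := congrArg (fun τ : Equiv.Perm GolayPt => τ a) h3
      simpa only [pow_succ, pow_zero, one_mul, Equiv.Perm.mul_apply, Equiv.Perm.one_apply] using h5
    rw [h1, h2, h1] at h4
    subst h4
    exact ⟨h1, h1⟩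

/-- An element of order dividing three fixing the base octad pointwise is trivial. -/
theorem eq_one_of_octad {σ : Equiv.Perm GolayPt} (hσ : σ ∈ duad) (h3 : σ ^ 3 = 1)
    (h : ∀ x, pidx x ∈ [0, 23, 1, 2, 3, 5, 14, 17] → σ x = x) : σ = 1 := by
  have hex : ∃ o, pidx o ∉ [0, 23, 1, 2, 3, 5, 14, 17] ∧ σ o = o := by
    by_contra hn
    have : Fact (Nat.Prime 3) := ⟨Nat.prime_three⟩
    have h1 := Equiv.Perm.card_compl_support_modEq (p := 3) (n := 1) (σ := σ) (by rw [pow_one]; exact h3)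
    have h2 : σ.supportᶜ = Finset.univ.filter fun x => pidx x ∈ [0, 23, 1, 2, 3, 5, 14, 17] := by
      ext x
      rw [Finset.mem_compl, Equiv.Perm.notMem_support, Finset.mem_filter_univ]
      refine ⟨fun hx => ?_, h x⟩
      by_contra h4
      exact hn ⟨x, h4, hx⟩
    rw [h2] at h1
    revert h1
    decide +kernel
  obtain ⟨o, ho, h1⟩ := hex
  have hA : ∀ y : GolayPt, pidx y ∉ [0, 23, 1, 2, 3, 5, 14, 17] → pidx y ∈ DuadGen.allowed.getD 5 [] := by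
    decide +kernel
  obtain ⟨u, hu, h2, h4⟩ := DuadGen.exists_level pPerm_tab hPerm_tab 5 (by norm_num) (some 4) o rfl (hA o ho)
  have hu' := DuadGen.closure_le pPerm_tab hPerm_tab hu
  have h0 : u (some 0) = some 0 := h2 _ (by decide)
  have hn : u none = none := by
    rcases hu'.2 with ⟨h5, -⟩ | ⟨-, h5⟩
    · exact h5
    · rw [h0] at h5
      exact absurd h5 (by decide)
  have key : ∀ x, u x = x → σ x = x → (u⁻¹ * σ * u) x = x := by
    intro x h5 h6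
    rw [Equiv.Perm.mul_apply, Equiv.Perm.mul_apply, h5, h6, Equiv.Perm.inv_eq_iff_eq, h5]
  have h5 : u⁻¹ * σ * u = 1 := by
    refine M24Upper.eq_one_of_fix (mul_mem (mul_mem (inv_mem hu'.1) hσ.1) hu'.1) (key _ hn (h _ (by decide)))
      (key _ h0 (h _ (by decide))) (key _ (h2 _ (by decide)) (h _ (by decide)))
      (key _ (h2 _ (by decide)) (h _ (by decide))) (key _ (h2 _ (by decide)) (h _ (by decide)))
      (key _ (h2 _ (by decide)) (h _ (by decide))) ?_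
    rw [Equiv.Perm.mul_apply, Equiv.Perm.mul_apply, h4, h1, Equiv.Perm.inv_eq_iff_eq, h4]
  calc σ = u * (u⁻¹ * σ * u) * u⁻¹ := by group
    _ = 1 := by rw [h5, mul_one, mul_inv_cancel]

theorem boxKS : BoxKS := by
  intro hd
  have : Fact (Nat.Prime 3) := ⟨Nat.prime_three⟩
  obtain ⟨⟨x, hx⟩, ho⟩ := exists_prime_orderOf_dvd_card' 3 hd
  have ho' : orderOf x = 3 := (Subgroup.orderOf_mk x hx).symm.trans ho
  have hx3 : x ^ 3 = 1 := ho' ▸ pow_orderOf_eq_one x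
  have hP := KS_le_KP hx
  have hN := N0_le_NN (KP_le_N0 hP)
  obtain ⟨σ, h1, h2⟩ := exists_pm hN
  have h3 : σ ^ 3 = 1 := by
    have h4 := (h2.mul h2).mul h2
    rw [← pow_three', ← pow_three', hx3] at h4
    exact h4.unique Pm.one
  have c1 := cj_of_comm (NN_le_CC hN) (KP_1 hP)
  have c2 := cj_of_comm (NN_le_CC hN) (KS_2 hx)
  have c4 := cj_xor c1 c2
  have e : (0xea ^^^ 0x9 : ℕ) = 0xe3 := by decide
  rw [e, ← kk4] at c4
  rw [← kk2] at c2
  have f0 := fix_of_swap h3 h1.2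
  have f1 := fix_of_swap h3 (swap_of (a := some 1) (b := some 2)
    (duad_1 _ (pidx_lt _) _ (pidx_lt _) (kk_KP hP h2)))
  have f2 := fix_of_swap h3 (swap_of (a := some 13) (b := some 16)
    (duad_2 _ (pidx_lt _) _ (pidx_lt _) ((kk_of_cj hN h2 c2).trans kk2)))
  have f4 := fix_of_swap h3 (swap_of (a := some 4) (b := some 22)
    (duad_4 _ (pidx_lt _) _ (pidx_lt _) ((kk_of_cj hN h2 c4).trans kk4)))
  have hf : ∀ y, pidx y ∈ [0, 23, 1, 2, 13, 16, 4, 22] → σ y = y := by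
    intro y hy
    have key : ∀ y : GolayPt, pidx y ∈ [0, 23, 1, 2, 13, 16, 4, 22] → y = none ∨ y = some 0 ∨ y = some 1 ∨
        y = some 2 ∨ y = some 13 ∨ y = some 16 ∨ y = some 4 ∨ y = some 22 := by decide +kernel
    rcases key y hy with rfl | rfl | rfl | rfl | rfl | rfl | rfl | rfl
    exacts [f0.1, f0.2, f1.1, f1.2, f2.1, f2.2, f4.1, f4.2]
  obtain ⟨m, hm, hm'⟩ := exists_word (w := [5]) (by decide)
  have hc : ∀ j < 24, j ∈ [0, 23, 1, 2, 3, 5, 14, 17] → evalW [5] j ∈ [0, 23, 1, 2, 13, 16, 4, 22] := by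
    decide +kernel
  have h5 : m⁻¹ * σ * m = 1 := by
    apply eq_one_of_octad (mul_mem (mul_mem (inv_mem hm) h1) hm)
    · have e2 : m⁻¹ * σ * m = m⁻¹ * σ * m⁻¹⁻¹ := by rw [inv_inv]
      rw [e2, conj_pow, h3, mul_one, mul_inv_cancel]
    · intro y hy
      rw [Equiv.Perm.mul_apply, Equiv.Perm.mul_apply, hf (m y) (by rw [hm' y]; exact hc _ (pidx_lt y) hy),
        Equiv.Perm.inv_eq_iff_eq]
  have h6 : σ = 1 := by
    calc σ = m * (m⁻¹ * σ * m) * m⁻¹ := by group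
      _ = 1 := by rw [h5, mul_one, mul_inv_cancel]
  have h7 := orderOf_dvd_of_pow_eq_one (R0_pow (R0_of_pm hN (h6 ▸ h2)))
  rw [ho'] at h7
  exact absurd h7 (by norm_num)

end Cfsg.Agent.B5591.Geo
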