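import Cfsg.Agent.B5591.CocB

/-!
# S5591: lifts of subgroups (part c of the cocycle library)
-/

set_option autoImplicit false

namespace Cfsg.Agent.B5591

open Cfsg.Agent.H863.SExt

variable {F M G : Type*} [Field F] [AddCommGroup M] [Module F M] [Group G] {σ : G →* Module.End F M}
  {E : Type*} [Group E] {X : Ext σ E} {K T : Subgroup G} {S S' : Subgroup E}

/-- The conjugate `x S x⁻¹` of a subgroup. -/
def cjS {H : Type*} [Group H] (x : H) (S : Subgroup H) : Subgroup H := S.map (MulAut.conj x).toMonoidHom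

theorem mem_cjS {H : Type*} [Group H] {x y : H} {S : Subgroup H} : y ∈ cjS x S ↔ x⁻¹ * y * x ∈ S := by
  constructor
  · rintro ⟨s, hs, rfl⟩
    show x⁻¹ * (x * s * x⁻¹) * x ∈ S
    have e : x⁻¹ * (x * s * x⁻¹) * x = s := by group
    rw [e]
    exact hs
  · intro h
    refine ⟨_, h, ?_⟩
    show x * (x⁻¹ * y * x) * x⁻¹ = y
    group

theorem conj_mem_cjS {H : Type*} [Group H] (x : H) {s : H} {S : Subgroup H} (hs : s ∈ S) :
    x * s * x⁻¹ ∈ cjS x S := ⟨s, hs, rfl⟩

theorem cjS_mono {H : Type*} [Group H] (x : H) {S S' : Subgroup H} (h : S ≤ S') : cjS x S ≤ cjS x S' :=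
  Subgroup.map_mono h

theorem cjS_mul {H : Type*} [Group H] (x y : H) (S : Subgroup H) : cjS (x * y) S = cjS x (cjS y S) := by
  ext z
  simp only [mem_cjS, mul_inv_rev, mul_assoc]

theorem cjS_one {H : Type*} [Group H] (S : Subgroup H) : cjS 1 S = S := by
  ext z
  rw [mem_cjS, inv_one, one_mul, mul_one]

theorem mem_normalizer_iff_cjS {H : Type*} [Group H] {x : H} {S : Subgroup H} :
    x ∈ Subgroup.normalizer (S : Set H) ↔ cjS x S = S := by
  rw [Subgroup.mem_normalizer_iff]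
  constructor
  · intro h
    ext y
    rw [mem_cjS, h]
    have e : x * (x⁻¹ * y * x) * x⁻¹ = y := by group
    rw [e]
  · intro h y
    have h1 : x * y * x⁻¹ ∈ cjS x S ↔ y ∈ S := by
      rw [mem_cjS]
      have e : x⁻¹ * (x * y * x⁻¹) * x = y := by group
      rw [e]
    rw [h] at h1
    exact h1.symm

/-- Conjugation of a lift by an element of the extension. -/
theorem IsLift.cj (h : IsLift X S K) (x : E) : IsLift X (cjS x S) (cjS (X.π x) K) := by
  constructor
  · intro y hy h1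
    rw [mem_cjS] at hy
    have h2 := h.1 _ hy (by rw [map_mul, map_mul, h1, mul_one, ← map_mul, inv_mul_cancel, map_one])
    calc y = x * (x⁻¹ * y * x) * x⁻¹ := by group
      _ = 1 := by rw [h2, mul_one, mul_inv_cancel]
  · ext g
    rw [mem_cjS]
    constructor
    · rintro ⟨y, hy, rfl⟩
      have h1 := h.mem (mem_cjS.1 hy)
      rwa [map_mul, map_mul, map_inv] at h1
    · intro hg
      obtain ⟨s, hs, e⟩ := h.exists hg
      refine ⟨x * s * x⁻¹, conj_mem_cjS x hs, ?_⟩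
      rw [map_mul, map_mul, map_inv, e]
      group

/-- Conjugation of a lift by a vector. -/
theorem IsLift.cj_j (h : IsLift X S K) (m : M) : IsLift X (cjS (X.j m) S) K := by
  have h1 := h.cj (X.j m)
  rwa [X.π_j, cjS_one] at h1

/-- Restriction of a lift to a smaller subgroup. -/
theorem IsLift.restrict (h : IsLift X S K) (hT : T ≤ K) : IsLift X (S ⊓ T.comap X.π) T := by
  constructor
  · exact fun x hx => h.1 x hx.1
  · ext g
    constructor
    · rintro ⟨x, hx, rfl⟩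
      exact hx.2
    · intro hg
      obtain ⟨x, hx, e⟩ := h.exists (hT hg)
      exact ⟨x, ⟨hx, by show X.π x ∈ T; rw [e]; exact hg⟩, e⟩

/-- A lift of `T` inside a lift of `K` is the restriction. -/
theorem IsLift.eq_restrict (h : IsLift X S K) (h' : IsLift X S' T) (hS : S' ≤ S) : S' = S ⊓ T.comap X.π := by
  apply le_antisymm
  · exact fun x hx => ⟨hS hx, h'.mem hx⟩
  · rintro x ⟨hx, hx'⟩
    obtain ⟨y, hy, e⟩ := h'.exists (show X.π x ∈ T from hx')
    rw [← h.inj (hS hy) hx e]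
    exact hy

theorem IsLift.eq_of_le (h : IsLift X S K) (h' : IsLift X S' K) (hS : S' ≤ S) : S' = S := by
  apply le_antisymm hS
  intro x hx
  obtain ⟨y, hy, e⟩ := h'.exists (h.mem hx)
  rw [← h.inj (hS hy) hx e]
  exact hy

/-- An element of `E` over `T` is in the small lift as soon as it is in the big one. -/
theorem IsLift.mem_of_mem (h : IsLift X S K) (h' : IsLift X S' T) (hS : S' ≤ S) {x : E} (hx : x ∈ S)
    (hT : X.π x ∈ T) : x ∈ S' := by
  rw [h.eq_restrict h' hS]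
  exact ⟨hx, hT⟩

theorem isLift_bot : IsLift X ⊥ ⊥ :=
  ⟨fun _ hx _ => Subgroup.mem_bot.1 hx, Subgroup.map_bot _⟩

/-- The difference of two lifts is a `1`-cocycle. -/
theorem IsLift.exists_z1 (h : IsLift X S K) (h' : IsLift X S' K) :
    ∃ c : G → M, Z1 σ K c ∧ ∀ x ∈ S, X.j (c (X.π x)) * x ∈ S' := by
  classical
  have h1 : ∀ g : G, ∃ v : M, ∀ x ∈ S, X.π x = g → X.j v * x ∈ S' := by
    intro g
    by_cases hg : g ∈ K
    · obtain ⟨x, hx, e⟩ := h.exists hg
      obtain ⟨x', hx', e'⟩ := h'.exists hg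
      obtain ⟨v, hv⟩ := X.of_eq (e'.trans e.symm)
      refine ⟨v, fun y hy ey => ?_⟩
      rw [h.inj hy hx (ey.trans e.symm), ← hv]
      exact hx'
    · exact ⟨0, fun x hx e => absurd (e ▸ h.mem hx) hg⟩
  choose c hc using h1
  refine ⟨c, fun g hg k hk => ?_, fun x hx => hc _ x hx rfl⟩
  obtain ⟨x, hx, e⟩ := h.exists hg
  obtain ⟨y, hy, e'⟩ := h.exists hk
  have h2 := hc (g * k) (x * y) (S.mul_mem hx hy) (by rw [map_mul, e, e'])
  have h3 := S'.mul_mem (hc g x hx e) (hc k y hy e')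
  have h4 : X.j (c g) * x * (X.j (c k) * y) = X.j (c g + σ g (c k)) * (x * y) := by
    rw [mul_assoc, ← mul_assoc x, X.conj, e, X.j_add]
    simp only [mul_assoc]
  rw [h4] at h3
  have h5 := h'.inj h2 h3 (by rw [map_mul, map_mul X.π (X.j _), X.π_j, X.π_j])
  exact X.j_inj (mul_right_cancel h5)

/-- **Lifts are conjugate if `H¹ = 0`.** -/
theorem IsLift.conj_of_h1 (h : IsLift X S K) (h' : IsLift X S' K) (h1 : H1 σ K) :
    ∃ m : M, S' = cjS (X.j m) S := by
  obtain ⟨c, hc, hS⟩ := h.exists_z1 h'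
  obtain ⟨m, hm⟩ := h1 c hc
  refine ⟨m, (h'.eq_of_le (h.cj_j m) ?_).symm⟩
  rintro _ ⟨x, hx, rfl⟩
  show X.j m * x * (X.j m)⁻¹ ∈ S'
  rw [X.conj_elt, ← hm _ (h.mem hx)]
  exact hS x hx

/-- A vector normalises a lift of `K` iff it is fixed by `K`. -/
theorem IsLift.j_mem_normalizer (h : IsLift X S K) {m : M} :
    X.j m ∈ Subgroup.normalizer (S : Set E) ↔ ∀ g ∈ K, σ g m = m := by
  rw [mem_normalizer_iff_cjS]
  constructor
  · intro h1 g hg
    obtain ⟨x, hx, e⟩ := h.exists hg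
    have h2 : X.j m * x * (X.j m)⁻¹ ∈ S := h1 ▸ conj_mem_cjS (X.j m) hx
    have h3 := h.inj h2 hx (by rw [map_mul, map_mul, map_inv, X.π_j, one_mul, inv_one, mul_one])
    rw [← e]
    exact X.fixed_of_agree h3
  · intro h1
    apply h.eq_of_le (h.cj_j m)
    rintro _ ⟨x, hx, rfl⟩
    show X.j m * x * (X.j m)⁻¹ ∈ S
    rw [X.conj_elt, h1 _ (h.mem hx), sub_self, X.j_zero, one_mul]
    exact hx

/-- A fixed vector commutes with the elements over `K`. -/
theorem j_comm_of_fixed {m : M} {x : E} (h : σ (X.π x) m = m) : x * X.j m = X.j m * x := by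
  rw [X.conj, h]

theorem fixed_of_j_comm {m : M} {x : E} (h : x * X.j m = X.j m * x) : σ (X.π x) m = m := by
  rw [X.conj] at h
  exact X.j_inj (mul_right_cancel h)

theorem IsLift.π_mem_normalizer (h : IsLift X S K) {x : E} (hx : x ∈ Subgroup.normalizer (S : Set E)) :
    X.π x ∈ Subgroup.normalizer (K : Set G) := by
  rw [mem_normalizer_iff_cjS] at hx ⊢
  have h1 := h.cj x
  rw [hx] at h1
  exact h1.2.symm.trans h.2

/-- Frattini argument: the normaliser of a lift covers the normaliser of `K`. -/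
theorem IsLift.exists_normalizer (h : IsLift X S K) (h1 : H1 σ K) {g : G}
    (hg : g ∈ Subgroup.normalizer (K : Set G)) : ∃ x ∈ Subgroup.normalizer (S : Set E), X.π x = g := by
  obtain ⟨y, rfl⟩ := X.surj g
  have h2 := h.cj y
  rw [mem_normalizer_iff_cjS.1 hg] at h2
  obtain ⟨m, hm⟩ := h2.conj_of_h1 h h1
  refine ⟨X.j m * y, ?_, by rw [map_mul, X.π_j, one_mul]⟩
  rw [mem_normalizer_iff_cjS, cjS_mul, ← hm]

/-- **The normaliser of a rigid lift is a lift of the normaliser.** -/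
theorem IsLift.lift_normalizer (h : IsLift X S K) (h1 : H1 σ K) (h0 : Fx σ K) :
    IsLift X (Subgroup.normalizer (S : Set E)) (Subgroup.normalizer (K : Set G)) := by
  constructor
  · intro x hx e
    obtain ⟨m, rfl⟩ := X.ker x e
    rw [h0 m (h.j_mem_normalizer.1 hx), X.j_zero]
  · ext g
    constructor
    · rintro ⟨x, hx, rfl⟩
      exact h.π_mem_normalizer hx
    · exact fun hg => h.exists_normalizer h1 hg

/-- A lift of `K` normalises its restriction to a subgroup `T` which is normal in `K`. -/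
theorem IsLift.le_normalizer (h : IsLift X S K) (h' : IsLift X S' T) (hS : S' ≤ S)
    (hn : K ≤ Subgroup.normalizer (T : Set G)) : S ≤ Subgroup.normalizer (S' : Set E) := by
  intro x hx
  rw [Subgroup.mem_normalizer_iff]
  intro y
  have hg := Subgroup.mem_normalizer_iff.1 (hn (h.mem hx)) (X.π y)
  constructor
  · intro hy
    apply h.mem_of_mem h' hS (S.mul_mem (S.mul_mem hx (hS hy)) (S.inv_mem hx))
    rw [map_mul, map_mul, map_inv]
    exact hg.1 (h'.mem hy)
  · intro hy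
    have hy' : x * y * x⁻¹ ∈ S' := hy
    have h2 : y ∈ S := by
      have h3 := S.mul_mem (S.mul_mem (S.inv_mem hx) (hS hy')) hx
      have e : x⁻¹ * (x * y * x⁻¹) * x = y := by group
      rwa [e] at h3
    apply h.mem_of_mem h' hS h2
    apply hg.2
    have h4 := h'.mem hy'
    rwa [map_mul, map_mul, map_inv] at h4

/-- Two lifts of `K` which agree on a rigid normal subgroup `T` are equal. -/
theorem IsLift.eq_of_rigid {S₀ : Subgroup E} (h : IsLift X S K) (h' : IsLift X S' K) (h₀ : IsLift X S₀ T)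
    (hS : S₀ ≤ S) (hS' : S₀ ≤ S') (hn : K ≤ Subgroup.normalizer (T : Set G)) (h0 : Fx σ T) : S = S' := by
  apply h'.eq_of_le h
  intro x hx
  obtain ⟨y, hy, e⟩ := h'.exists (h.mem hx)
  obtain ⟨m, hm⟩ := X.of_eq e
  have h2 := h.le_normalizer h₀ hS hn hx
  have h3 := h'.le_normalizer h₀ hS' hn hy
  have h4 : X.j m ∈ Subgroup.normalizer (S₀ : Set E) := by
    have h5 := Subgroup.mul_mem _ h3 (Subgroup.inv_mem _ h2)
    rwa [hm, mul_inv_cancel_right] at h5
  rw [h0 m (h₀.j_mem_normalizer.1 h4), X.j_zero, one_mul] at hm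
  rw [← hm]
  exact hy

/-- A lift of `K` may be conjugated so that it contains a given lift of `T ≤ K`. -/
theorem Spl.exists_ge (h : Spl X K) (hT : T ≤ K) (h1 : H1 σ T) (h' : IsLift X S' T) :
    ∃ S : Subgroup E, IsLift X S K ∧ S' ≤ S := by
  obtain ⟨S, hS⟩ := h
  obtain ⟨m, hm⟩ := (hS.restrict hT).conj_of_h1 h' h1
  refine ⟨cjS (X.j m) S, hS.cj_j m, ?_⟩
  rw [hm]
  exact cjS_mono _ inf_le_left

/-- A cocycle of the extension adapted to a lift `S` of `K`: over the normaliser of `K` the section normalises `S`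
and the values of the cocycle are fixed by `K`. -/
theorem IsLift.exists_coc_fixed (h : IsLift X S K) (h1 : H1 σ K) :
    ∃ (t : G → E) (γ : G → G → M), IsCoc X t γ ∧
      (∀ g ∈ Subgroup.normalizer (K : Set G), t g ∈ Subgroup.normalizer (S : Set E)) ∧
      ∀ g ∈ Subgroup.normalizer (K : Set G), ∀ g' ∈ Subgroup.normalizer (K : Set G), ∀ k ∈ K,
        σ k (γ g g') = γ g g' := by
  classical
  have h2 : ∀ g : G, ∃ x : E, X.π x = g ∧
      (g ∈ Subgroup.normalizer (K : Set G) → x ∈ Subgroup.normalizer (S : Set E)) := by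
    intro g
    by_cases hg : g ∈ Subgroup.normalizer (K : Set G)
    · obtain ⟨x, hx, e⟩ := h.exists_normalizer h1 hg
      exact ⟨x, e, fun _ => hx⟩
    · obtain ⟨x, e⟩ := X.surj g
      exact ⟨x, e, fun h' => absurd h' hg⟩
  choose t ht ht' using h2
  have hf : ∀ g h : G, ∃ v, t g * t h = X.j v * t (g * h) := fun g h =>
    X.of_eq (by rw [map_mul, ht, ht, ht])
  choose γ hγ using hf
  refine ⟨t, γ, ⟨ht, hγ⟩, ht', fun g hg g' hg' => ?_⟩
  apply h.j_mem_normalizer.1
  have h3 := Subgroup.mul_mem _ (Subgroup.mul_mem _ (ht' g hg) (ht' g' hg'))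
    (Subgroup.inv_mem _ (ht' _ (Subgroup.mul_mem _ hg hg')))
  rwa [hγ, mul_inv_cancel_right] at h3

/-! ### `1`-cocycles and normal subgroups -/

theorem Z1.mul_right {c : G → M} (h : Z1 σ K c) (hT : T ≤ K) (h0 : ∀ t ∈ T, c t = 0) {g t : G} (hg : g ∈ K)
    (ht : t ∈ T) : c (g * t) = c g := by
  rw [h g hg t (hT ht), h0 t ht, map_zero, add_zero]

theorem Z1.mul_left {c : G → M} (h : Z1 σ K c) (hT : T ≤ K) (hn : K ≤ Subgroup.normalizer (T : Set G))
    (h0 : ∀ t ∈ T, c t = 0) {g t : G} (hg : g ∈ K) (ht : t ∈ T) : c (t * g) = c g := by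
  have h1 : g⁻¹ * t * g⁻¹⁻¹ ∈ T := (Subgroup.mem_normalizer_iff.1 (hn (K.inv_mem hg)) t).1 ht
  have e : t * g = g * (g⁻¹ * t * g⁻¹⁻¹) := by group
  rw [e, h.mul_right hT h0 hg h1]

theorem Z1.fixed {c : G → M} (h : Z1 σ K c) (hT : T ≤ K) (hn : K ≤ Subgroup.normalizer (T : Set G))
    (h0 : ∀ t ∈ T, c t = 0) {g t : G} (hg : g ∈ K) (ht : t ∈ T) : σ t (c g) = c g := by
  have h1 := h t (hT ht) g hg
  rw [h.mul_left hT hn h0 hg ht, h0 t ht, zero_add] at h1
  exact h1.symm

/-- A cocycle on `K` is cohomologous to one which vanishes on `T ≤ K` if `H¹(T) = 0`. -/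
theorem Z1.exists_vanish {c : G → M} (h : Z1 σ K c) (hT : T ≤ K) (h1 : H1 σ T) :
    ∃ (m : M) (c' : G → M), Z1 σ K c' ∧ (∀ g, c g = c' g + (m - σ g m)) ∧ ∀ t ∈ T, c' t = 0 := by
  obtain ⟨m, hm⟩ := h1 c (h.mono hT)
  refine ⟨m, c - fun g => m - σ g m, h.sub (z1_cob m), fun g => ?_, fun t ht => ?_⟩
  · rw [Pi.sub_apply, sub_add_cancel]
  · rw [Pi.sub_apply, hm t ht, sub_self]

/-- The form asked for in the plan. -/
theorem Z1.normal_form {c : G → M} (h : Z1 σ K c) (hT : T ≤ K) (hn : K ≤ Subgroup.normalizer (T : Set G))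
    (h1 : H1 σ T) :
    ∃ (m : M) (c' : G → M), Z1 σ K c' ∧ (∀ g, c g = c' g + (m - σ g m)) ∧ (∀ t ∈ T, c' t = 0) ∧
      ∀ g ∈ K, ∀ t ∈ T, σ t (c' g) = c' g ∧ c' (g * t) = c' g ∧ c' (t * g) = c' g := by
  obtain ⟨m, c', h2, h3, h4⟩ := h.exists_vanish hT h1
  exact ⟨m, c', h2, h3, h4, fun g hg t ht =>
    ⟨h2.fixed hT hn h4 hg ht, h2.mul_right hT h4 hg ht, h2.mul_left hT hn h4 hg ht⟩⟩

/-- `H¹(K) = 0` if it suffices to treat the cocycles which vanish on `T`. -/
theorem h1_of_vanish (hT : T ≤ K) (h1 : H1 σ T)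
    (h : ∀ c : G → M, Z1 σ K c → (∀ t ∈ T, c t = 0) → B1 σ K c) : H1 σ K := by
  intro c hc
  obtain ⟨m, c', h2, h3, h4⟩ := hc.exists_vanish hT h1
  exact ((h c' h2 h4).add (⟨m, fun g _ => rfl⟩ : B1 σ K fun g => m - σ g m)).congr fun g _ => h3 g

/-- `H¹(K) = 0` if `K` has a normal subgroup `T` with `H⁰(T) = H¹(T) = 0`. -/
theorem h1_of_normal (hT : T ≤ K) (hn : K ≤ Subgroup.normalizer (T : Set G)) (h1 : H1 σ T) (h0 : Fx σ T) :
    H1 σ K :=
  h1_of_vanish hT h1 fun c hc h4 =>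
    ⟨0, fun g hg => by rw [h0 (c g) fun t ht => hc.fixed hT hn h4 hg ht, map_zero, sub_zero]⟩

/-- The extension splits over `K` if it splits over a rigid subgroup `T` normalised by `K`. -/
theorem spl_of_normal (hn : K ≤ Subgroup.normalizer (T : Set G)) (h : Spl X T) (h1 : H1 σ T) (h0 : Fx σ T) :
    Spl X K := by
  obtain ⟨S, hS⟩ := h
  exact Spl.mono ⟨_, hS.lift_normalizer h1 h0⟩ hn

end Cfsg.Agent.B5591
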