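import Mathlib
import Cfsg.Agent.H863.SMod
import Cfsg.Agent.B5591.CocC

/-!
# S5591 (`3^4371 · B`): the flag, the axes, and the boxes (interface)

`Ω = ⟨z, p, 0xea, 0x9, 0x140⟩ = 2^5` (normaliser `2^30.L5(2)`), `Σ = ⟨z, p, 0xea, 0x9⟩`, `π = ⟨z, p, 0xea⟩`,
`ℓ = ⟨z, p⟩`; `KO ≤ KS ≤ KP ≤ N0` are their centralisers in the group `G` of the model.
-/

set_option autoImplicit false

namespace Cfsg.Agent.B5591.Geo

open Cfsg.Agent.Monster Cfsg.Agent.Monster.VecEngine Cfsg.Agent.Monster.VecSpace
open Cfsg.Agent.Monster.PauliBits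
open Cfsg.Agent.BabyM.Conc Cfsg.Agent.BabyM
open Cfsg.Agent.H863.BRep Cfsg.Agent.H863.SExt

/-- The field of three elements. -/
abbrev F3 : Type := ZMod 3

theorem two_ne : (2 : F3) ≠ 0 := by decide

/-- The module of degree `4371`. -/
abbrev V3 : Type := Lane U → F3

/-- The representation of degree `4371` over `𝔽₃`. -/
noncomputable abbrev σV : G →* Module.End F3 V3 := sigma two_ne

/-- The element of `Q` with a given code. -/
noncomputable def q (c : ℕ) : G := r (dec 11 c)

/-- The central involution of `C`. -/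
noncomputable def zz : G := gE .z

/-- The second point of the line `ℓ`. -/
noncomputable def pp : G := gE .Z10

/-- The group `Q = 2^{1+22}`. -/
noncomputable def QQ : Subgroup G := r.range

/-- The stabiliser in `C` of the line `ℓ`. -/
noncomputable def NN : Subgroup G := CertInv.N.subgroupOf Inst.M.G

/-- The centraliser of the line `ℓ`. -/
noncomputable def N0 : Subgroup G := Subgroup.centralizer {zz, pp}

/-- The centraliser of the plane `π`. -/
noncomputable def KP : Subgroup G := Subgroup.centralizer {zz, pp, q 0xea}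

/-- The centraliser of the solid `Σ`. -/
noncomputable def KS : Subgroup G := Subgroup.centralizer {zz, pp, q 0xea, q 0x9}

/-- The centraliser of `Ω`. -/
noncomputable def KO : Subgroup G := Subgroup.centralizer {zz, pp, q 0xea, q 0x9, q 0x140}

theorem KO_le_KS : KO ≤ KS := Subgroup.centralizer_le
  (Set.insert_subset_insert (Set.insert_subset_insert (Set.insert_subset_insert
    (Set.singleton_subset_iff.2 (Set.mem_insert _ _)))))

theorem KS_le_KP : KS ≤ KP := Subgroup.centralizer_le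
  (Set.insert_subset_insert (Set.insert_subset_insert (Set.singleton_subset_iff.2 (Set.mem_insert _ _))))

theorem KP_le_N0 : KP ≤ N0 := Subgroup.centralizer_le
  (Set.insert_subset_insert (Set.singleton_subset_iff.2 (Set.mem_insert _ _)))

/-! ### The signed axes -/

/-- The signed axes. -/
abbrev Ax : Type := ↥(MulAction.orbit G Inst.M.d₀)

theorem smul_val (g : G) (d : Ax) : ((g • d : Ax) : V) = g.1 (d : V) := rfl

theorem neg_mem (d : Ax) : -(d : V) ∈ MulAction.orbit G Inst.M.d₀ := by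
  obtain ⟨g, hg⟩ := d.2
  obtain ⟨n, hn, h⟩ := Instance.all.rep.neg
  refine ⟨g * ⟨n, InstMem.C_le_G hn⟩, ?_⟩
  have h1 : g.1 Inst.M.d₀ = (d : V) := hg
  show g.1 (n Inst.M.d₀) = -(d : V)
  rw [h, map_neg, h1]

/-- The negative of a signed axis. -/
noncomputable def neg (d : Ax) : Ax := ⟨-(d : V), neg_mem d⟩

theorem neg_val (d : Ax) : ((neg d : Ax) : V) = -(d : V) := rfl

theorem neg_neg' (d : Ax) : neg (neg d) = d := Subtype.ext (neg_neg _)

theorem smul_neg' (g : G) (d : Ax) : g • neg d = neg (g • d) := Subtype.ext (map_neg g.1 _)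

/-- The base axis. -/
noncomputable def d0 : Ax := ⟨Inst.M.d₀, MulAction.mem_orbit_self _⟩

theorem trans (d : Ax) : ∃ g : G, g • d0 = d := by
  obtain ⟨g, hg⟩ := d.2
  exact ⟨g, Subtype.ext hg⟩

/-- The axis fixed by `t2, ..., t11`. -/
noncomputable def dS : Ax := gE .y1 • d0

/-! ### Boxes -/

/-- Every signed axis is negated by an element centralising `Ω`. -/
def BoxNeg : Prop := ∀ d : Ax, ∃ k ∈ KO, k • d = neg d

/-- The centraliser of `Σ` has order prime to three. -/
def BoxKS : Prop := ¬ 3 ∣ Nat.card KS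

/-- Generation of `N0`. -/
def BoxGen0 : Prop :=
  N0 ≤ Subgroup.closure (((N0 ⊓ Subgroup.normalizer (KO : Set G) : Subgroup G) : Set G) ∪ KS)

/-- Generation of `KP`. -/
def BoxGenP : Prop :=
  KP ≤ Subgroup.closure (((KP ⊓ Subgroup.normalizer (KO : Set G) : Subgroup G) : Set G) ∪ KS)

/-- The Sylow `3`-subgroups of `NN` have order at most nine. -/
def BoxSyl : Prop := N0 ≤ NN ∧ ¬ 27 ∣ Nat.card NN

/-- The vector of the line `ℓ`. -/
noncomputable def wV : V3 := Pi.single H863.BVec.bI 1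

/-- The normal subgroup `O₂(NN)`. -/
def BoxR : Prop := ∃ R : Subgroup G, ¬ 3 ∣ Nat.card R ∧ R ≤ NN ∧ NN ≤ Subgroup.normalizer (R : Set G) ∧ QQ ≤ R ∧
  (∀ l ∈ [Ltr.y1, .y2, .y3, .y4, .y5, .y6, .y7, .y8, .y9, .y10], gE l ∈ R) ∧ (∀ g ∈ R, σV g wV = wV) ∧
  ∀ v : V3, (∀ g ∈ R, σV g v = v) → ∃ c : F3, v = c • wV

/-- **The local-to-global theorem**, for every module: the statement of `LG`. -/
def BoxLG : Prop := ∀ {M : Type} [AddCommGroup M] [Module F3 M] {σ : G →* Module.End F3 M} {E : Type} [Group E]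
  (X : Ext σ E), Fx σ KO → Spl X N0 → Spl X ⊤

end Cfsg.Agent.B5591.Geo
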