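import Cfsg.Agent.B5591.SpB
import Cfsg.Agent.B5591.Geo

/-!
# S5591: Coxeter lifts of the generators of the model give a splitting (box SpiderFin)
-/

set_option autoImplicit false

namespace Cfsg.Agent.B5591

open Cfsg Cfsg.Spor Cfsg.Spor.BabyMonster
open Cfsg.Agent.Monster.VecEngine Cfsg.Agent.BabyM.Conc Cfsg.Agent.BabyM.WordsInst
open Cfsg.Agent.H863 Cfsg.Agent.H863.SExt Cfsg.Agent.H863.BRep Cfsg.Agent.H863.BGrp Cfsg.Agent.H863.SMod

namespace SpiderFin

/-- The involution `(t5 t4 t3 t2 t6 t7 t9)^9`. -/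
def wf : List Ltr := [.Z10, .Z6, .Z5, .Z4, .Z2, .Z0]

/-- The Coxeter element of type `E₇`. -/
def ec : List Ltr := BM.StageW.tw .t9 ++ BM.StageW.tw .t7 ++ BM.StageW.tw .t6 ++ BM.StageW.tw .t2 ++
  BM.StageW.tw .t3 ++ BM.StageW.tw .t4 ++ BM.StageW.tw .t5

theorem ecf : BM.StageW.chk (ec ++ ec ++ ec ++ ec ++ ec ++ ec ++ ec ++ ec ++ ec) wf = true := by decide +kernel

theorem gW_wf : gW wf = Geo.q 0x475 := by
  rw [gW_R (by decide), show BabyM.KQ.cw wf = 0x475 by decide +kernel]
  rfl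

theorem f12 : (x .t5 * x .t4 * x .t3 * x .t2 * x .t6 * x .t7 * x .t9) ^ 9 = Geo.q 0x475 := by
  have h := gW_eq ecf
  have e : gW ec = x .t5 * x .t4 * x .t3 * x .t2 * x .t6 * x .t7 * x .t9 := by
    unfold ec
    simp only [gW_append, mul_assoc]
    rfl
  rw [← e, ← gW_wf, ← h]
  simp only [gW_append, pow_succ, pow_zero, one_mul, mul_assoc]

theorem iso_of (t : Gen) : BGL.iso (PresentedGroup.of t) = x t := BM.KHAll.iso_gB t

theorem closure_x : Subgroup.closure (Set.range x) = ⊤ := by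
  rw [eq_top_iff]
  intro g _
  obtain ⟨b, rfl⟩ := BGL.iso.surjective g
  have h : b ∈ Subgroup.closure (Set.range (PresentedGroup.of : Gen → BabyMonster)) := by
    rw [PresentedGroup.closure_range_of]
    exact Subgroup.mem_top _
  have h1 := Subgroup.mem_map_of_mem (BGL.iso : BabyMonster →* G) h
  rw [MonoidHom.map_closure, ← Set.range_comp] at h1
  have e : ((BGL.iso : BabyMonster →* G) ∘ PresentedGroup.of) = x := funext iso_of
  rw [e] at h1
  exact h1

end SpiderFin

/-- **SpiderFin.** -/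
theorem spiderFin {F M : Type*} [Field F] [AddCommGroup M] [Module F M] {σ : G →* Module.End F M}
    {E : Type*} [Group E] (X : Ext σ E) (h2 : (2 : F) ≠ 0) (h0 : Fx σ ⊤) (y : Gen → E)
    (hπ : ∀ t, X.π (y t) = x t) (hcox : ∀ a b, (y a * y b) ^ coxLabel edges a b = 1)
    (φ : E) (hφ2 : φ * φ = 1) (hφπ : X.π φ = Geo.q 0x475)
    (hφc : ∀ t ∈ [Gen.t2, .t3, .t4, .t5, .t6, .t7, .t9, .t10], φ * y t = y t * φ) : Spl X ⊤ := by
  obtain ⟨s, hs⟩ := Sp.sec_of_cox X h2 (BGL.iso : BabyMonster →* G) y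
    (fun t => (hπ t).trans (SpiderFin.iso_of t).symm) hcox φ hφ2 hφc
    (by
      rw [hφπ, ← SpiderFin.f12]
      simp only [map_pow, map_mul, hπ])
    (by
      intro v hv
      apply h0
      intro g hg
      rw [← SpiderFin.closure_x] at hg
      induction hg using Subgroup.closure_induction with
      | mem g hg =>
        obtain ⟨t, rfl⟩ := hg
        rw [← SpiderFin.iso_of]
        exact hv t
      | one => exact act_one v
      | mul g h _ _ ihg ihh => rw [act_mul, ihh, ihg]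
      | inv g _ ih =>
        conv_lhs => rw [← ih]
        exact act_inv_act g v)
  exact Sp.spl_of_sec X BGL.iso hs

end Cfsg.Agent.B5591
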