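import Mathlib
import Cfsg.Agent.H863.SPair
import Cfsg.Agent.B5591.LGData
import Cfsg.Agent.B5591.LGChk
import Cfsg.Agent.B5591.SpiderFin

/-!
# S5591: the local-to-global theorem
-/

set_option autoImplicit false

namespace Cfsg.Agent.B5591.LG

open Cfsg Cfsg.Agent.Monster Cfsg.Agent.Monster.PauliBits
open Cfsg.Agent.BabyM.Conc Cfsg.Agent.BabyM Cfsg.Agent.BabyM.KQ
open Cfsg.Agent.H863 Cfsg.Agent.H863.BRep Cfsg.Agent.H863.SExt Cfsg.Agent.H863.SMod Cfsg.Agent.H863.SAsm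
open Cfsg.Agent.B5591.Geo Cfsg.Agent.B5591.LGAbs Cfsg.Agent.B5591.LGSet Cfsg.Agent.B5591.LGData
open Cfsg.Spor Cfsg.Spor.BabyMonster Subgroup

theorem q_mul {a b c : ℕ} (h : mulN 11 a b = c) : q c = q a * q b := by
  unfold q
  rw [← map_mul, ← dec_mulN (by norm_num), h]

theorem zz_eq : zz = q 0x400000 := Subtype.ext E_z

theorem sw {t : Gen} {w a : ℕ} (f : Fct t w) (h : mulN 11 0x400000 w = a) :
    x t * zz * (x t)⁻¹ = zz * q a ∧ x t * q a * (x t)⁻¹ = q a :=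
  sw_of (w := q w) (x_sq t) zz_sq f.za (by rw [zz_eq]; exact q_mul h) (q_z w)

theorem sw1 : x .t1 * zz * (x .t1)⁻¹ = zz * q 0x57742f ∧ x .t1 * q 0x57742f * (x .t1)⁻¹ = q 0x57742f :=
  sw SPair.f1 (by decide +kernel)

theorem sw3 : x .t3 * zz * (x .t3)⁻¹ = zz * q 0x5efdf3 ∧ x .t3 * q 0x5efdf3 * (x .t3)⁻¹ = q 0x5efdf3 :=
  sw SPair.f3 (by decide +kernel)

theorem sw5 : x .t5 * zz * (x .t5)⁻¹ = zz * pp ∧ x .t5 * pp * (x .t5)⁻¹ = pp := by
  rw [pp_eq]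
  exact sw SPair.f5 (by decide +kernel)

theorem sw7 : x .t7 * zz * (x .t7)⁻¹ = zz * q 0x4fb42c ∧ x .t7 * q 0x4fb42c * (x .t7)⁻¹ = q 0x4fb42c :=
  sw SPair.f7 (by decide +kernel)

theorem sw10 : x .t10 * zz * (x .t10)⁻¹ = zz * q 0x1f7a49 ∧ x .t10 * q 0x1f7a49 * (x .t10)⁻¹ = q 0x1f7a49 :=
  sw SPair.f10 (by decide +kernel)

theorem x_odd {t : Gen} (h : ev t = false) : x t = q (cw (BM.StageW.tw t)) := gW_R (odd_q h)

theorem f_odd {t : Gen} (h : ev t = false) : q 0x475 * x t = x t * q 0x475 := by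
  rw [x_odd h]
  apply comm_codes
  cases t <;> first | exact absurd h (by decide) | decide +kernel

theorem f_sq : q 0x475 * q 0x475 = 1 := by
  unfold q
  rw [← map_mul, BGrp.mul_sq_pure _ (by norm_num), map_one]

variable {M : Type} [AddCommGroup M] [Module F3 M] {σ : G →* Module.End F3 M} {E : Type} [Group E] {X : Ext σ E}

/-- The Coxeter relations from the local lifts. -/
theorem cox_of {y : Gen → E} (hπ : ∀ t, X.π (y t) = x t) {S : Gen → Subgroup E} {K : Gen → Subgroup G}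
    (hS : ∀ a, IsLift X (S a) (K a)) (hK : ∀ a, Fx σ (K a)) (h1 : ∀ a, y a ∈ normalizer (S a : Set E))
    (h2 : ∀ a t, ev t = false → y t ∈ normalizer (S a : Set E))
    (hc : ∀ a b, ev a = true → ev b = true → a ≠ b → y a * y b = y b * y a) (a b : Gen) :
    (y a * y b) ^ coxLabel edges a b = 1 := by
  have key : ∀ c, y a ∈ normalizer (S c : Set E) → y b ∈ normalizer (S c : Set E) →
      (y a * y b) ^ coxLabel edges a b = 1 := fun c ha hb =>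
    norm_one (hS c) (hK c) (pow_mem (mul_mem ha hb) _) (by rw [map_pow, map_mul, hπ, hπ, cox_G])
  have sq : ∀ c, y c * y c = 1 := fun c =>
    norm_one (hS c) (hK c) (mul_mem (h1 c) (h1 c)) (by rw [map_mul, hπ, x_sq])
  cases h : ev a
  · exact key b (h2 b a h) (h1 b)
  · cases h' : ev b
    · exact key a (h1 a) (h2 a b h')
    · by_cases hab : a = b
      · subst hab
        exact key a (h1 a) (h1 a)
      · rw [ev_label h h' hab]
        exact two_of_comm (sq a) (sq b) (hc a b h h' hab)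

theorem split {S0 : Subgroup E} (U : Setting2 X zz pp (q 0x4ea) (q 0x9) S0) : Spl X ⊤ := by
  have eM1' := eM1
  have eM3' := eM3
  have eM7' := eM7
  have eM10' := eM10
  have eQ1_3' := eQ1_3
  have eQ1_7' := eQ1_7
  have eQ1_10' := eQ1_10
  have eQ3_7' := eQ3_7
  have eQ3_10' := eQ3_10
  have eQ7_10' := eQ7_10
  have tM1_3' := tM1_3
  have tM1_7' := tM1_7
  have tM1_10' := tM1_10
  have tM3_1' := tM3_1
  have tM3_7' := tM3_7
  have tM3_10' := tM3_10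
  have tM7_1' := tM7_1
  have tM7_3' := tM7_3
  have tM7_10' := tM7_10
  have tM10_1' := tM10_1
  have tM10_3' := tM10_3
  have tM10_7' := tM10_7
  rw [← pp_eq] at eM1' eM3' eM7' eM10' eQ1_3' eQ1_7' eQ1_10' eQ3_7' eQ3_10' eQ7_10' tM1_3' tM1_7' tM1_10' tM3_1'
  rw [← pp_eq] at tM3_7' tM3_10' tM7_1' tM7_3' tM7_10' tM10_1' tM10_3' tM10_7'
  obtain ⟨S1, P1⟩ := U.exists_path eM1' eP1
  obtain ⟨S3, P3⟩ := U.exists_path eM3' eP3
  obtain ⟨S7, P7⟩ := U.exists_path eM7' eP7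
  obtain ⟨S10, P10⟩ := U.exists_path eM10' eP10
  have mp : ∀ c, Md zz pp (q c * pp * (q c)⁻¹) := fun c => by rw [pp_eq]; exact md_Q _ _
  have lq : ∀ c, ∃ e ∈ normalizer (S0 : Set E), X.π e = q c := fun c =>
    U.T.exists_norm_md adm_base (qz c) (mp c)
  choose sq hsq πsq using lq
  have nq : ∀ {S : Subgroup E} {m a : ℕ}, Path X zz pp S0 S (q m) (q a) → Edge zz pp (q 0x4ea) pp (q m) →
      Edge zz pp (q 0x4ea) (q m) (q a) → ∀ c, sq c ∈ normalizer (S : Set E) := by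
    intro S m a P e1 e2 c
    refine U.path_norm P e1 e2 (hsq c) ?_ ?_ ?_ ?_ <;> rw [πsq]
    exacts [qz c, mp c, md_Q _ _, md_Q _ _]
  obtain ⟨y1, n1, π1⟩ := U.path_sw P1 sw1
  obtain ⟨y3, n3, π3⟩ := U.path_sw P3 sw3
  obtain ⟨y5, n5, π5⟩ := U.T.exists_norm_sw adm_base sw5.1 sw5.2
  obtain ⟨y7, n7, π7⟩ := U.path_sw P7 sw7
  obtain ⟨y10, n10, π10⟩ := U.path_sw P10 sw10
  have c51 : y5 * y1 = y1 * y5 := U.comm0 P1 tM1_3' tP1_3 n5 n1 (π5 ▸ sw5) (π5 ▸ LGChk.m5_1) (π5 ▸ LGChk.q5_1_3)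
    (π1 ▸ sw1) (π1 ▸ LGChk.m1) (π1 ▸ LGChk.qA1_3) (by rw [π5, π1]; exact SPair.c1_5.symm)
  have c53 : y5 * y3 = y3 * y5 := U.comm0 P3 tM3_1' tP3_1 n5 n3 (π5 ▸ sw5) (π5 ▸ LGChk.m5_3) (π5 ▸ LGChk.q5_1_3)
    (π3 ▸ sw3) (π3 ▸ LGChk.m3) (π3 ▸ LGChk.qB1_3) (by rw [π5, π3]; exact SPair.c3_5.symm)
  have c57 : y5 * y7 = y7 * y5 := U.comm0 P7 tM7_1' tP7_1 n5 n7 (π5 ▸ sw5) (π5 ▸ LGChk.m5_7) (π5 ▸ LGChk.q5_1_7)
    (π7 ▸ sw7) (π7 ▸ LGChk.m7) (π7 ▸ LGChk.qB1_7) (by rw [π5, π7]; exact SPair.c5_7)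
  have c510 : y5 * y10 = y10 * y5 := U.comm0 P10 tM10_1' tP10_1 n5 n10 (π5 ▸ sw5) (π5 ▸ LGChk.m5_10)
    (π5 ▸ LGChk.q5_1_10) (π10 ▸ sw10) (π10 ▸ LGChk.m10) (π10 ▸ LGChk.qB1_10) (by rw [π5, π10]; exact SPair.c5_10)
  have c13 : y1 * y3 = y3 * y1 := U.comm1 P1 P3 eQ1_3' tM1_3' tP1_3 tM3_1' tP3_1 oA1_3 oB1_3 n1 n3
    (π1 ▸ sw1) (π1 ▸ LGChk.qA1_3) (π1 ▸ LGChk.rA1_3) (π3 ▸ sw3) (π3 ▸ LGChk.qB1_3) (π3 ▸ LGChk.rB1_3)
    (by rw [π1, π3]; exact SPair.c1_3)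
  have c17 : y1 * y7 = y7 * y1 := U.comm1 P1 P7 eQ1_7' tM1_7' tP1_7 tM7_1' tP7_1 oA1_7 oB1_7 n1 n7
    (π1 ▸ sw1) (π1 ▸ LGChk.qA1_7) (π1 ▸ LGChk.rA1_7) (π7 ▸ sw7) (π7 ▸ LGChk.qB1_7) (π7 ▸ LGChk.rB1_7)
    (by rw [π1, π7]; exact SPair.c1_7)
  have c110 : y1 * y10 = y10 * y1 := U.comm1 P1 P10 eQ1_10' tM1_10' tP1_10 tM10_1' tP10_1 oA1_10 oB1_10 n1 n10
    (π1 ▸ sw1) (π1 ▸ LGChk.qA1_10) (π1 ▸ LGChk.rA1_10) (π10 ▸ sw10) (π10 ▸ LGChk.qB1_10) (π10 ▸ LGChk.rB1_10)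
    (by rw [π1, π10]; exact SPair.c1_10)
  have c37 : y3 * y7 = y7 * y3 := U.comm1 P3 P7 eQ3_7' tM3_7' tP3_7 tM7_3' tP7_3 oA3_7 oB3_7 n3 n7
    (π3 ▸ sw3) (π3 ▸ LGChk.qA3_7) (π3 ▸ LGChk.rA3_7) (π7 ▸ sw7) (π7 ▸ LGChk.qB3_7) (π7 ▸ LGChk.rB3_7)
    (by rw [π3, π7]; exact SPair.c3_7)
  have c310 : y3 * y10 = y10 * y3 := U.comm1 P3 P10 eQ3_10' tM3_10' tP3_10 tM10_3' tP10_3 oA3_10 oB3_10 n3 n10
    (π3 ▸ sw3) (π3 ▸ LGChk.qA3_10) (π3 ▸ LGChk.rA3_10) (π10 ▸ sw10) (π10 ▸ LGChk.qB3_10) (π10 ▸ LGChk.rB3_10)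
    (by rw [π3, π10]; exact SPair.c3_10)
  have c710 : y7 * y10 = y10 * y7 := U.comm1 P7 P10 eQ7_10' tM7_10' tP7_10 tM10_7' tP10_7 oA7_10 oB7_10 n7 n10
    (π7 ▸ sw7) (π7 ▸ LGChk.qA7_10) (π7 ▸ LGChk.rA7_10) (π10 ▸ sw10) (π10 ▸ LGChk.qB7_10) (π10 ▸ LGChk.rB7_10)
    (by rw [π7, π10]; exact SPair.c7_10)
  let y : Gen → E := fun t => match t with
    | .t1 => y1
    | .t3 => y3
    | .t5 => y5
    | .t7 => y7
    | .t10 => y10
    | t => sq (cw (BM.StageW.tw t))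
  let S : Gen → Subgroup E := fun t => match t with
    | .t1 => S1
    | .t3 => S3
    | .t7 => S7
    | .t10 => S10
    | _ => S0
  let K : Gen → Subgroup G := fun t => match t with
    | .t1 => centralizer {zz, q 0x57742f}
    | .t3 => centralizer {zz, q 0x5efdf3}
    | .t7 => centralizer {zz, q 0x4fb42c}
    | .t10 => centralizer {zz, q 0x1f7a49}
    | _ => centralizer {zz, pp}
  have ho : ∀ t, ev t = false → y t = sq (cw (BM.StageW.tw t)) := by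
    intro t h
    cases t <;> first | exact absurd h (by decide) | rfl
  have hπ : ∀ t, X.π (y t) = x t := by
    intro t
    cases h : ev t
    · rw [ho t h, πsq, x_odd h]
    · cases t <;> first | exact absurd h (by decide) | assumption
  have hS : ∀ a, IsLift X (S a) (K a) := by
    intro a
    cases a
    case t1 => exact U.path_lift P1
    case t3 => exact U.path_lift P3
    case t7 => exact U.path_lift P7
    case t10 => exact U.path_lift P10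
    all_goals exact U.T.lift
  have hK : ∀ a, Fx σ (K a) := by
    intro a
    cases a
    case t1 => exact U.path_fx eP1
    case t3 => exact U.path_fx eP3
    case t7 => exact U.path_fx eP7
    case t10 => exact U.path_fx eP10
    all_goals exact U.fx2
  have hq : ∀ a c, sq c ∈ normalizer (S a : Set E) := by
    intro a c
    cases a
    case t1 => exact nq P1 eM1' eP1 c
    case t3 => exact nq P3 eM3' eP3 c
    case t7 => exact nq P7 eM7' eP7 c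
    case t10 => exact nq P10 eM10' eP10 c
    all_goals exact hsq c
  have h1 : ∀ a, y a ∈ normalizer (S a : Set E) := by
    intro a
    cases h : ev a
    · rw [ho a h]
      exact hq _ _
    · cases a <;> first | exact absurd h (by decide) | assumption
  have hc : ∀ a b : Gen, ev a = true → ev b = true → a ≠ b → y a * y b = y b * y a := by
    intro a b ha hb hab
    cases a <;> first | exact absurd ha (by decide) | skip
    all_goals cases b <;> first | exact absurd hb (by decide) | exact absurd rfl hab | skip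
    exacts [c13, c51.symm, c17, c110, c13.symm, c53.symm, c37, c310, c51, c53, c57, c510, c17.symm, c37.symm,
      c57.symm, c710, c110.symm, c310.symm, c510.symm, c710.symm]
  have hcox := cox_of hπ hS hK h1 (fun a t h => by rw [ho t h]; exact hq _ _) hc
  refine spiderFin X two_ne (U.fx2.mono le_top) y hπ hcox (sq 0x475)
    (norm_one U.T.lift U.fx2 (mul_mem (hsq _) (hsq _)) (by rw [map_mul, πsq, f_sq])) (πsq _) ?_
  intro t ht
  refine norm_inj (hS t) (hK t) (mul_mem (hq _ _) (h1 t)) (mul_mem (h1 t) (hq _ _)) ?_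
  rw [map_mul, map_mul, πsq, hπ]
  simp only [List.mem_cons, List.not_mem_nil, or_false] at ht
  rcases ht with rfl | rfl | rfl | rfl | rfl | rfl | rfl | rfl
  exacts [f_odd rfl, LGChk.f3, f_odd rfl, LGChk.f5, f_odd rfl, LGChk.f7, f_odd rfl, LGChk.f10]

/-- **The local-to-global theorem.** -/
theorem lg (bS : BoxKS) (b0 : BoxGen0) (bP : BoxGenP) : BoxLG := by
  intro M _ _ σ E _ X hf ⟨S0, h0⟩
  exact split (setting bS b0 bP hf h0)

end Cfsg.Agent.B5591.LG
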