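import Mathlib
import Cfsg.Agent.B5591.LocChk

/-!
# S5591: the data of the local analysis
-/

set_option autoImplicit false

namespace Cfsg.Agent.B5591.LocFill

open Cfsg.Agent.Monster.VecEngine Cfsg.Agent.BabyM.Conc Cfsg.Agent.BabyM.CertVec
open Cfsg.Agent.H863.BRep Cfsg.Agent.H863.SMod
open Cfsg.Agent.B5591.Geo Cfsg.Agent.B5591.LocOrb Cfsg.Agent.B5591.LocChk Cfsg.Spor.BabyMonster

theorem gW_wL (l : List Gen) : gW (wL l) = (l.map x).prod := by
  induction l with
  | nil => exact gW_nil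
  | cons t l ih =>
    show gW (wL l ++ BM.StageW.tw t) = _
    rw [gW_append, ih, List.map_cons, List.prod_cons]
    rfl

/-- The first element. -/
noncomputable def uG : G := (uL.map x).prod

/-- The second element. -/
noncomputable def vG : G := (vL.map x).prod

theorem uG_eq : uG = gW (wL uL) := (gW_wL uL).symm

theorem vG_eq : vG = gW (wL vL) := (gW_wL vL).symm

/-! ### Axes modulo `R0` and the sign -/

/-- Equivalence modulo `R0` and the sign. -/
def Sim (d d' : Ax) : Prop := ∃ ρ ∈ R0, d' = ρ • d ∨ d' = neg (ρ • d)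

theorem Sim.refl (d : Ax) : Sim d d := ⟨1, R0.one_mem, Or.inl (one_smul _ _).symm⟩

theorem Sim.symm {d d' : Ax} (h : Sim d d') : Sim d' d := by
  obtain ⟨ρ, hρ, rfl | rfl⟩ := h
  · exact ⟨ρ⁻¹, R0.inv_mem hρ, Or.inl (inv_smul_smul _ _).symm⟩
  · exact ⟨ρ⁻¹, R0.inv_mem hρ, Or.inr (by rw [smul_neg', inv_smul_smul, neg_neg'])⟩

theorem Sim.trans {d d' d'' : Ax} (h : Sim d d') (h' : Sim d' d'') : Sim d d'' := by
  obtain ⟨ρ, hρ, h⟩ := h
  obtain ⟨ρ', hρ', h'⟩ := h'
  refine ⟨ρ' * ρ, R0.mul_mem hρ' hρ, ?_⟩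
  rw [mul_smul]
  rcases h with rfl | rfl <;> rcases h' with rfl | rfl
  · exact Or.inl rfl
  · exact Or.inr rfl
  · exact Or.inr (smul_neg' _ _)
  · exact Or.inl (by rw [smul_neg', neg_neg'])

theorem Sim.smul {d d' : Ax} (h : Sim d d') {n : G} (hn : n ∈ Subgroup.normalizer (R0 : Set G)) :
    Sim (n • d) (n • d') := by
  obtain ⟨ρ, hρ, h⟩ := h
  refine ⟨n * ρ * n⁻¹, (Subgroup.mem_normalizer_iff.1 hn ρ).1 hρ, ?_⟩
  rw [mul_smul, inv_smul_smul, mul_smul]
  rcases h with rfl | rfl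
  · exact Or.inl rfl
  · exact Or.inr (smul_neg' _ _)

/-- The stabiliser of a class. -/
def St (d : Ax) : Subgroup G where
  carrier := {n | n ∈ Subgroup.normalizer (R0 : Set G) ∧ Sim d (n • d)}
  one_mem' := ⟨Subgroup.one_mem _, by rw [one_smul]; exact Sim.refl d⟩
  mul_mem' {a b} ha hb := ⟨Subgroup.mul_mem _ ha.1 hb.1, by rw [mul_smul]; exact ha.2.trans (hb.2.smul ha.1)⟩
  inv_mem' {a} ha := ⟨Subgroup.inv_mem _ ha.1, by
    have h := ha.2.smul (Subgroup.inv_mem _ ha.1)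
    rw [inv_smul_smul] at h
    exact h.symm⟩

theorem sim18 : NN ≤ St (ax 18) := by
  apply NN_le
  · intro ρ hρ
    exact ⟨Subgroup.le_normalizer hρ, ρ, hρ, Or.inl rfl⟩
  · refine ⟨p_norm, gW rp, gW_mem_R (by decide), Or.inl ?_⟩
    rw [← gW_single]
    exact ax_eq rp_e
  · refine ⟨h_norm, gW rh, gW_mem_R (by decide), Or.inr ?_⟩
    rw [← gW_single]
    exact ax_neg rh_e

/-- The axis. -/
noncomputable def e3 : Ax := gW eW • ax 18

theorem hR (n : G) (hn : n ∈ NN) : Sim e3 (n • e3) := by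
  have h1 : gW eW ∈ NN := gW_mem_NN (by decide)
  have h2 := (sim18 (NN.mul_mem hn h1)).2
  rw [mul_smul] at h2
  exact (sim18 h1).2.symm.trans h2

theorem phi_e3 : phi e3 = 1 := by
  rw [e3, phi_smul_of_neg (neg_w e_I), phi_ax]
  decide +kernel

theorem smul_e3 (w : List Ltr) : gW w • e3 = gW (eW ++ w) • ax 18 := by
  rw [gW_append, mul_smul, e3]

/-! ### The centraliser -/

/-- The word centralises both generators. -/
def Cn (w : List Ltr) : Prop := gW w * gW x1W = gW x1W * gW w ∧ gW w * gW x2W = gW x2W * gW w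

theorem cn_of {w : List Ltr} (h1 : BM.StageW.chk (x1W ++ w) (w ++ x1W) = true)
    (h2 : BM.StageW.chk (x2W ++ w) (w ++ x2W) = true) : Cn w := by
  have h3 := gW_eq h1
  have h4 := gW_eq h2
  rw [gW_append, gW_append] at h3 h4
  exact ⟨h3, h4⟩

theorem Cn.append {v w : List Ltr} (hv : Cn v) (hw : Cn w) : Cn (v ++ w) := by
  unfold Cn
  rw [gW_append]
  constructor
  · rw [mul_assoc, hv.1, ← mul_assoc, hw.1, mul_assoc]
  · rw [mul_assoc, hv.2, ← mul_assoc, hw.2, mul_assoc]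

theorem cn0 : Cn c0 := cn_of c0_1 c0_2
theorem cn1 : Cn c1 := cn_of c1_1 c1_2
theorem cn2 : Cn c2 := cn_of c2_1 c2_2
theorem cn6 : Cn c6 := cn_of c6_1 c6_2
theorem cn8 : Cn c8 := cn_of c8_1 c8_2
theorem cn10 : Cn c10 := cn_of c10_1 c10_2

/-- The two types of axes. -/
def Typ (p : Ax) : Prop := (∃ t ∈ R0, t • p = neg p) ∨
  ∃ n ∈ NN, ∃ s : G, s * gW x1W = gW x1W * s ∧ s * gW x2W = gW x2W * s ∧ phi (s • e3) = phi e3 ∧ p = n • s • e3

theorem Typ.smul {p : Ax} (h : Typ p) {g : G} (hg : g ∈ NN) : Typ (g • p) := by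
  rcases h with ⟨t, ht, h⟩ | ⟨n, hn, s, h1, h2, h3, rfl⟩
  · refine Or.inl ⟨g * t * g⁻¹, (Subgroup.mem_normalizer_iff.1 (R0_norm hg) t).1 ht, ?_⟩
    rw [mul_smul, inv_smul_smul, mul_smul, h, smul_neg']
  · exact Or.inr ⟨g * n, NN.mul_mem hg hn, s, h1, h2, h3, (mul_smul _ _ _).symm⟩

theorem typZ {w : List Ltr} {r : Fin 19} (hw : w.all inR = true) (h : axN w r [] r = true) : Typ (ax r) := by
  refine Or.inl ⟨gW w, gW_mem_R hw, ?_⟩
  have h1 := ax_neg h
  rwa [gW_nil, one_smul] at h1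

theorem typY {s m : List Ltr} {r : Fin 19} (hs : Cn s) (hm : m.all inN = true)
    (h : axC (eW ++ s) (18 : Fin 19) m r = true) (hp : phi (gW m • ax r) = 1) : Typ (ax r) := by
  have h1 := ax_eq h
  rw [← smul_e3] at h1
  refine Or.inr ⟨(gW m)⁻¹, NN.inv_mem (gW_mem_NN hm), gW s, hs.1, hs.2, by rw [h1, hp, phi_e3], ?_⟩
  rw [h1, inv_smul_smul]

theorem typ0 : Typ (ax 0) := by
  refine typY (s := s0) (m := m0) (((((cn1.append cn1).append cn0).append cn6).append cn0).append cn2) (by decide) s0_e ?_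
  rw [phi_smul_of_fix (fix_w m0_I), phi_ax]
  decide +kernel

theorem typ1 : Typ (ax 1) := typZ (w := z1) (by decide) z1_e

theorem typ2 : Typ (ax 2) := typZ (w := z2) (by decide) z2_e

theorem typ3 : Typ (ax 3) := by
  refine typY (s := s3) (m := m3) ((((cn2.append cn10).append cn0).append cn2).append cn0) (by decide) s3_e ?_
  rw [phi_smul_of_neg (neg_w m3_I), phi_ax]
  decide +kernel

theorem typ4 : Typ (ax 4) := typZ (w := z4) (by decide) z4_e

theorem typ5 : Typ (ax 5) := typZ (w := z5) (by decide) z5_e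

theorem typ6 : Typ (ax 6) := by
  refine typY (s := s6) (m := m6) (((cn2.append cn0).append cn0).append cn2) (by decide) s6_e ?_
  rw [phi_smul_of_neg (neg_w m6_I), phi_ax]
  decide +kernel

theorem typ7 : Typ (ax 7) := typZ (w := z7) (by decide) z7_e

theorem typ8 : Typ (ax 8) := typZ (w := z8) (by decide) z8_e

theorem typ9 : Typ (ax 9) := by
  refine typY (s := s9) (m := m9) (((cn2.append cn0).append cn0).append cn8) (by decide) s9_e ?_
  rw [phi_smul_of_fix (fix_w m9_I), phi_ax]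
  decide +kernel

theorem typ10 : Typ (ax 10) := typZ (w := z10) (by decide) z10_e

theorem typ11 : Typ (ax 11) := typZ (w := z11) (by decide) z11_e

theorem typ12 : Typ (ax 12) := by
  refine typY (s := s12) (m := m12) (((cn0.append cn0).append cn8).append cn0) (by decide) s12_e ?_
  rw [phi_smul_of_fix (fix_w m12_I), phi_ax]
  decide +kernel

theorem typ13 : Typ (ax 13) := typZ (w := z13) (by decide) z13_e

theorem typ14 : Typ (ax 14) := typZ (w := z14) (by decide) z14_e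

theorem typ15 : Typ (ax 15) := by
  refine typY (s := s15) (m := m15) cn2 (by decide) s15_e ?_
  rw [phi_smul_of_fix (fix_w m15_I), phi_ax]
  decide +kernel

theorem typ16 : Typ (ax 16) := typZ (w := z16) (by decide) z16_e

theorem typ17 : Typ (ax 17) := typZ (w := z17) (by decide) z17_e

theorem typ18 : Typ (ax 18) := by
  have h : gW eW ∈ NN := gW_mem_NN (by decide)
  refine Or.inr ⟨(gW eW)⁻¹, NN.inv_mem h, 1, by rw [one_mul, mul_one], by rw [one_mul, mul_one],
    by rw [one_smul], ?_⟩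
  rw [one_smul, e3, inv_smul_smul]

theorem typ (r : Fin 19) : Typ (ax r) := by
  fin_cases r
  exacts [typ0, typ1, typ2, typ3, typ4, typ5, typ6, typ7, typ8, typ9, typ10, typ11, typ12, typ13, typ14, typ15,
    typ16, typ17, typ18]

theorem typ_all (p : Ax) : Typ p := by
  obtain ⟨r, n, hn, rfl⟩ := cov p
  exact (typ r).smul hn

theorem cube_of {w : List Ltr} (h : BM.StageW.chk (w ++ w ++ w) [] = true) : gW w ^ 3 = 1 := by
  have h1 := gW_eq h
  rw [gW_append, gW_append, gW_nil] at h1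
  rw [pow_succ', pow_two, h1]

theorem inv_of {w n : List Ltr} (h : BM.StageW.chk (w ++ n ++ w) n = true) : gW n * gW w * (gW n)⁻¹ = (gW w)⁻¹ := by
  have h1 := gW_eq h
  rw [gW_append, gW_append] at h1
  rw [eq_inv_iff_mul_eq_one]
  calc gW n * gW w * (gW n)⁻¹ * gW w = (gW w)⁻¹ * ((gW w * (gW n * gW w)) * (gW n)⁻¹) * gW w := by group
    _ = 1 := by rw [h1]; group

theorem conj_of {a b n : List Ltr} (h : BM.StageW.chk (a ++ n) (n ++ b) = true) : gW n * gW a * (gW n)⁻¹ = gW b := by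
  have h1 := gW_eq h
  rw [gW_append, gW_append] at h1
  rw [h1, mul_inv_cancel_right]

theorem conj_of2 {a b c n : List Ltr} (h : BM.StageW.chk (a ++ n) (n ++ b ++ c) = true) :
    gW n * gW a * (gW n)⁻¹ = gW c * gW b := by
  have h1 := gW_eq h
  rw [gW_append, gW_append, gW_append] at h1
  rw [h1, ← mul_assoc, mul_inv_cancel_right]

theorem conj_of3 {a b n : List Ltr} {g : G} (hg : g = gW a) (h : BM.StageW.chk (a ++ n) (n ++ b) = true) :
    gW n * g * (gW n)⁻¹ = gW b := by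
  rw [hg]
  exact conj_of h

theorem ku : gW kW * uG * (gW kW)⁻¹ = gW x1W := conj_of3 (a := wL uL) (b := x1W) (n := kW) uG_eq LocChk.k_u

theorem kv : gW kW * vG * (gW kW)⁻¹ = gW x2W := conj_of3 (a := wL vL) (b := x2W) (n := kW) vG_eq LocChk.k_v

theorem smul_cons (l : Ltr) (w : List Ltr) (d : Ax) : gW (l :: w) • d = gW w • gE l • d := by
  rw [gW_cons, mul_smul]

theorem ke : gW kW • dS = e3 := by
  have h : gW (.y1 :: kW) • ax 0 = gW eW • ax 18 := ax_eq LocChk.k_e
  rw [dS, d0_eq, ← smul_cons, h, e3]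

/-- The data. -/
noncomputable def data : LocData uG vG where
  x1 := gW x1W
  x2 := gW x2W
  e3 := e3
  n0 := gW n0W
  n1 := gW n1W
  k := gW kW
  a := 1
  b := 1
  c := 0
  d := 2
  x1_3 := cube_of x1_3
  x2_3 := cube_of x2_3
  comm := by
    have h := gW_eq x12
    rwa [gW_append, gW_append] at h
  x1_mem := gW_mem_NN (by decide)
  x2_mem := gW_mem_NN (by decide)
  fix1 := by rw [smul_e3]; exact ax_eq fix1
  fix2 := by rw [smul_e3]; exact ax_eq fix2
  phi_ne := by rw [phi_e3]; exact one_ne_zero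
  hR := hR
  n0_mem := gW_mem_NN (by decide)
  n0_1 := inv_of n0_1
  n0_2 := inv_of n0_2
  n0_phi := phi_smul_of_fix (fix_w n0_I) _
  n1_mem := gW_mem_NN (by decide)
  n1_1 := by
    rw [pow_one, pow_one]
    exact conj_of2 n1_1
  n1_2 := by
    rw [pow_zero, one_mul, pow_two]
    exact conj_of2 n1_2
  n1_det := by decide
  n1_phi := phi_smul_of_neg (neg_w n1_I) _
  k_u := ku
  k_v := kv
  k_e := Or.inl ke
  cover p := by
    refine ⟨1, by rw [one_mul, mul_one], by rw [one_mul, mul_one], by rw [one_smul], ?_⟩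
    rw [one_smul]
    rcases typ_all p with h | ⟨n, hn, s, h1, h2, h3, h4⟩
    · exact Or.inl h
    · exact Or.inr ⟨n, hn, s, h1, h2, h3, Or.inl h4⟩

theorem loc : Nonempty (LocData uG vG) := ⟨data⟩

end Cfsg.Agent.B5591.LocFill
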