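import Cfsg.Agent.B5591.Final
import Cfsg.Agent.B5591.LG
import Cfsg.Agent.B5591.A0
import Cfsg.Agent.B5591.LocFill
import Cfsg.Agent.B5591.GenB

/-!
# S5591: all boxes except `BoxNeg`
-/

set_option autoImplicit false

namespace Cfsg.Agent.B5591.Geo

theorem uA_eq : uA = LocFill.uG := rfl

theorem vA_eq : vA = LocFill.vG := rfl

theorem boxLG : BoxLG := LG.lg boxKS boxGen0 boxGenP

theorem locA : Nonempty (LocData uA vA) := by
  rw [uA_eq, vA_eq]
  exact LocFill.loc

end Cfsg.Agent.B5591.Geo
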