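import Cfsg.Agent.B5591.Defs

/-!
# S5591: cocycles and extensions (part a of the cocycle library)

Linear algebra of `Z1, B1, Z2, B2`; the cocycle of an extension; splitting over a subgroup is `B2`; the twisted
product `Tw`; two extensions with cohomologous cocycles (up to sign) are isomorphic groups.
-/

set_option autoImplicit false

namespace Cfsg.Agent.B5591

open Cfsg.Agent.H863.SExt

section Alg

variable {F M G : Type*} [Field F] [AddCommGroup M] [Module F M] [Group G] {σ : G →* Module.End F M}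
  {K A : Subgroup G}

theorem act_mul (g h : G) (m : M) : σ (g * h) m = σ g (σ h m) := by
  rw [map_mul]; rfl

theorem act_one (m : M) : σ 1 m = m := by
  rw [map_one]; rfl

theorem act_inv_act (g : G) (m : M) : σ g⁻¹ (σ g m) = m := by
  rw [← act_mul, inv_mul_cancel, act_one]

theorem act_act_inv (g : G) (m : M) : σ g (σ g⁻¹ m) = m := by
  rw [← act_mul, mul_inv_cancel, act_one]

theorem act_inj (g : G) {m n : M} (h : σ g m = σ g n) : m = n := by
  rw [← act_inv_act (σ := σ) g m, h, act_inv_act]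

theorem Fx.mono (h : Fx σ A) (hA : A ≤ K) : Fx σ K := fun m hm => h m fun g hg => hm g (hA hg)

/-! ### `1`-cocycles -/

theorem Z1.mono {c : G → M} (h : Z1 σ K c) (hA : A ≤ K) : Z1 σ A c :=
  fun g hg k hk => h g (hA hg) k (hA hk)

theorem B1.mono {c : G → M} (h : B1 σ K c) (hA : A ≤ K) : B1 σ A c := by
  obtain ⟨m, hm⟩ := h
  exact ⟨m, fun g hg => hm g (hA hg)⟩

theorem Z1.congr {c c' : G → M} (h : Z1 σ K c) (e : ∀ g ∈ K, c' g = c g) : Z1 σ K c' := by
  intro g hg k hk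
  rw [e _ (K.mul_mem hg hk), e g hg, e k hk, h g hg k hk]

theorem B1.congr {c c' : G → M} (h : B1 σ K c) (e : ∀ g ∈ K, c' g = c g) : B1 σ K c' := by
  obtain ⟨m, hm⟩ := h
  exact ⟨m, fun g hg => by rw [e g hg, hm g hg]⟩

theorem Z1.zero : Z1 σ K (0 : G → M) := by
  intro g _ k _
  simp

theorem Z1.add {c c' : G → M} (h : Z1 σ K c) (h' : Z1 σ K c') : Z1 σ K (c + c') := by
  intro g hg k hk
  simp only [Pi.add_apply, h g hg k hk, h' g hg k hk, map_add]
  abel

theorem Z1.smul {c : G → M} (h : Z1 σ K c) (a : F) : Z1 σ K (a • c) := by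
  intro g hg k hk
  simp only [Pi.smul_apply, h g hg k hk, map_smul, smul_add]

theorem Z1.neg {c : G → M} (h : Z1 σ K c) : Z1 σ K (-c) := by
  intro g hg k hk
  simp only [Pi.neg_apply, h g hg k hk, map_neg]
  abel

theorem Z1.sub {c c' : G → M} (h : Z1 σ K c) (h' : Z1 σ K c') : Z1 σ K (c - c') := by
  rw [sub_eq_add_neg]
  exact h.add h'.neg

theorem z1_cob (m : M) : Z1 σ K (fun g => m - σ g m) := by
  intro g _ k _
  simp only [act_mul, map_sub]
  abel

theorem B1.z1 {c : G → M} (h : B1 σ K c) : Z1 σ K c := by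
  obtain ⟨m, hm⟩ := h
  exact (z1_cob m).congr hm

theorem B1.zero : B1 σ K (0 : G → M) := ⟨0, fun g _ => by simp⟩

theorem B1.add {c c' : G → M} (h : B1 σ K c) (h' : B1 σ K c') : B1 σ K (c + c') := by
  obtain ⟨m, hm⟩ := h
  obtain ⟨m', hm'⟩ := h'
  refine ⟨m + m', fun g hg => ?_⟩
  simp only [Pi.add_apply, hm g hg, hm' g hg, map_add]
  abel

theorem B1.smul {c : G → M} (h : B1 σ K c) (a : F) : B1 σ K (a • c) := by
  obtain ⟨m, hm⟩ := h
  refine ⟨a • m, fun g hg => ?_⟩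
  simp only [Pi.smul_apply, hm g hg, map_smul, smul_sub]

theorem B1.neg {c : G → M} (h : B1 σ K c) : B1 σ K (-c) := by
  obtain ⟨m, hm⟩ := h
  refine ⟨-m, fun g hg => ?_⟩
  simp only [Pi.neg_apply, hm g hg, map_neg]
  abel

theorem B1.sub {c c' : G → M} (h : B1 σ K c) (h' : B1 σ K c') : B1 σ K (c - c') := by
  rw [sub_eq_add_neg]
  exact h.add h'.neg

theorem Z1.one {c : G → M} (h : Z1 σ K c) : c 1 = 0 := by
  have h1 := h 1 K.one_mem 1 K.one_mem
  rw [mul_one, act_one] at h1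
  exact left_eq_add.1 h1

theorem Z1.inv {c : G → M} (h : Z1 σ K c) {g : G} (hg : g ∈ K) : c g⁻¹ = -σ g⁻¹ (c g) := by
  have h1 := h g⁻¹ (K.inv_mem hg) g hg
  rw [inv_mul_cancel, h.one] at h1
  exact eq_neg_of_add_eq_zero_left h1.symm

/-- The elements on which a `1`-cocycle vanishes. -/
def Z1.ker {c : G → M} (h : Z1 σ K c) : Subgroup G where
  carrier := {g | g ∈ K ∧ c g = 0}
  one_mem' := ⟨K.one_mem, h.one⟩
  mul_mem' := by
    rintro a b ⟨ha, ha'⟩ ⟨hb, hb'⟩
    exact ⟨K.mul_mem ha hb, by rw [h a ha b hb, ha', hb', map_zero, add_zero]⟩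
  inv_mem' := by
    rintro a ⟨ha, ha'⟩
    exact ⟨K.inv_mem ha, by rw [h.inv ha, ha', map_zero, neg_zero]⟩

/-- A `1`-cocycle which vanishes on generators vanishes. -/
theorem Z1.eq_zero_of_closure {c : G → M} {S : Set G} (h : Z1 σ (Subgroup.closure S) c)
    (hS : ∀ s ∈ S, c s = 0) : ∀ g ∈ Subgroup.closure S, c g = 0 := by
  have h1 : Subgroup.closure S ≤ h.ker := by
    rw [Subgroup.closure_le]
    exact fun s hs => ⟨Subgroup.subset_closure hs, hS s hs⟩
  exact fun g hg => (h1 hg).2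

/-- A `1`-cocycle which is a coboundary on generators is a coboundary. -/
theorem Z1.b1_of_closure {c : G → M} {S : Set G} (h : Z1 σ (Subgroup.closure S) c) (m : M)
    (hS : ∀ s ∈ S, c s = m - σ s m) : B1 σ (Subgroup.closure S) c := by
  refine ⟨m, fun g hg => ?_⟩
  have h1 := (h.sub (z1_cob m)).eq_zero_of_closure (fun s hs => by
    simp only [Pi.sub_apply, hS s hs, sub_self]) g hg
  simpa only [Pi.sub_apply, sub_eq_zero] using h1

/-! ### `2`-cocycles -/

theorem Z2.mono {γ : G → G → M} (h : Z2 σ K γ) (hA : A ≤ K) : Z2 σ A γ :=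
  fun a ha b hb c hc => h a (hA ha) b (hA hb) c (hA hc)

theorem B2.mono {γ : G → G → M} (h : B2 σ K γ) (hA : A ≤ K) : B2 σ A γ := by
  obtain ⟨b, hb⟩ := h
  exact ⟨b, fun g hg k hk => hb g (hA hg) k (hA hk)⟩

theorem Z2.congr {γ γ' : G → G → M} (h : Z2 σ K γ) (e : ∀ g ∈ K, ∀ k ∈ K, γ' g k = γ g k) : Z2 σ K γ' := by
  intro a ha b hb c hc
  rw [e a ha b hb, e _ (K.mul_mem ha hb) c hc, e b hb c hc, e a ha _ (K.mul_mem hb hc), h a ha b hb c hc]

theorem B2.congr {γ γ' : G → G → M} (h : B2 σ K γ) (e : ∀ g ∈ K, ∀ k ∈ K, γ' g k = γ g k) : B2 σ K γ' := by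
  obtain ⟨b, hb⟩ := h
  exact ⟨b, fun g hg k hk => by rw [e g hg k hk, hb g hg k hk]⟩

theorem Z2.zero : Z2 σ K (0 : G → G → M) := by
  intro a _ b _ c _
  simp

theorem Z2.add {γ γ' : G → G → M} (h : Z2 σ K γ) (h' : Z2 σ K γ') : Z2 σ K (γ + γ') := by
  intro a ha b hb c hc
  have h1 := h a ha b hb c hc
  have h2 := h' a ha b hb c hc
  simp only [Pi.add_apply, map_add]
  calc γ a b + γ' a b + (γ (a * b) c + γ' (a * b) c)
      = (γ a b + γ (a * b) c) + (γ' a b + γ' (a * b) c) := by abel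
    _ = _ := by rw [h1, h2]; abel

theorem Z2.smul {γ : G → G → M} (h : Z2 σ K γ) (x : F) : Z2 σ K (x • γ) := by
  intro a ha b hb c hc
  simp only [Pi.smul_apply, map_smul, ← smul_add, h a ha b hb c hc]

theorem Z2.neg {γ : G → G → M} (h : Z2 σ K γ) : Z2 σ K (-γ) := by
  have h1 := h.smul (-1 : F)
  rwa [neg_one_smul] at h1

theorem Z2.sub {γ γ' : G → G → M} (h : Z2 σ K γ) (h' : Z2 σ K γ') : Z2 σ K (γ - γ') := by
  rw [sub_eq_add_neg]
  exact h.add h'.neg

theorem z2_cob (b : G → M) : Z2 σ K (fun g h => b g + σ g (b h) - b (g * h)) := by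
  intro g _ h _ k _
  simp only [act_mul, map_sub, map_add, mul_assoc]
  abel

theorem B2.z2 {γ : G → G → M} (h : B2 σ K γ) : Z2 σ K γ := by
  obtain ⟨b, hb⟩ := h
  exact (z2_cob b).congr hb

theorem B2.zero : B2 σ K (0 : G → G → M) := ⟨0, fun g _ k _ => by simp⟩

theorem B2.add {γ γ' : G → G → M} (h : B2 σ K γ) (h' : B2 σ K γ') : B2 σ K (γ + γ') := by
  obtain ⟨b, hb⟩ := h
  obtain ⟨b', hb'⟩ := h'
  refine ⟨b + b', fun g hg k hk => ?_⟩
  simp only [Pi.add_apply, hb g hg k hk, hb' g hg k hk, map_add]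
  abel

theorem B2.smul {γ : G → G → M} (h : B2 σ K γ) (x : F) : B2 σ K (x • γ) := by
  obtain ⟨b, hb⟩ := h
  refine ⟨x • b, fun g hg k hk => ?_⟩
  simp only [Pi.smul_apply, hb g hg k hk, map_smul, smul_sub, smul_add]

theorem B2.neg {γ : G → G → M} (h : B2 σ K γ) : B2 σ K (-γ) := by
  have h1 := h.smul (-1 : F)
  rwa [neg_one_smul] at h1

theorem B2.sub {γ γ' : G → G → M} (h : B2 σ K γ) (h' : B2 σ K γ') : B2 σ K (γ - γ') := by
  rw [sub_eq_add_neg]
  exact h.add h'.neg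

/-- `γ` cohomologous to `γ'` and `γ'` a coboundary. -/
theorem B2.of_sub {γ γ' : G → G → M} (h : B2 σ K (γ - γ')) (h' : B2 σ K γ') : B2 σ K γ := by
  have h1 := h.add h'
  rwa [sub_add_cancel] at h1

theorem B2.of_sub' {γ γ' : G → G → M} (h : B2 σ K (γ - γ')) (h' : B2 σ K γ) : B2 σ K γ' := by
  have h1 := h'.sub h
  rwa [sub_sub_cancel] at h1

theorem B2.symm {γ γ' : G → G → M} (h : B2 σ K (γ - γ')) : B2 σ K (γ' - γ) := by
  have h1 := h.neg
  rwa [neg_sub] at h1

theorem B2.trans {γ γ' γ'' : G → G → M} (h : B2 σ K (γ - γ')) (h' : B2 σ K (γ' - γ'')) : B2 σ K (γ - γ'') := by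
  have h1 := h.add h'
  rwa [sub_add_sub_cancel] at h1

theorem Z2.one_left {γ : G → G → M} (h : Z2 σ K γ) {k : G} (hk : k ∈ K) : γ 1 k = γ 1 1 := by
  have h1 := h 1 K.one_mem 1 K.one_mem k hk
  rw [mul_one, one_mul, act_one] at h1
  exact (add_right_cancel h1).symm

theorem Z2.one_right {γ : G → G → M} (h : Z2 σ K γ) {g : G} (hg : g ∈ K) : γ g 1 = σ g (γ 1 1) := by
  have h1 := h g hg 1 K.one_mem 1 K.one_mem
  rw [mul_one, mul_one] at h1
  exact add_right_cancel h1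

/-- Images under an equivariant linear map. -/
theorem Z2.map {M' : Type*} [AddCommGroup M'] [Module F M'] {σ' : G →* Module.End F M'} (f : M →ₗ[F] M')
    (hf : ∀ g ∈ K, ∀ m, f (σ g m) = σ' g (f m)) {γ : G → G → M} (h : Z2 σ K γ) :
    Z2 σ' K (fun g k => f (γ g k)) := by
  intro a ha b hb c hc
  simp only [← hf a ha, ← map_add, h a ha b hb c hc]

theorem B2.map {M' : Type*} [AddCommGroup M'] [Module F M'] {σ' : G →* Module.End F M'} (f : M →ₗ[F] M')
    (hf : ∀ g ∈ K, ∀ m, f (σ g m) = σ' g (f m)) {γ : G → G → M} (h : B2 σ K γ) :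
    B2 σ' K (fun g k => f (γ g k)) := by
  obtain ⟨b, hb⟩ := h
  refine ⟨fun g => f (b g), fun g hg k hk => ?_⟩
  simp only [hb g hg k hk, map_sub, map_add, hf g hg]

theorem Z1.map {M' : Type*} [AddCommGroup M'] [Module F M'] {σ' : G →* Module.End F M'} (f : M →ₗ[F] M')
    (hf : ∀ g ∈ K, ∀ m, f (σ g m) = σ' g (f m)) {c : G → M} (h : Z1 σ K c) :
    Z1 σ' K (fun g => f (c g)) := by
  intro a ha b hb
  simp only [← hf a ha, ← map_add, h a ha b hb]

theorem B1.map {M' : Type*} [AddCommGroup M'] [Module F M'] {σ' : G →* Module.End F M'} (f : M →ₗ[F] M')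
    (hf : ∀ g ∈ K, ∀ m, f (σ g m) = σ' g (f m)) {c : G → M} (h : B1 σ K c) :
    B1 σ' K (fun g => f (c g)) := by
  obtain ⟨m, hm⟩ := h
  refine ⟨f m, fun g hg => ?_⟩
  simp only [hm g hg, map_sub, hf g hg]

/-- Pull-back along a homomorphism of groups. -/
theorem Z2.comap {H : Type*} [Group H] (φ : H →* G) {L : Subgroup H} (hL : ∀ x ∈ L, φ x ∈ K) {γ : G → G → M}
    (h : Z2 σ K γ) : Z2 (σ.comp φ) L (fun x y => γ (φ x) (φ y)) := by
  intro a ha b hb c hc
  simp only [map_mul, MonoidHom.comp_apply]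
  exact h _ (hL a ha) _ (hL b hb) _ (hL c hc)

theorem B2.comap {H : Type*} [Group H] (φ : H →* G) {L : Subgroup H} (hL : ∀ x ∈ L, φ x ∈ K) {γ : G → G → M}
    (h : B2 σ K γ) : B2 (σ.comp φ) L (fun x y => γ (φ x) (φ y)) := by
  obtain ⟨b, hb⟩ := h
  refine ⟨fun x => b (φ x), fun x hx y hy => ?_⟩
  simp only [map_mul, MonoidHom.comp_apply]
  exact hb _ (hL x hx) _ (hL y hy)

end Alg

/-! ### The cocycle of an extension -/

section Ext

variable {F M G : Type*} [Field F] [AddCommGroup M] [Module F M] [Group G] {σ : G →* Module.End F M}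
  {E : Type*} [Group E] {X : Ext σ E} {K : Subgroup G}

variable (X) in
theorem exists_coc : ∃ (t : G → E) (γ : G → G → M), IsCoc X t γ := by
  choose t ht using X.surj
  have hf : ∀ g h : G, ∃ v, t g * t h = X.j v * t (g * h) := fun g h =>
    X.of_eq (by rw [map_mul, ht, ht, ht])
  choose f hf using hf
  exact ⟨t, f, ht, hf⟩

theorem IsCoc.z2 {t : G → E} {γ : G → G → M} (h : IsCoc X t γ) : Z2 σ ⊤ γ := by
  obtain ⟨ht, hf⟩ := h
  intro g _ h _ k _
  apply X.j_inj
  have h1 : t g * t h * t k = X.j (γ g h + γ (g * h) k) * t (g * h * k) := by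
    rw [hf g h, mul_assoc, hf (g * h) k, ← mul_assoc, ← X.j_add]
  have h2 : t g * t h * t k = X.j (σ g (γ h k) + γ g (h * k)) * t (g * h * k) := by
    rw [mul_assoc, hf h k, ← mul_assoc, X.conj, ht, mul_assoc, hf g (h * k), ← mul_assoc, ← X.j_add,
      mul_assoc g h k]
  exact mul_right_cancel (h1.symm.trans h2)

theorem IsCoc.mul {t : G → E} {γ : G → G → M} (h : IsCoc X t γ) (m n : M) (g k : G) :
    X.j m * t g * (X.j n * t k) = X.j (m + σ g n + γ g k) * t (g * k) := by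
  rw [mul_assoc, ← mul_assoc (t g), X.conj, h.1, X.j_add, X.j_add, mul_assoc (X.j (σ g n)), h.2 g k]
  simp only [mul_assoc]

theorem IsCoc.exists_eq {t : G → E} {γ : G → G → M} (h : IsCoc X t γ) (x : E) :
    ∃ m, x = X.j m * t (X.π x) := X.of_eq (h.1 _).symm

theorem IsCoc.ext {t : G → E} {γ : G → G → M} (h : IsCoc X t γ) {m n : M} {g k : G}
    (e : X.j m * t g = X.j n * t k) : m = n ∧ g = k := by
  have h1 := congrArg X.π e
  rw [map_mul, map_mul, X.π_j, X.π_j, one_mul, one_mul, h.1, h.1] at h1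
  subst h1
  exact ⟨X.j_inj (mul_right_cancel e), rfl⟩

theorem IsCoc.one {t : G → E} {γ : G → G → M} (h : IsCoc X t γ) : t 1 = X.j (γ 1 1) := by
  have h1 := h.2 1 1
  rw [mul_one] at h1
  exact mul_right_cancel h1

/-- Two cocycles of the same extension are cohomologous. -/
theorem IsCoc.b2_sub {t t' : G → E} {γ γ' : G → G → M} (h : IsCoc X t γ) (h' : IsCoc X t' γ') :
    B2 σ ⊤ (γ - γ') := by
  have hb : ∀ g, ∃ v, t g = X.j v * t' g := fun g => X.of_eq (by rw [h.1, h'.1])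
  choose b hb using hb
  refine ⟨b, fun g _ k _ => ?_⟩
  have h1 := h.2 g k
  rw [hb g, hb k, hb (g * k), h'.mul, ← mul_assoc, ← X.j_add] at h1
  have h2 := (h'.ext h1).1
  simp only [Pi.sub_apply]
  rw [eq_sub_iff_add_eq, sub_add_eq_add_sub, ← h2]
  abel

theorem IsLift.mem {S : Subgroup E} (h : IsLift X S K) {x : E} (hx : x ∈ S) : X.π x ∈ K := by
  rw [← h.2]
  exact ⟨x, hx, rfl⟩

theorem IsLift.exists {S : Subgroup E} (h : IsLift X S K) {g : G} (hg : g ∈ K) : ∃ x ∈ S, X.π x = g := by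
  rw [← h.2] at hg
  exact hg

theorem IsLift.inj {S : Subgroup E} (h : IsLift X S K) {x y : E} (hx : x ∈ S) (hy : y ∈ S)
    (e : X.π x = X.π y) : x = y := by
  have h1 := h.1 (x * y⁻¹) (S.mul_mem hx (S.inv_mem hy)) (by rw [map_mul, map_inv, e, mul_inv_cancel])
  exact mul_inv_eq_one.1 h1

/-- A lift from a homomorphic section. -/
theorem isLift_range {s : K →* E} (hs : X.IsSec s) : IsLift X s.range K := by
  constructor
  · rintro _ ⟨k, rfl⟩ hk
    rw [hs k] at hk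
    have : k = 1 := Subtype.ext hk
    rw [this, map_one]
  · ext g
    constructor
    · rintro ⟨_, ⟨k, rfl⟩, rfl⟩
      rw [hs k]
      exact k.2
    · intro hg
      exact ⟨s ⟨g, hg⟩, ⟨_, rfl⟩, hs _⟩

/-- A homomorphic section from a lift. -/
theorem IsLift.exists_sec {S : Subgroup E} (h : IsLift X S K) :
    ∃ s : K →* E, X.IsSec s ∧ s.range = S := by
  have h1 : ∀ k : K, ∃ x ∈ S, X.π x = k := fun k => h.exists k.2
  choose f hf hf' using h1
  refine ⟨MonoidHom.mk' f fun a b => ?_, hf', ?_⟩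
  · apply h.inj (hf _) (S.mul_mem (hf a) (hf b))
    rw [map_mul, hf', hf', hf']
    rfl
  · ext x
    constructor
    · rintro ⟨k, rfl⟩
      exact hf k
    · intro hx
      exact ⟨⟨X.π x, h.mem hx⟩, h.inj (hf _) hx (hf' _)⟩

theorem spl_iff_sec : Spl X K ↔ ∃ s : K →* E, X.IsSec s := by
  constructor
  · rintro ⟨S, hS⟩
    obtain ⟨s, hs, -⟩ := hS.exists_sec
    exact ⟨s, hs⟩
  · rintro ⟨s, hs⟩
    exact ⟨_, isLift_range hs⟩

/-- **Splitting over `K` is the vanishing of the class on `K`.** -/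
theorem IsCoc.spl_iff {t : G → E} {γ : G → G → M} (h : IsCoc X t γ) : Spl X K ↔ B2 σ K γ := by
  classical
  constructor
  · rintro ⟨S, hS⟩
    have h1 : ∀ g, ∃ v : M, g ∈ K → X.j (-v) * t g ∈ S := by
      intro g
      by_cases hg : g ∈ K
      · obtain ⟨x, hx, e⟩ := hS.exists hg
        obtain ⟨m, hm⟩ := h.exists_eq x
        refine ⟨-m, fun _ => ?_⟩
        rw [neg_neg, ← e, ← hm]
        exact hx
      · exact ⟨0, fun h' => absurd h' hg⟩
    choose b hb using h1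
    refine ⟨b, fun g hg k hk => ?_⟩
    have h2 := S.mul_mem (hb g hg) (hb k hk)
    rw [h.mul] at h2
    have h3 := hS.inj h2 (hb _ (K.mul_mem hg hk)) (by
      rw [map_mul, map_mul, X.π_j, X.π_j])
    have h4 := (h.ext h3).1
    rw [map_neg] at h4
    rw [eq_sub_iff_add_eq, ← neg_neg (b (g * k)), ← h4]
    abel
  · rintro ⟨b, hb⟩
    rw [spl_iff_sec]
    refine ⟨MonoidHom.mk' (fun g : K => X.j (-b g) * t g) fun g k => ?_, fun g => ?_⟩
    · show X.j (-b (g * k)) * t (g * k) = X.j (-b g) * t g * (X.j (-b k) * t k)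
      rw [h.mul, hb g g.2 k k.2, map_neg]
      congr 2
      abel
    · show X.π (X.j (-b g) * t g) = g
      rw [map_mul, X.π_j, one_mul, h.1]

theorem Spl.mono {A : Subgroup G} (h : Spl X K) (hA : A ≤ K) : Spl X A := by
  obtain ⟨t, γ, hc⟩ := exists_coc X
  rw [hc.spl_iff] at h ⊢
  exact h.mono hA

/-- The extension with `j` replaced by `-j`. -/
def negExt (X : Ext σ E) : Ext σ E where
  π := X.π
  surj := X.surj
  j v := X.j (-v)
  j_add a b := by rw [neg_add, X.j_add]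
  j_inj a b h := neg_injective (X.j_inj h)
  ker x hx := by
    obtain ⟨v, hv⟩ := X.ker x hx
    exact ⟨-v, by rw [neg_neg]; exact hv⟩
  π_j v := X.π_j _
  conj x v := by rw [X.conj, map_neg]

theorem IsCoc.neg {t : G → E} {γ : G → G → M} (h : IsCoc X t γ) : IsCoc (negExt X) t (-γ) := by
  refine ⟨h.1, fun g k => ?_⟩
  show t g * t k = X.j (-(-γ g k)) * t (g * k)
  rw [neg_neg]
  exact h.2 g k

/-- **Cohomologous cocycles give isomorphic extensions.** -/
theorem equiv_of_B2 {E' : Type*} [Group E'] {X' : Ext σ E'} {t : G → E} {t' : G → E'} {γ γ' : G → G → M}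
    (h : IsCoc X t γ) (h' : IsCoc X' t' γ') (hb : B2 σ ⊤ (γ - γ')) :
    ∃ e : E ≃* E', (∀ x, X'.π (e x) = X.π x) ∧ ∀ v, e (X.j v) = X'.j v := by
  obtain ⟨b, hb⟩ := hb
  have hb' : ∀ g k, γ g k + b (g * k) = b g + σ g (b k) + γ' g k := by
    intro g k
    have h1 := hb g trivial k trivial
    simp only [Pi.sub_apply] at h1
    rw [sub_eq_iff_eq_add] at h1
    rw [h1]
    abel
  choose μ hμ using h.exists_eq
  have hμ' : ∀ m g, μ (X.j m * t g) = m := by
    intro m g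
    exact (h.ext (hμ (X.j m * t g))).1.symm
  have hπ : ∀ m g, X.π (X.j m * t g) = g := fun m g => by rw [map_mul, X.π_j, one_mul, h.1]
  let f : E → E' := fun x => X'.j (μ x + b (X.π x)) * t' (X.π x)
  have hf : ∀ m g, f (X.j m * t g) = X'.j (m + b g) * t' g := by
    intro m g
    show X'.j (μ (X.j m * t g) + b (X.π (X.j m * t g))) * t' (X.π (X.j m * t g)) = _
    rw [hμ', hπ]
  have hmul : ∀ x y, f (x * y) = f x * f y := by
    intro x y
    rw [hμ x, hμ y, h.mul, hf, hf, hf, h'.mul, map_add]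
    congr 2
    rw [add_assoc, hb']
    abel
  let φ : E →* E' := MonoidHom.mk' f hmul
  have hφπ : ∀ x, X'.π (φ x) = X.π x := by
    intro x
    show X'.π (X'.j _ * t' _) = _
    rw [map_mul, X'.π_j, one_mul, h'.1]
  have hbij : Function.Bijective φ := by
    constructor
    · intro x y e
      have e' : f x = f y := e
      rw [hμ x, hμ y, hf, hf] at e'
      obtain ⟨e1, e2⟩ := h'.ext e'
      rw [e2] at e1
      rw [hμ x, hμ y, add_right_cancel e1, e2]
    · intro y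
      obtain ⟨m, hm⟩ := h'.exists_eq y
      refine ⟨X.j (m - b (X'.π y)) * t (X'.π y), ?_⟩
      show f _ = y
      rw [hf, sub_add_cancel, ← hm]
  refine ⟨MulEquiv.ofBijective φ hbij, hφπ, fun v => ?_⟩
  show f (X.j v) = X'.j v
  have h1 : X.j v = X.j (v - γ 1 1) * t 1 := by
    rw [h.one, ← X.j_add, sub_add_cancel]
  have h2 := hb' 1 1
  rw [mul_one, act_one] at h2
  rw [h1, hf, h'.one, ← X'.j_add]
  congr 1
  have h3 : γ 1 1 = b 1 + γ' 1 1 := by
    apply add_right_cancel (b := b 1)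
    rw [h2]
    abel
  rw [h3]
  abel

theorem iso_of_B2 {E' : Type*} [Group E'] {X' : Ext σ E'} {t : G → E} {t' : G → E'} {γ γ' : G → G → M}
    (h : IsCoc X t γ) (h' : IsCoc X' t' γ') (hb : B2 σ ⊤ (γ - γ')) : Nonempty (E ≃* E') := by
  obtain ⟨e, -⟩ := equiv_of_B2 h h' hb
  exact ⟨e⟩

theorem iso_of_B2_add {E' : Type*} [Group E'] {X' : Ext σ E'} {t : G → E} {t' : G → E'} {γ γ' : G → G → M}
    (h : IsCoc X t γ) (h' : IsCoc X' t' γ') (hb : B2 σ ⊤ (γ + γ')) : Nonempty (E ≃* E') :=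
  iso_of_B2 h h'.neg (by rwa [sub_neg_eq_add])

end Ext

/-! ### The twisted product -/

section Tw

variable {F M G : Type*} [Field F] [AddCommGroup M] [Module F M] [Group G]

/-- The twisted product of `M` and `G`. -/
@[ext] structure Tw (σ : G →* Module.End F M) (γ : G → G → M) (hγ : Z2 σ ⊤ γ) where
  /-- the component in `M` -/
  m : M
  /-- the component in `G` -/
  g : G

variable {σ : G →* Module.End F M} {γ : G → G → M} {hγ : Z2 σ ⊤ γ}

instance Tw.instMulTw : Mul (Tw σ γ hγ) := ⟨fun x y => ⟨x.m + σ x.g y.m + γ x.g y.g, x.g * y.g⟩⟩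

instance Tw.instOneTw : One (Tw σ γ hγ) := ⟨⟨-γ 1 1, 1⟩⟩

instance Tw.instInvTw : Inv (Tw σ γ hγ) := ⟨fun x => ⟨-γ 1 1 - σ x.g⁻¹ x.m - γ x.g⁻¹ x.g, x.g⁻¹⟩⟩

theorem Tw.mul_m (x y : Tw σ γ hγ) : (x * y).m = x.m + σ x.g y.m + γ x.g y.g := rfl

theorem Tw.mul_g (x y : Tw σ γ hγ) : (x * y).g = x.g * y.g := rfl

theorem Tw.one_m : (1 : Tw σ γ hγ).m = -γ 1 1 := rfl

theorem Tw.one_g : (1 : Tw σ γ hγ).g = 1 := rfl

theorem Tw.inv_m (x : Tw σ γ hγ) : (x⁻¹).m = -γ 1 1 - σ x.g⁻¹ x.m - γ x.g⁻¹ x.g := rfl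

theorem Tw.inv_g (x : Tw σ γ hγ) : (x⁻¹).g = x.g⁻¹ := rfl

instance Tw.instGroupTw : Group (Tw σ γ hγ) :=
  Group.ofLeftAxioms
    (fun x y z => by
      apply Tw.ext
      · simp only [Tw.mul_m, Tw.mul_g, map_add, act_mul]
        have h1 := hγ x.g trivial y.g trivial z.g trivial
        calc x.m + σ x.g y.m + γ x.g y.g + σ x.g (σ y.g z.m) + γ (x.g * y.g) z.g
            = x.m + σ x.g y.m + σ x.g (σ y.g z.m) + (γ x.g y.g + γ (x.g * y.g) z.g) := by abel
          _ = _ := by rw [h1]; abel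
      · exact mul_assoc _ _ _)
    (fun x => by
      apply Tw.ext
      · rw [Tw.mul_m, Tw.one_m, Tw.one_g, act_one, hγ.one_left (Subgroup.mem_top x.g)]
        abel
      · exact one_mul _)
    (fun x => by
      apply Tw.ext
      · rw [Tw.mul_m, Tw.inv_m, Tw.inv_g, Tw.one_m]
        abel
      · exact inv_mul_cancel _)

variable (hγ) in
/-- The twisted product as an extension. -/
def twExt : Ext σ (Tw σ γ hγ) where
  π := MonoidHom.mk' Tw.g Tw.mul_g
  surj g := ⟨⟨0, g⟩, rfl⟩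
  j v := ⟨v - γ 1 1, 1⟩
  j_add a b := by
    apply Tw.ext
    · show a + b - γ 1 1 = a - γ 1 1 + σ 1 (b - γ 1 1) + γ 1 1
      rw [act_one]
      abel
    · exact (mul_one _).symm
  j_inj a b h := by
    have h1 : a - γ 1 1 = b - γ 1 1 := congrArg Tw.m h
    exact sub_left_injective h1
  ker x hx := by
    refine ⟨x.m + γ 1 1, ?_⟩
    apply Tw.ext
    · exact (add_sub_cancel_right _ _).symm
    · exact hx
  π_j v := rfl
  conj x v := by
    apply Tw.ext
    · show x.m + σ x.g (v - γ 1 1) + γ x.g 1 = σ x.g v - γ 1 1 + σ 1 x.m + γ 1 x.g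
      rw [act_one, map_sub, hγ.one_right (Subgroup.mem_top x.g), hγ.one_left (Subgroup.mem_top x.g)]
      abel
    · show x.g * 1 = 1 * x.g
      rw [mul_one, one_mul]

variable (hγ) in
theorem isCoc_tw : IsCoc (twExt hγ) (fun g => ⟨0, g⟩) γ := by
  refine ⟨fun g => rfl, fun g k => ?_⟩
  apply Tw.ext
  · show 0 + σ g 0 + γ g k = γ g k - γ 1 1 + σ 1 0 + γ 1 (g * k)
    rw [map_zero, map_zero, hγ.one_left (Subgroup.mem_top (g * k))]
    abel
  · exact (one_mul _).symm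

end Tw

end Cfsg.Agent.B5591
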