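import Cfsg.Agent.B5591.CocA

/-!
# S5591: the theorem of Gaschütz for cocycles (part b of the cocycle library)
-/

set_option autoImplicit false

namespace Cfsg.Agent.B5591

open Cfsg.Agent.H863.SExt

variable {F M G : Type*} [Field F] [AddCommGroup M] [Module F M] [Group G] {σ : G →* Module.End F M}
  {K A : Subgroup G}

/-- Averaging over the cosets of `A` in `K`. -/
theorem exists_avg (F M : Type*) [Field F] [AddCommGroup M] [Module F M] (hn : (A.relIndex K : F) ≠ 0) :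
    ∃ av : (G → M) →ₗ[F] M,
      (∀ m : M, av (fun _ => m) = m) ∧
      (∀ f f' : G → M, (∀ h ∈ K, f h = f' h) → av f = av f') ∧
      (∀ (φ : M →ₗ[F] M) (f : G → M), av (fun h => φ (f h)) = φ (av f)) ∧
      ∀ f : G → M, (∀ h ∈ K, ∀ a ∈ A, a ∈ K → f (h * a) = f h) → ∀ g ∈ K, av (fun h => f (g * h)) = av f := by
  classical
  have hn0 : A.relIndex K ≠ 0 := fun h => hn (by rw [h, Nat.cast_zero])
  have hfin : Finite (K ⧸ A.subgroupOf K) := Nat.finite_of_card_ne_zero hn0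
  have := Fintype.ofFinite (K ⧸ A.subgroupOf K)
  have hcard : (Fintype.card (K ⧸ A.subgroupOf K) : F) = (A.relIndex K : F) := by
    rw [← Nat.card_eq_fintype_card]; rfl
  let r : K ⧸ A.subgroupOf K → G := fun x => (x.out : K)
  refine ⟨{ toFun := fun f => (A.relIndex K : F)⁻¹ • ∑ x, f (r x)
            map_add' := fun f f' => by simp only [Pi.add_apply, Finset.sum_add_distrib, smul_add]
            map_smul' := fun c f => by
              simp only [Pi.smul_apply, RingHom.id_apply, ← Finset.smul_sum]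
              rw [smul_comm] }, ?_, ?_, ?_, ?_⟩
  · intro m
    show (A.relIndex K : F)⁻¹ • ∑ _x : K ⧸ A.subgroupOf K, m = m
    rw [Finset.sum_const, Finset.card_univ, ← Nat.cast_smul_eq_nsmul F, hcard, smul_smul, inv_mul_cancel₀ hn,
      one_smul]
  · intro f f' h
    show (A.relIndex K : F)⁻¹ • ∑ x, f (r x) = (A.relIndex K : F)⁻¹ • ∑ x, f' (r x)
    congr 1
    exact Finset.sum_congr rfl fun x _ => h _ (x.out : K).2
  · intro φ f
    show (A.relIndex K : F)⁻¹ • ∑ x, φ (f (r x)) = φ ((A.relIndex K : F)⁻¹ • ∑ x, f (r x))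
    rw [map_smul, map_sum]
  · intro f hf g hg
    show (A.relIndex K : F)⁻¹ • ∑ x, f (g * r x) = (A.relIndex K : F)⁻¹ • ∑ x, f (r x)
    congr 1
    refine Fintype.sum_equiv (MulAction.toPerm (⟨g, hg⟩ : K)) _ _ fun x => ?_
    show f (g * r x) = f (r ((⟨g, hg⟩ : K) • x))
    have h1 : (⟨g, hg⟩ : K) • x = ((⟨g, hg⟩ * x.out : K) : K ⧸ A.subgroupOf K) :=
      (MulAction.Quotient.coe_smul_out (A.subgroupOf K) (⟨g, hg⟩ : K) x).symm
    obtain ⟨a, ha⟩ := QuotientGroup.mk_out_eq_mul (A.subgroupOf K) (⟨g, hg⟩ * x.out : K)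
    have h2 : r ((⟨g, hg⟩ : K) • x) = g * r x * ((a : K) : G) := by
      show (((((⟨g, hg⟩ : K) • x).out : K)) : G) = _
      rw [h1, ha]
      rfl
    rw [h2]
    exact (hf _ (K.mul_mem hg (x.out : K).2) _ a.2 (a : K).2).symm

/-- Representatives of the cosets of `A` in `K`. -/
theorem exists_rep (hA : A ≤ K) : ∃ r : G → G, (∀ h ∈ K, r h ∈ K) ∧ (∀ h, (r h)⁻¹ * h ∈ A) ∧
    ∀ h, ∀ a ∈ A, r (h * a) = r h := by
  refine ⟨fun h => ((h : G ⧸ A)).out, fun h hh => ?_, fun h => ?_, fun h a ha => ?_⟩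
  · obtain ⟨a, ha⟩ := QuotientGroup.mk_out_eq_mul A h
    show ((h : G ⧸ A)).out ∈ K
    rw [ha]
    exact K.mul_mem hh (hA a.2)
  · obtain ⟨a, ha⟩ := QuotientGroup.mk_out_eq_mul A h
    show (((h : G ⧸ A)).out)⁻¹ * h ∈ A
    rw [ha, mul_inv_rev, inv_mul_cancel_right]
    exact A.inv_mem a.2
  · show (((h * a : G) : G ⧸ A)).out = ((h : G ⧸ A)).out
    rw [QuotientGroup.mk_mul_of_mem h ha]

/-- **Gaschütz, degree one.** -/
theorem Z1.gaschuetz (hA : A ≤ K) (hn : (A.relIndex K : F) ≠ 0) {c : G → M} (hc : Z1 σ K c) (hb : B1 σ A c) :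
    B1 σ K c := by
  obtain ⟨m, hm⟩ := hb
  obtain ⟨av, a1, a2, a3, a4⟩ := exists_avg F M hn
  have hc' := hc.sub (z1_cob m)
  set c' : G → M := c - fun g => m - σ g m with hc'd
  have h0 : ∀ a ∈ A, c' a = 0 := fun a ha => by
    rw [hc'd, Pi.sub_apply, hm a ha, sub_self]
  have h1 : ∀ h ∈ K, ∀ a ∈ A, a ∈ K → c' (h * a) = c' h := fun h hh a ha haK => by
    rw [hc' h hh a haK, h0 a ha, map_zero, add_zero]
  have h2 : B1 σ K c' := by
    refine ⟨av c', fun g hg => ?_⟩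
    have h3 := a4 c' h1 g hg
    have h4 : av (fun h => c' (g * h)) = av ((fun _ => c' g) + fun h => σ g (c' h)) :=
      a2 _ _ fun h hh => hc' g hg h hh
    rw [h4, map_add, a1, a3] at h3
    rw [eq_sub_iff_add_eq, h3]
  have h5 := h2.add (⟨m, fun g _ => rfl⟩ : B1 σ K fun g => m - σ g m)
  rwa [hc'd, sub_add_cancel] at h5

/-- **Gaschütz, degree two.** -/
theorem Z2.gaschuetz (hA : A ≤ K) (hn : (A.relIndex K : F) ≠ 0) {γ : G → G → M} (hc : Z2 σ K γ)
    (hb : B2 σ A γ) : B2 σ K γ := by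
  obtain ⟨b, hb⟩ := hb
  obtain ⟨av, a1, a2, a3, a4⟩ := exists_avg F M hn
  obtain ⟨r, r1, r2, r3⟩ := exists_rep hA
  have hβ : ∃ β : G → M, ∀ h ∈ K, ∀ a ∈ A, β (h * a) = β h + σ h (b a) - γ h a := by
    refine ⟨fun h => σ (r h) (b ((r h)⁻¹ * h)) - γ (r h) ((r h)⁻¹ * h), ?_⟩
    intro h hh a ha
    show σ (r (h * a)) (b ((r (h * a))⁻¹ * (h * a))) - γ (r (h * a)) ((r (h * a))⁻¹ * (h * a)) =
      σ (r h) (b ((r h)⁻¹ * h)) - γ (r h) ((r h)⁻¹ * h) + σ h (b a) - γ h a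
    rw [r3 h a ha, ← mul_assoc]
    have h1 := hb _ (r2 h) a ha
    have h2 := hc _ (r1 h hh) _ (hA (r2 h)) a (hA ha)
    rw [mul_inv_cancel_left] at h2
    have h3 : b ((r h)⁻¹ * h * a) = b ((r h)⁻¹ * h) + σ ((r h)⁻¹ * h) (b a) - γ ((r h)⁻¹ * h) a := by
      rw [h1]; abel
    have h4 : γ (r h) ((r h)⁻¹ * h * a) = γ (r h) ((r h)⁻¹ * h) + γ h a - σ (r h) (γ ((r h)⁻¹ * h) a) := by
      rw [h2]; abel
    rw [h3, h4, map_sub, map_add, ← act_mul, mul_inv_cancel_left]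
    abel
  obtain ⟨β, hβ⟩ := hβ
  let f : G → G → M := fun g h => γ g h - σ g (β h) + β (g * h)
  have hf : ∀ g ∈ K, ∀ h ∈ K, ∀ a ∈ A, a ∈ K → f g (h * a) = f g h := by
    intro g hg h hh a ha haK
    show γ g (h * a) - σ g (β (h * a)) + β (g * (h * a)) = γ g h - σ g (β h) + β (g * h)
    have h1 := hc g hg h hh a haK
    have h2 : γ g (h * a) = γ g h + γ (g * h) a - σ g (γ h a) := by rw [h1]; abel
    rw [← mul_assoc, hβ h hh a ha, hβ _ (K.mul_mem hg hh) a ha, h2, map_sub, map_add, act_mul]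
    abel
  have hid : ∀ g ∈ K, ∀ g' ∈ K, ∀ h ∈ K, γ g g' + f (g * g') h = σ g (f g' h) + f g (g' * h) := by
    intro g hg g' hg' h hh
    show γ g g' + (γ (g * g') h - σ (g * g') (β h) + β (g * g' * h)) =
      σ g (γ g' h - σ g' (β h) + β (g' * h)) + (γ g (g' * h) - σ g (β (g' * h)) + β (g * (g' * h)))
    have h1 := hc g hg g' hg' h hh
    have h2 : γ g (g' * h) = γ g g' + γ (g * g') h - σ g (γ g' h) := by rw [h1]; abel
    rw [h2, map_add, map_sub, act_mul, mul_assoc]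
    abel
  refine ⟨fun g => av (f g), fun g hg g' hg' => ?_⟩
  have h1 : av ((fun _ => γ g g') + f (g * g')) = av ((fun h => σ g (f g' h)) + fun h => f g (g' * h)) :=
    a2 _ _ fun h hh => hid g hg g' hg' h hh
  rw [map_add, map_add, a1, a3, a4 (f g) (hf g hg) g' hg'] at h1
  show γ g g' = av (f g) + σ g (av (f g')) - av (f (g * g'))
  rw [eq_sub_iff_add_eq, h1, add_comm]

theorem H1.gaschuetz (hA : A ≤ K) (hn : (A.relIndex K : F) ≠ 0) (h : H1 σ A) : H1 σ K :=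
  fun c hc => hc.gaschuetz hA hn (h c (hc.mono hA))

theorem Spl.gaschuetz {E : Type*} [Group E] {X : Ext σ E} (hA : A ≤ K) (hn : (A.relIndex K : F) ≠ 0)
    (h : Spl X A) : Spl X K := by
  obtain ⟨t, γ, hc⟩ := exists_coc X
  rw [hc.spl_iff] at h ⊢
  exact (hc.z2.mono le_top).gaschuetz hA hn h

theorem h1_bot : H1 σ ⊥ := by
  intro c hc
  refine ⟨0, fun g hg => ?_⟩
  rw [Subgroup.mem_bot.1 hg, hc.one, map_zero, sub_zero]

theorem Z2.b2_bot {γ : G → G → M} : B2 σ ⊥ γ := by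
  refine ⟨fun _ => γ 1 1, fun g hg k hk => ?_⟩
  rw [Subgroup.mem_bot.1 hg, Subgroup.mem_bot.1 hk, act_one, add_sub_cancel_right]

/-- `H¹` of a group of invertible order. -/
theorem h1_of_card {T : Subgroup G} (hT : (Nat.card T : F) ≠ 0) : H1 σ T :=
  h1_bot.gaschuetz bot_le (by rwa [Subgroup.relIndex_bot_left])

/-- `H²` of a group of invertible order. -/
theorem Z2.b2_of_card {T : Subgroup G} (hT : (Nat.card T : F) ≠ 0) {γ : G → G → M} (h : Z2 σ T γ) : B2 σ T γ :=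
  h.gaschuetz bot_le (by rwa [Subgroup.relIndex_bot_left]) Z2.b2_bot

theorem spl_of_card {E : Type*} [Group E] (X : Ext σ E) {T : Subgroup G} (hT : (Nat.card T : F) ≠ 0) :
    Spl X T := by
  obtain ⟨t, γ, hc⟩ := exists_coc X
  rw [hc.spl_iff]
  exact (hc.z2.mono le_top).b2_of_card hT

/-- The order of a finite `2`-group is invertible if `2` is. -/
theorem card_ne_zero_of_two (h2 : (2 : F) ≠ 0) {T : Subgroup G} [Finite T] (hT : IsPGroup 2 T) :
    (Nat.card T : F) ≠ 0 := by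
  obtain ⟨n, hn⟩ := IsPGroup.iff_card.1 hT
  rw [hn]
  push_cast
  exact pow_ne_zero n h2

/-- The index condition from orders: `|K| = |A| * n` with `n` invertible. -/
theorem relIndex_ne_zero_of_card (hA : A ≤ K) [Finite K] {n : ℕ} (h : Nat.card K = Nat.card A * n)
    (hn : (n : F) ≠ 0) : (A.relIndex K : F) ≠ 0 := by
  have h1 : Nat.card (A.subgroupOf K) = Nat.card A := Nat.card_congr (Subgroup.subgroupOfEquivOfLe hA).toEquiv
  have h2 := (A.subgroupOf K).card_mul_index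
  have hfin : Finite A := Finite.of_injective _ (Subgroup.inclusion_injective hA)
  have h3 : 0 < Nat.card A := Nat.card_pos
  rw [h1, h] at h2
  have h4 : (A.subgroupOf K).index = n := Nat.eq_of_mul_eq_mul_left h3 h2
  show (((A.subgroupOf K).index : ℕ) : F) ≠ 0
  rw [h4]
  exact hn

/-- The index condition in characteristic three: `3 ^ (k + 1)` does not divide `|K|`, and `|A| = 3 ^ k`. -/
theorem relIndex_ne_zero_three (hA : A ≤ K) [Finite K] {k : ℕ} (h : Nat.card A = 3 ^ k)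
    (hK : ¬ 3 ^ (k + 1) ∣ Nat.card K) : (A.relIndex K : ZMod 3) ≠ 0 := by
  have h1 : Nat.card (A.subgroupOf K) = Nat.card A := Nat.card_congr (Subgroup.subgroupOfEquivOfLe hA).toEquiv
  have h2 := (A.subgroupOf K).card_mul_index
  rw [h1, h] at h2
  show (((A.subgroupOf K).index : ℕ) : ZMod 3) ≠ 0
  intro h3
  rw [ZMod.natCast_eq_zero_iff] at h3
  apply hK
  rw [← h2, pow_succ]
  exact Nat.mul_dvd_mul_left _ h3

end Cfsg.Agent.B5591
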