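import Cfsg.Agent.B5591.CocC

/-!
# S5591: cocycles with values in permutation modules (part d of the cocycle library)

`Z1.b1_perm`, `Z2.b2_perm`: a cocycle with values in the module of functions on a `G`-set is a coboundary on `K` if
its components at representatives of the `K`-orbits are coboundaries on the stabilisers.
`Z2.conj`: conjugation changes a `2`-cocycle by an explicit coboundary.
-/

set_option autoImplicit false

namespace Cfsg.Agent.B5591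

open Cfsg.Agent.H863.SExt

section Conj

variable {F M G : Type*} [Field F] [AddCommGroup M] [Module F M] [Group G] {σ : G →* Module.End F M}
  {K : Subgroup G}

/-- The cochain which measures the effect of conjugation by `k`. -/
def cjc (γ : G → G → M) (k x : G) : M := γ k x - γ (k * x * k⁻¹) k

/-- Conjugation of a `2`-cocycle. -/
theorem Z2.conj {γ : G → G → M} (h : Z2 σ K γ) {k x y : G} (hk : k ∈ K) (hx : x ∈ K) (hy : y ∈ K) :
    γ (k * x * k⁻¹) (k * y * k⁻¹) =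
      σ k (γ x y) + cjc γ k (x * y) - cjc γ k x - σ (k * x * k⁻¹) (cjc γ k y) := by
  have hx' : k * x * k⁻¹ ∈ K := K.mul_mem (K.mul_mem hk hx) (K.inv_mem hk)
  have hy' : k * y * k⁻¹ ∈ K := K.mul_mem (K.mul_mem hk hy) (K.inv_mem hk)
  have h1 := h k hk x hx y hy
  have h2 := h _ hx' k hk y hy
  have h3 := h _ hx' _ hy' k hk
  have e1 : k * x * k⁻¹ * k = k * x := by group
  have e2 : k * y * k⁻¹ * k = k * y := by group
  have e3 : k * x * k⁻¹ * (k * y * k⁻¹) = k * (x * y) * k⁻¹ := by group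
  rw [e1] at h2
  rw [e2, e3] at h3
  unfold cjc
  rw [map_sub]
  have h4 : γ (k * x * k⁻¹) (k * y * k⁻¹) =
      σ (k * x * k⁻¹) (γ (k * y * k⁻¹) k) + γ (k * x * k⁻¹) (k * y) - γ (k * (x * y) * k⁻¹) k := by
    rw [← h3]; abel
  have h5 : γ (k * x * k⁻¹) (k * y) = γ (k * x * k⁻¹) k + γ (k * x) y - σ (k * x * k⁻¹) (γ k y) := by
    rw [h2]; abel
  have h6 : γ (k * x) y = σ k (γ x y) + γ k (x * y) - γ k x := by
    rw [← h1]; abel
  rw [h4, h5, h6]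
  abel

theorem Z2.cjc_one {γ : G → G → M} (h : Z2 σ K γ) {k : G} (hk : k ∈ K) : cjc γ k 1 = σ k (γ 1 1) - γ 1 1 := by
  unfold cjc
  rw [mul_one, mul_inv_cancel, h.one_right hk, h.one_left hk]

/-- Coboundaries on conjugate subgroups. -/
theorem B2.cj {γ : G → G → M} (h : Z2 σ K γ) {A : Subgroup G} (hA : A ≤ K) (hb : B2 σ A γ) {k : G} (hk : k ∈ K) :
    B2 σ (cjS k A) γ := by
  obtain ⟨b, hb⟩ := hb
  refine ⟨fun g => σ k (b (k⁻¹ * g * k)) - cjc γ k (k⁻¹ * g * k), ?_⟩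
  rintro _ ⟨x, hx, rfl⟩ _ ⟨y, hy, rfl⟩
  show γ (k * x * k⁻¹) (k * y * k⁻¹) = σ k (b (k⁻¹ * (k * x * k⁻¹) * k)) - cjc γ k (k⁻¹ * (k * x * k⁻¹) * k) +
    σ (k * x * k⁻¹) (σ k (b (k⁻¹ * (k * y * k⁻¹) * k)) - cjc γ k (k⁻¹ * (k * y * k⁻¹) * k)) -
    (σ k (b (k⁻¹ * (k * x * k⁻¹ * (k * y * k⁻¹)) * k)) - cjc γ k (k⁻¹ * (k * x * k⁻¹ * (k * y * k⁻¹)) * k))
  have e1 : ∀ z : G, k⁻¹ * (k * z * k⁻¹) * k = z := fun z => by group
  have e2 : k⁻¹ * (k * x * k⁻¹ * (k * y * k⁻¹)) * k = x * y := by group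
  have e3 : σ (k * x * k⁻¹) (σ k (b y)) = σ k (σ x (b y)) := by
    rw [← act_mul, ← act_mul, inv_mul_cancel_right]
  rw [e1, e1, e2, h.conj hk (hA hx) (hA hy), hb x hx y hy, map_sub, map_add, map_sub, e3]
  abel

end Conj

section Perm

variable {F : Type*} [Field F] {G D : Type*} [Group G] [MulAction G D] {K : Subgroup G}

theorem triv_apply (g : G) (x : F) : triv F G g x = x := rfl

theorem z2_triv {a : G → G → F} :
    Z2 (triv F G) K a ↔ ∀ g ∈ K, ∀ h ∈ K, ∀ k ∈ K, a g h + a (g * h) k = a h k + a g (h * k) := Iff.rfl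

theorem b2_triv {a : G → G → F} :
    B2 (triv F G) K a ↔ ∃ b : G → F, ∀ g ∈ K, ∀ h ∈ K, a g h = b g + b h - b (g * h) := Iff.rfl

theorem z1_perm {c : G → D → F} :
    Z1 (perm F G D) K c ↔ ∀ g ∈ K, ∀ h ∈ K, ∀ d, c (g * h) d = c g d + c h (g⁻¹ • d) :=
  ⟨fun h g hg k hk d => congrFun (h g hg k hk) d, fun h g hg k hk => funext (h g hg k hk)⟩

theorem z2_perm {γ : G → G → D → F} :
    Z2 (perm F G D) K γ ↔
      ∀ g ∈ K, ∀ h ∈ K, ∀ k ∈ K, ∀ d, γ g h d + γ (g * h) k d = γ h k (g⁻¹ • d) + γ g (h * k) d :=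
  ⟨fun h a ha b hb c hc d => congrFun (h a ha b hb c hc) d, fun h a ha b hb c hc => funext (h a ha b hb c hc)⟩

/-- The component of a cocycle at a point is a cocycle of the stabiliser. -/
theorem Z2.at {γ : G → G → D → F} (h : Z2 (perm F G D) K γ) (d : D) :
    Z2 (triv F G) (K ⊓ MulAction.stabilizer G d) (fun g k => γ g k d) := by
  intro a ha b hb c hc
  have h1 := z2_perm.1 h a ha.1 b hb.1 c hc.1 d
  have h2 : a⁻¹ • d = d := (MulAction.stabilizer G d).inv_mem ha.2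
  rw [h2] at h1
  exact h1

theorem B2.at {γ : G → G → D → F} (h : B2 (perm F G D) K γ) (d : D) :
    B2 (triv F G) (K ⊓ MulAction.stabilizer G d) (fun g k => γ g k d) := by
  obtain ⟨b, hb⟩ := h
  refine ⟨fun g => b g d, fun g hg k hk => ?_⟩
  have h1 := congrFun (hb g hg.1 k hk.1) d
  have h2 : g⁻¹ • d = d := (MulAction.stabilizer G d).inv_mem hg.2
  have h3 : γ g k d = b g d + b k (g⁻¹ • d) - b (g * k) d := h1
  rw [h2] at h3
  exact h3

theorem Z1.at {c : G → D → F} (h : Z1 (perm F G D) K c) (d : D) {g k : G} (hg : g ∈ K) (hk : k ∈ K)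
    (hd : g • d = d) : c (g * k) d = c g d + c k d := by
  have h1 := z1_perm.1 h g hg k hk d
  have h2 : g⁻¹ • d = d := (MulAction.stabilizer G d).inv_mem hd
  rwa [h2] at h1

/-- Representatives of the `K`-orbits with a given property. -/
theorem exists_reps (K : Subgroup G) (P : D → Prop) (h : ∀ d, ∃ k ∈ K, P (k • d)) :
    ∃ (r : D → D) (κ : D → G), (∀ d, P (r d)) ∧ (∀ d, κ d ∈ K) ∧ (∀ d, κ d • r d = d) ∧
      ∀ g ∈ K, ∀ d, r (g • d) = r d := by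
  choose k hk hP using h
  let q : D → MulAction.orbitRel.Quotient K D := fun d => Quotient.mk'' d
  let r : D → D := fun d => k (q d).out • (q d).out
  have h1 : ∀ d, ∃ κ ∈ K, κ • r d = d := by
    intro d
    have h2 : (MulAction.orbitRel K D).r d (q d).out := Quotient.exact' (Quotient.out_eq' (q d)).symm
    obtain ⟨g, hg⟩ := MulAction.orbitRel_apply.1 h2
    refine ⟨g * (k (q d).out)⁻¹, K.mul_mem g.2 (K.inv_mem (hk _)), ?_⟩
    show ((g : G) * (k (q d).out)⁻¹) • (k (q d).out • (q d).out) = d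
    rw [mul_smul, inv_smul_smul]
    exact hg
  choose κ hκ hκ' using h1
  refine ⟨r, κ, fun d => hP _, hκ, hκ', fun g hg d => ?_⟩
  have h3 : q (g • d) = q d := Quotient.sound' (MulAction.orbitRel_apply.2 ⟨⟨g, hg⟩, rfl⟩)
  show k (q (g • d)).out • (q (g • d)).out = k (q d).out • (q d).out
  rw [h3]

/-- **`H¹` of a permutation module is local.** -/
theorem Z1.b1_perm {c : G → D → F} (hc : Z1 (perm F G D) K c)
    (h : ∀ d : D, ∃ k ∈ K, ∀ g ∈ K, g • (k • d) = k • d → c g (k • d) = 0) : B1 (perm F G D) K c := by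
  obtain ⟨r, κ, h1, h2, h3, h4⟩ := exists_reps K (fun d => ∀ g ∈ K, g • d = d → c g d = 0) h
  refine ⟨fun d => c (κ d) d, fun g hg => funext fun d => ?_⟩
  show c g d = c (κ d) d - c (κ (g⁻¹ • d)) (g⁻¹ • d)
  have hc' := z1_perm.1 hc
  have hs : (κ d)⁻¹ * (g * κ (g⁻¹ • d)) ∈ K := K.mul_mem (K.inv_mem (h2 d)) (K.mul_mem hg (h2 _))
  have hr : (κ d)⁻¹ • d = r d := by rw [inv_smul_eq_iff, h3]
  have hfix : ((κ d)⁻¹ * (g * κ (g⁻¹ • d))) • r d = r d := by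
    rw [mul_smul, mul_smul, ← h4 g⁻¹ (K.inv_mem hg) d, h3, smul_inv_smul, hr, h4 g⁻¹ (K.inv_mem hg) d]
  have h5 := hc' (κ d) (h2 d) _ hs d
  rw [mul_inv_cancel_left, hr, h1 d _ hs hfix, add_zero, hc' g hg _ (h2 _) d] at h5
  rw [← h5]
  abel

/-- **`H²` of a permutation module is local.** -/
theorem Z2.b2_perm {γ : G → G → D → F} (hγ : Z2 (perm F G D) K γ)
    (h : ∀ d : D, ∃ k ∈ K, B2 (triv F G) (K ⊓ MulAction.stabilizer G (k • d)) (fun g g' => γ g g' (k • d))) :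
    B2 (perm F G D) K γ := by
  obtain ⟨r, κ, h1, h2, h3, h4⟩ := exists_reps K
    (fun d => B2 (triv F G) (K ⊓ MulAction.stabilizer G d) (fun g g' => γ g g' d)) h
  have h1' : ∀ d, ∃ b : G → F, r d = d → ∀ g ∈ K ⊓ MulAction.stabilizer G d, ∀ k ∈ K ⊓ MulAction.stabilizer G d,
      γ g k d = b g + b k - b (g * k) := by
    intro d
    obtain ⟨b, hb⟩ := h1 d
    exact ⟨b, fun e => by rw [e] at hb; exact hb⟩
  choose b hb using h1'
  have hr : ∀ d, (κ d)⁻¹ • d = r d := fun d => by rw [inv_smul_eq_iff, h3]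
  have hrr : ∀ d, r (r d) = r d := fun d => by
    rw [← hr d, h4 _ (K.inv_mem (h2 d)), hr]
  let s : G → D → G := fun g d => (κ d)⁻¹ * g * κ (g⁻¹ • d)
  have hs : ∀ g ∈ K, ∀ d, s g d ∈ K ⊓ MulAction.stabilizer G (r d) := by
    intro g hg d
    refine ⟨K.mul_mem (K.mul_mem (K.inv_mem (h2 d)) hg) (h2 _), ?_⟩
    show ((κ d)⁻¹ * g * κ (g⁻¹ • d)) • r d = r d
    rw [mul_smul, mul_smul, ← h4 g⁻¹ (K.inv_mem hg) d, h3, smul_inv_smul, hr, h4 g⁻¹ (K.inv_mem hg) d]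
  have hγ' := z2_perm.1 hγ
  refine ⟨fun g d => b (r d) (s g d) + γ g (κ (g⁻¹ • d)) d - γ (κ d) (s g d) d, fun g hg k hk => funext fun d => ?_⟩
  show γ g k d = (b (r d) (s g d) + γ g (κ (g⁻¹ • d)) d - γ (κ d) (s g d) d) +
    (b (r (g⁻¹ • d)) (s k (g⁻¹ • d)) + γ k (κ (k⁻¹ • g⁻¹ • d)) (g⁻¹ • d) -
      γ (κ (g⁻¹ • d)) (s k (g⁻¹ • d)) (g⁻¹ • d)) -
    (b (r d) (s (g * k) d) + γ (g * k) (κ ((g * k)⁻¹ • d)) d - γ (κ d) (s (g * k) d) d)
  have e0 : (g * k)⁻¹ • d = k⁻¹ • g⁻¹ • d := by rw [mul_inv_rev, mul_smul]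
  have e1 : s (g * k) d = s g d * s k (g⁻¹ • d) := by
    show (κ d)⁻¹ * (g * k) * κ ((g * k)⁻¹ • d) =
      (κ d)⁻¹ * g * κ (g⁻¹ • d) * ((κ (g⁻¹ • d))⁻¹ * k * κ (k⁻¹ • g⁻¹ • d))
    rw [e0]
    group
  have e2 : κ (g⁻¹ • d) * s k (g⁻¹ • d) = k * κ (k⁻¹ • g⁻¹ • d) := by
    show κ (g⁻¹ • d) * ((κ (g⁻¹ • d))⁻¹ * k * κ (k⁻¹ • g⁻¹ • d)) = _
    group
  have e3 : κ d * s g d = g * κ (g⁻¹ • d) := by
    show κ d * ((κ d)⁻¹ * g * κ (g⁻¹ • d)) = _
    group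
  have e4 : r (g⁻¹ • d) = r d := h4 _ (K.inv_mem hg) d
  have s1 := hs g hg d
  have s2 := hs k hk (g⁻¹ • d)
  rw [e4] at s2
  have i0 := hb (r d) (hrr d) _ s1 _ s2
  have i1 := hγ' g hg k hk _ (h2 (k⁻¹ • g⁻¹ • d)) d
  have i2 := hγ' g hg _ (h2 (g⁻¹ • d)) _ s2.1 d
  have i3 := hγ' _ (h2 d) _ s1.1 _ s2.1 d
  rw [e2] at i2
  rw [e3, hr] at i3
  rw [e0, e1, e4]
  linear_combination i1 - i2 + i3 + i0

/-- The form with all points. -/
theorem Z1.b1_perm' {c : G → D → F} (hc : Z1 (perm F G D) K c)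
    (h : ∀ d : D, ∀ g ∈ K, g • d = d → c g d = 0) : B1 (perm F G D) K c :=
  hc.b1_perm fun _ => ⟨1, K.one_mem, h _⟩

theorem Z2.b2_perm' {γ : G → G → D → F} (hγ : Z2 (perm F G D) K γ)
    (h : ∀ d : D, B2 (triv F G) (K ⊓ MulAction.stabilizer G d) (fun g g' => γ g g' d)) :
    B2 (perm F G D) K γ :=
  hγ.b2_perm fun _ => ⟨1, K.one_mem, h _⟩

/-- Conjugation of the components: for `x, y` fixing `d`. -/
theorem Z2.conj_at {γ : G → G → D → F} (h : Z2 (perm F G D) K γ) {k x y : G} (hk : k ∈ K) (hx : x ∈ K)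
    (hy : y ∈ K) {d : D} (hxd : x • d = d) :
    γ (k * x * k⁻¹) (k * y * k⁻¹) (k • d) =
      γ x y d + cjc γ k (x * y) (k • d) - cjc γ k x (k • d) - cjc γ k y (k • d) := by
  have h1 := congrFun (h.conj hk hx hy) (k • d)
  have h2 : (k * x * k⁻¹)⁻¹ • k • d = k • d := by
    rw [inv_smul_eq_iff, mul_smul, mul_smul, inv_smul_smul, hxd]
  have h3 : γ (k * x * k⁻¹) (k * y * k⁻¹) (k • d) = γ x y (k⁻¹ • k • d) + cjc γ k (x * y) (k • d) -
      cjc γ k x (k • d) - cjc γ k y ((k * x * k⁻¹)⁻¹ • k • d) := h1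
  rwa [inv_smul_smul, h2] at h3

end Perm

end Cfsg.Agent.B5591
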