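import Cfsg.Agent.B5591.CocF

/-!
# S5591: the Shapiro cocycle (part e of the cocycle library)

For a transitive `G`-set `D`, a point `d₀` with stabiliser `Y` and a `2`-cocycle `a` of `Y` with trivial coefficients:
a `2`-cocycle of `G` with values in the functions on `D` whose component at `d₀` is `a`.  Invariants of the components
at the other points; components under conjugation.
-/

set_option autoImplicit false

namespace Cfsg.Agent.B5591

variable {F : Type*} [Field F] {G D : Type*} [Group G] [MulAction G D] {K : Subgroup G}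

/-- The pairing of the components of a cocycle is invariant under `K`. -/
theorem Z2.pairing_at_conj {γ : G → G → D → F} (h : Z2 (perm F G D) K γ) {k x y : G} (hk : k ∈ K) (hx : x ∈ K)
    (hy : y ∈ K) (hxy : x * y = y * x) {d : D} (hxd : x • d = d) (hyd : y • d = d) :
    pairing (fun g g' => γ g g' (k • d)) (k * x * k⁻¹) (k * y * k⁻¹) = pairing (fun g g' => γ g g' d) x y := by
  show γ (k * x * k⁻¹) (k * y * k⁻¹) (k • d) - γ (k * y * k⁻¹) (k * x * k⁻¹) (k • d) = γ x y d - γ y x d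
  rw [h.conj_at hk hx hy hxd, h.conj_at hk hy hx hyd, hxy]
  ring

/-- The cube invariant of the components of a cocycle is invariant under `K`. -/
theorem Z2.cube_at_conj (h3 : (3 : F) = 0) {γ : G → G → D → F} (h : Z2 (perm F G D) K γ) {k x : G} (hk : k ∈ K)
    (hx : x ∈ K) (hx3 : x ^ 3 = 1) {d : D} (hxd : x • d = d) :
    cube (fun g g' => γ g g' (k • d)) (k * x * k⁻¹) = cube (fun g g' => γ g g' d) x := by
  show γ 1 1 (k • d) + γ (k * x * k⁻¹) (k * x * k⁻¹) (k • d) +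
    γ (k * x * k⁻¹ * (k * x * k⁻¹)) (k * x * k⁻¹) (k • d) = γ 1 1 d + γ x x d + γ (x * x) x d
  have e : k * x * k⁻¹ * (k * x * k⁻¹) = k * (x * x) * k⁻¹ := by group
  have h1 : cjc γ k 1 (k • d) = γ 1 1 (k⁻¹ • k • d) - γ 1 1 (k • d) := congrFun (h.cjc_one hk) (k • d)
  have hxx : (x * x) • d = d := by rw [mul_smul, hxd, hxd]
  rw [inv_smul_smul] at h1
  rw [e, h.conj_at hk (K.mul_mem hx hx) hx hxx, h.conj_at hk hx hx hxd, cube_eq_one hx3, h1]
  linear_combination (-cjc γ k x (k • d)) * h3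

/-- The components at `d` and at `k • d` are cohomologous after conjugation. -/
theorem Z2.b2_at_conj {γ : G → G → D → F} (h : Z2 (perm F G D) K γ) {k : G} (hk : k ∈ K) (d : D) :
    B2 (triv F G) (K ⊓ MulAction.stabilizer G d)
      ((fun x y => γ (k * x * k⁻¹) (k * y * k⁻¹) (k • d)) - fun x y => γ x y d) := by
  refine ⟨fun x => -cjc γ k x (k • d), fun x hx y hy => ?_⟩
  show γ (k * x * k⁻¹) (k * y * k⁻¹) (k • d) - γ x y d =
    -cjc γ k x (k • d) + -cjc γ k y (k • d) - -cjc γ k (x * y) (k • d)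
  rw [h.conj_at hk hx.1 hy.1 hx.2]
  ring

/-- **The Shapiro cocycle.** -/
theorem exists_shapiro₀ (d₀ : D) (htr : ∀ d : D, ∃ g : G, g • d₀ = d) {Y : Subgroup G}
    (hY : Y = MulAction.stabilizer G d₀) {a : Y → Y → F} (ha : Z2 (triv F Y) ⊤ a) :
    ∃ γ : G → G → D → F, Z2 (perm F G D) ⊤ γ ∧ ∀ x y : Y, γ x y d₀ = a x y := by
  classical
  subst hY
  have h1 : ∀ d : D, ∃ g : G, g • d₀ = d ∧ (d = d₀ → g = 1) := by
    intro d
    by_cases hd : d = d₀
    · exact ⟨1, by rw [one_smul, hd], fun _ => rfl⟩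
    · obtain ⟨g, hg⟩ := htr d
      exact ⟨g, hg, fun h => absurd h hd⟩
  choose κ hκ hκ₀ using h1
  have hs : ∀ (g : G) (d : D), (κ d)⁻¹ * g * κ (g⁻¹ • d) ∈ MulAction.stabilizer G d₀ := by
    intro g d
    show ((κ d)⁻¹ * g * κ (g⁻¹ • d)) • d₀ = d₀
    rw [mul_smul, mul_smul, hκ, smul_inv_smul, inv_smul_eq_iff, hκ]
  let s : G → D → MulAction.stabilizer G d₀ := fun g d => ⟨_, hs g d⟩
  have hmul : ∀ (g h : G) (d : D), s (g * h) d = s g d * s h (g⁻¹ • d) := by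
    intro g h d
    apply Subtype.ext
    show (κ d)⁻¹ * (g * h) * κ ((g * h)⁻¹ • d) =
      (κ d)⁻¹ * g * κ (g⁻¹ • d) * ((κ (g⁻¹ • d))⁻¹ * h * κ (h⁻¹ • g⁻¹ • d))
    rw [mul_inv_rev, mul_smul]
    group
  refine ⟨fun g h d => a (s g d) (s h (g⁻¹ • d)), ?_, fun x y => ?_⟩
  · rw [z2_perm]
    intro g _ h _ k _ d
    have e0 : (g * h)⁻¹ • d = h⁻¹ • g⁻¹ • d := by rw [mul_inv_rev, mul_smul]
    rw [hmul g h, hmul h k, e0]
    exact z2_triv.1 ha _ trivial _ trivial _ trivial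
  · have h2 : ∀ x : MulAction.stabilizer G d₀, (x : G)⁻¹ • d₀ = d₀ := fun x =>
      (MulAction.stabilizer G d₀).inv_mem x.2
    have h3 : ∀ x : MulAction.stabilizer G d₀, s x d₀ = x := by
      intro x
      apply Subtype.ext
      show (κ d₀)⁻¹ * x * κ ((x : G)⁻¹ • d₀) = x
      rw [h2, hκ₀ d₀ rfl, inv_one, one_mul, mul_one]
    show a (s x d₀) (s y ((x : G)⁻¹ • d₀)) = a x y
    rw [h2, h3, h3]

/-- The Shapiro cocycle with the invariants of all components. -/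
theorem exists_shapiro (h3 : (3 : F) = 0) (d₀ : D) (htr : ∀ d : D, ∃ g : G, g • d₀ = d) {Y : Subgroup G}
    (hY : Y = MulAction.stabilizer G d₀) {a : Y → Y → F} (ha : Z2 (triv F Y) ⊤ a) :
    ∃ γ : G → G → D → F, Z2 (perm F G D) ⊤ γ ∧ (∀ x y : Y, γ x y d₀ = a x y) ∧
      (∀ (g₀ : G) (x y : Y), x * y = y * x →
        pairing (fun g h => γ g h (g₀ • d₀)) (g₀ * x * g₀⁻¹) (g₀ * y * g₀⁻¹) = pairing a x y) ∧
      (∀ (g₀ : G) (x : Y), x ^ 3 = 1 → cube (fun g h => γ g h (g₀ • d₀)) (g₀ * x * g₀⁻¹) = cube a x) ∧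
      B2 (triv F Y) ⊤ ((fun x y : Y => γ x y d₀) - a) := by
  obtain ⟨γ, h1, h2⟩ := exists_shapiro₀ d₀ htr hY ha
  have hfix : ∀ x : Y, (x : G) • d₀ = d₀ := fun x => hY.le x.2
  refine ⟨γ, h1, h2, fun g₀ x y hxy => ?_, fun g₀ x hx => ?_, ?_⟩
  · rw [h1.pairing_at_conj (Subgroup.mem_top g₀) (Subgroup.mem_top _) (Subgroup.mem_top _)
      (congrArg Subtype.val hxy) (hfix x) (hfix y)]
    show γ x y d₀ - γ y x d₀ = a x y - a y x
    rw [h2, h2]
  · rw [h1.cube_at_conj h3 (Subgroup.mem_top g₀) (Subgroup.mem_top _) (congrArg Subtype.val hx) (hfix x)]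
    show γ ((1 : Y) : G) ((1 : Y) : G) d₀ + γ x x d₀ + γ ((x * x : Y) : G) x d₀ = a 1 1 + a x x + a (x * x) x
    rw [h2, h2, h2]
  · have e : ((fun x y : Y => γ x y d₀) - a) = 0 := by
      funext x y
      show γ x y d₀ - a x y = 0
      rw [h2, sub_self]
    rw [e]
    exact B2.zero

/-- Injectivity of the Shapiro map: a cocycle of a transitive permutation module whose component at `d₀` is a
coboundary of the stabiliser is a coboundary. -/
theorem Z2.b2_of_stab (d₀ : D) (htr : ∀ d : D, ∃ g : G, g • d₀ = d) {Y : Subgroup G}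
    (hY : Y = MulAction.stabilizer G d₀) {γ : G → G → D → F} (h : Z2 (perm F G D) ⊤ γ)
    (hb : B2 (triv F Y) ⊤ (fun x y : Y => γ x y d₀)) : B2 (perm F G D) ⊤ γ := by
  apply h.b2_perm
  intro d
  obtain ⟨g, rfl⟩ := htr d
  refine ⟨g⁻¹, trivial, ?_⟩
  rw [inv_smul_smul, top_inf_eq, ← hY]
  exact B2.of_subtype (σ := triv F G) hb

theorem B2.stab (d₀ : D) {Y : Subgroup G} (hY : Y = MulAction.stabilizer G d₀) {γ : G → G → D → F}
    (h : B2 (perm F G D) ⊤ γ) : B2 (triv F Y) ⊤ (fun x y : Y => γ x y d₀) := by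
  have h1 := h.at d₀
  rw [top_inf_eq, ← hY] at h1
  exact h1.subtype

theorem Z2.stab (d₀ : D) {Y : Subgroup G} (hY : Y = MulAction.stabilizer G d₀) {γ : G → G → D → F}
    (h : Z2 (perm F G D) ⊤ γ) : Z2 (triv F Y) ⊤ (fun x y : Y => γ x y d₀) := by
  have h1 := h.at d₀
  rw [top_inf_eq, ← hY] at h1
  exact h1.subtype

end Cfsg.Agent.B5591
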