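import Cfsg.Agent.B5591.CocD

/-!
# S5591: commutator pairing and cube invariant; elementary abelian groups of order nine (part f)
-/

set_option autoImplicit false
set_option linter.unusedSectionVars false

namespace Cfsg.Agent.B5591

open Cfsg.Agent.H863.SExt

section Pairing

variable {F : Type*} [Field F] {G : Type*} [Group G] {K : Subgroup G} {a a' : G → G → F} {x y z k : G}

theorem pairing_self (a : G → G → F) (x : G) : pairing a x x = 0 := sub_self _

theorem pairing_swap (a : G → G → F) (x y : G) : pairing a y x = -pairing a x y := (neg_sub _ _).symm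

theorem pairing_add (a a' : G → G → F) (x y : G) : pairing (a + a') x y = pairing a x y + pairing a' x y := by
  simp only [pairing, Pi.add_apply]; ring

theorem pairing_sub (a a' : G → G → F) (x y : G) : pairing (a - a') x y = pairing a x y - pairing a' x y := by
  simp only [pairing, Pi.sub_apply]; ring

theorem pairing_neg (a : G → G → F) (x y : G) : pairing (-a) x y = -pairing a x y := by
  simp only [pairing, Pi.neg_apply]; ring

theorem pairing_smul (c : F) (a : G → G → F) (x y : G) : pairing (c • a) x y = c * pairing a x y := by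
  simp only [pairing, Pi.smul_apply, smul_eq_mul]; ring

theorem cube_add (a a' : G → G → F) (x : G) : cube (a + a') x = cube a x + cube a' x := by
  simp only [cube, Pi.add_apply]; ring

theorem cube_sub (a a' : G → G → F) (x : G) : cube (a - a') x = cube a x - cube a' x := by
  simp only [cube, Pi.sub_apply]; ring

theorem cube_neg (a : G → G → F) (x : G) : cube (-a) x = -cube a x := by
  simp only [cube, Pi.neg_apply]; ring

theorem cube_smul (c : F) (a : G → G → F) (x : G) : cube (c • a) x = c * cube a x := by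
  simp only [cube, Pi.smul_apply, smul_eq_mul]; ring

theorem Z2.pairing_mul_right (h : Z2 (triv F G) K a) (hx : x ∈ K) (hy : y ∈ K) (hz : z ∈ K)
    (hxy : x * y = y * x) (hxz : x * z = z * x) : pairing a x (y * z) = pairing a x y + pairing a x z := by
  have h' := z2_triv.1 h
  have h1 := h' x hx y hy z hz
  have h2 := h' y hy x hx z hz
  have h3 := h' y hy z hz x hx
  rw [← hxy] at h2
  rw [← hxz] at h3
  unfold pairing
  linear_combination -h1 + h2 - h3

theorem Z2.pairing_mul_left (h : Z2 (triv F G) K a) (hx : x ∈ K) (hy : y ∈ K) (hz : z ∈ K)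
    (hxz : x * z = z * x) (hyz : y * z = z * y) : pairing a (x * y) z = pairing a x z + pairing a y z := by
  rw [pairing_swap, h.pairing_mul_right hz hx hy hxz.symm hyz.symm, pairing_swap a z x, pairing_swap a z y]
  ring

theorem Z2.pairing_one_right (h : Z2 (triv F G) K a) (hx : x ∈ K) : pairing a x 1 = 0 := by
  unfold pairing
  rw [h.one_right hx, h.one_left hx, triv_apply, sub_self]

theorem Z2.pairing_one_left (h : Z2 (triv F G) K a) (hx : x ∈ K) : pairing a 1 x = 0 := by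
  rw [pairing_swap, h.pairing_one_right hx, neg_zero]

theorem Z2.pairing_inv_right (h : Z2 (triv F G) K a) (hx : x ∈ K) (hy : y ∈ K) (hxy : x * y = y * x) :
    pairing a x y⁻¹ = -pairing a x y := by
  have h1 := h.pairing_mul_right hx hy (K.inv_mem hy) hxy (Commute.inv_right hxy)
  rw [mul_inv_cancel, h.pairing_one_right hx] at h1
  linear_combination -h1

theorem Z2.pairing_inv_left (h : Z2 (triv F G) K a) (hx : x ∈ K) (hy : y ∈ K) (hxy : x * y = y * x) :
    pairing a x⁻¹ y = -pairing a x y := by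
  rw [pairing_swap, h.pairing_inv_right hy hx hxy.symm, pairing_swap a y x]

theorem Z2.pairing_pow_right (h : Z2 (triv F G) K a) (hx : x ∈ K) (hy : y ∈ K) (hxy : x * y = y * x) (n : ℕ) :
    pairing a x (y ^ n) = n * pairing a x y := by
  induction n with
  | zero => rw [pow_zero, h.pairing_one_right hx, Nat.cast_zero, zero_mul]
  | succ n ih =>
    rw [pow_succ, h.pairing_mul_right hx (K.pow_mem hy n) hy (Commute.pow_right hxy n) hxy, ih]
    push_cast
    ring

theorem Z2.pairing_pow_left (h : Z2 (triv F G) K a) (hx : x ∈ K) (hy : y ∈ K) (hxy : x * y = y * x) (n : ℕ) :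
    pairing a (x ^ n) y = n * pairing a x y := by
  rw [pairing_swap, h.pairing_pow_right hy hx hxy.symm, pairing_swap a y x]
  ring

theorem Z2.conj_triv (h : Z2 (triv F G) K a) (hk : k ∈ K) (hx : x ∈ K) (hy : y ∈ K) :
    a (k * x * k⁻¹) (k * y * k⁻¹) = a x y + cjc a k (x * y) - cjc a k x - cjc a k y := h.conj hk hx hy

theorem Z2.pairing_conj (h : Z2 (triv F G) K a) (hk : k ∈ K) (hx : x ∈ K) (hy : y ∈ K) (hxy : x * y = y * x) :
    pairing a (k * x * k⁻¹) (k * y * k⁻¹) = pairing a x y := by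
  unfold pairing
  rw [h.conj_triv hk hx hy, h.conj_triv hk hy hx, hxy]
  ring

theorem B2.pairing_eq_zero (h : B2 (triv F G) K a) (hx : x ∈ K) (hy : y ∈ K) (hxy : x * y = y * x) :
    pairing a x y = 0 := by
  obtain ⟨b, hb⟩ := b2_triv.1 h
  unfold pairing
  rw [hb x hx y hy, hb y hy x hx, hxy]
  ring

theorem B2.pairing_eq (h : B2 (triv F G) K (a - a')) (hx : x ∈ K) (hy : y ∈ K) (hxy : x * y = y * x) :
    pairing a x y = pairing a' x y := by
  have h1 := h.pairing_eq_zero hx hy hxy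
  rwa [pairing_sub, sub_eq_zero] at h1

theorem cube_eq_one {H : Type*} [Group H] {x : H} (hx : x ^ 3 = 1) : x * x * x = 1 := by
  rwa [pow_succ, pow_two] at hx

theorem B2.cube_eq_zero (h3 : (3 : F) = 0) (h : B2 (triv F G) K a) (hx : x ∈ K) (hx3 : x ^ 3 = 1) :
    cube a x = 0 := by
  obtain ⟨b, hb⟩ := b2_triv.1 h
  unfold cube
  rw [hb 1 K.one_mem 1 K.one_mem, hb x hx x hx, hb _ (K.mul_mem hx hx) x hx, cube_eq_one hx3, mul_one]
  linear_combination b x * h3

theorem B2.cube_eq (h3 : (3 : F) = 0) (h : B2 (triv F G) K (a - a')) (hx : x ∈ K) (hx3 : x ^ 3 = 1) :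
    cube a x = cube a' x := by
  have h1 := h.cube_eq_zero h3 hx hx3
  rwa [cube_sub, sub_eq_zero] at h1

theorem Z2.cube_conj (h3 : (3 : F) = 0) (h : Z2 (triv F G) K a) (hk : k ∈ K) (hx : x ∈ K) (hx3 : x ^ 3 = 1) :
    cube a (k * x * k⁻¹) = cube a x := by
  unfold cube
  have e : k * x * k⁻¹ * (k * x * k⁻¹) = k * (x * x) * k⁻¹ := by group
  have h1 := h.cjc_one hk
  rw [triv_apply, sub_self] at h1
  rw [e, h.conj_triv hk (K.mul_mem hx hx) hx, h.conj_triv hk hx hx, cube_eq_one hx3, h1]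
  linear_combination (-cjc a k x) * h3

theorem Z2.cube_inv (h3 : (3 : F) = 0) (h : Z2 (triv F G) K a) (hx : x ∈ K) (hx3 : x ^ 3 = 1) :
    cube a x⁻¹ = -cube a x := by
  have h' := z2_triv.1 h
  have e0 := cube_eq_one hx3
  have e1 : x⁻¹ = x * x := inv_eq_of_mul_eq_one_left e0
  have e2 : x * x * (x * x) = x := by rw [← mul_assoc, e0, one_mul]
  have h1 := h' x hx x hx x hx
  have h2 := h' _ (K.mul_mem hx hx) x hx x hx
  rw [e0, h.one_left hx] at h2
  unfold cube
  rw [e1, e2]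
  linear_combination -h1 - h2 + (a 1 1 + a (x * x) x) * h3

theorem Z2.cube_eq_zero_of_conj_inv (h3 : (3 : F) = 0) (h : Z2 (triv F G) K a) (hk : k ∈ K) (hx : x ∈ K)
    (hx3 : x ^ 3 = 1) (e : k * x * k⁻¹ = x⁻¹) : cube a x = 0 := by
  have h1 := h.cube_conj h3 hk hx hx3
  rw [e, h.cube_inv h3 hx hx3] at h1
  linear_combination h1 + cube a x * h3

theorem Z2.cube_one (h3 : (3 : F) = 0) : cube a 1 = 0 := by
  unfold cube
  rw [mul_one]
  linear_combination a 1 1 * h3

end Pairing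

/-! ### Lifting elementary abelian groups of order at most nine -/

section Nine

variable {H : Type*} [Group H]

theorem mem_zpowers_three {x y : H} (hx : x ^ 3 = 1) (hy : y ∈ Subgroup.zpowers x) :
    y = 1 ∨ y = x ∨ y = x * x := by
  obtain ⟨n, rfl⟩ := hy
  have h1 : x ^ n = x ^ (n % 3) := by
    have h2 : x ^ (3 : ℤ) = 1 := by exact_mod_cast hx
    exact zpow_eq_zpow_emod n h2
  have h3 : n % 3 = 0 ∨ n % 3 = 1 ∨ n % 3 = 2 := by omega
  show x ^ n = 1 ∨ x ^ n = x ∨ x ^ n = x * x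
  rcases h3 with h | h | h <;> rw [h1, h]
  · left; exact zpow_zero x
  · right; left; exact zpow_one x
  · right; right; exact zpow_two x

theorem mem_closure_pair_three {x y z : H} (hx : x ^ 3 = 1) (hy : y ^ 3 = 1) (hxy : x * y = y * x)
    (hz : z ∈ Subgroup.closure ({x, y} : Set H)) : ∃ i < 3, ∃ j < 3, z = x ^ i * y ^ j := by
  have hc : Commute x y := hxy
  have key : ∀ i j : ℕ, ∃ i' < 3, ∃ j' < 3, x ^ i * y ^ j = x ^ i' * y ^ j' := fun i j =>
    ⟨i % 3, Nat.mod_lt _ (by norm_num), j % 3, Nat.mod_lt _ (by norm_num), by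
      rw [← pow_eq_pow_mod i hx, ← pow_eq_pow_mod j hy]⟩
  induction hz using Subgroup.closure_induction with
  | mem w hw =>
    rcases hw with rfl | rfl
    · exact ⟨1, by norm_num, 0, by norm_num, by rw [pow_one, pow_zero, mul_one]⟩
    · exact ⟨0, by norm_num, 1, by norm_num, by rw [pow_one, pow_zero, one_mul]⟩
  | one => exact ⟨0, by norm_num, 0, by norm_num, by rw [pow_zero, pow_zero, one_mul]⟩
  | mul u v _ _ hu hv =>
    obtain ⟨i, -, j, -, rfl⟩ := hu
    obtain ⟨i', -, j', -, rfl⟩ := hv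
    have e : x ^ i * y ^ j * (x ^ i' * y ^ j') = x ^ (i + i') * y ^ (j + j') := by
      rw [pow_add, pow_add, mul_assoc, mul_assoc, ← mul_assoc (y ^ j), ← (hc.pow_pow i' j).eq, mul_assoc]
    rw [e]
    exact key _ _
  | inv u _ hu =>
    obtain ⟨i, -, j, -, rfl⟩ := hu
    have e : (x ^ i * y ^ j)⁻¹ = x ^ (2 * i) * y ^ (2 * j) := by
      apply inv_eq_of_mul_eq_one_right
      calc x ^ i * y ^ j * (x ^ (2 * i) * y ^ (2 * j)) = (x ^ i * x ^ (2 * i)) * (y ^ j * y ^ (2 * j)) := by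
            rw [mul_assoc, mul_assoc, ← mul_assoc (y ^ j), ← (hc.pow_pow (2 * i) j).eq, mul_assoc]
        _ = (x ^ 3) ^ i * (y ^ 3) ^ j := by
            rw [← pow_add, ← pow_add, ← pow_mul, ← pow_mul]
            congr 2 <;> ring
        _ = 1 := by rw [hx, hy, one_pow, one_pow, one_mul]
    rw [e]
    exact key _ _

theorem indep_three {x y : H} (hx : x ^ 3 = 1) (hy : y ^ 3 = 1) (hx1 : x ≠ 1) (hyx : y ∉ Subgroup.zpowers x)
    {i j : ℕ} (hi : i < 3) (hj : j < 3) (e : x ^ i * y ^ j = 1) : i = 0 ∧ j = 0 := by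
  have h1 : y ^ j ∈ Subgroup.zpowers x := by
    rw [eq_inv_of_mul_eq_one_right e]
    exact Subgroup.inv_mem _ (Subgroup.pow_mem _ (Subgroup.mem_zpowers x) i)
  have hj0 : j = 0 := by
    by_contra h
    apply hyx
    have h2 : j = 1 ∨ j = 2 := by omega
    rcases h2 with rfl | rfl
    · rwa [pow_one] at h1
    · have h3 := Subgroup.pow_mem _ h1 2
      rwa [← pow_mul, show 2 * 2 = 3 + 1 from rfl, pow_succ, hy, one_mul] at h3
  subst hj0
  rw [pow_zero, mul_one] at e
  refine ⟨?_, rfl⟩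
  by_contra h
  apply hx1
  have h2 : i = 1 ∨ i = 2 := by omega
  rcases h2 with rfl | rfl
  · rwa [pow_one] at e
  · rwa [pow_succ, e, one_mul] at hx

theorem closure_pair_of_mem {x y : H} (h : y ∈ Subgroup.zpowers x) :
    Subgroup.closure ({x, y} : Set H) = Subgroup.zpowers x := by
  apply le_antisymm
  · rw [Subgroup.closure_le]
    rintro _ (rfl | rfl)
    · exact Subgroup.mem_zpowers _
    · exact h
  · rw [Subgroup.zpowers_le]
    exact Subgroup.subset_closure (Set.mem_insert _ _)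

/-- Independence from the order. -/
theorem indep_of_card {x y : H} (hx : x ^ 3 = 1) (hy : y ^ 3 = 1)
    (h9 : Nat.card (Subgroup.closure ({x, y} : Set H)) = 9) : x ≠ 1 ∧ y ∉ Subgroup.zpowers x := by
  have key : ∀ {u v : H}, u ^ 3 = 1 → v ∈ Subgroup.zpowers u →
      Nat.card (Subgroup.closure ({u, v} : Set H)) ≠ 9 := by
    intro u v hu hv h
    rw [closure_pair_of_mem hv, Nat.card_zpowers] at h
    have h1 := Nat.le_of_dvd (by norm_num) (orderOf_dvd_of_pow_eq_one hu)
    omega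
  constructor
  · rintro rfl
    rw [Set.pair_comm] at h9
    exact key hy (Subgroup.one_mem _) h9
  · exact fun h => key hx h h9

theorem pair_inj_three {x y : H} (hx : x ^ 3 = 1) (hy : y ^ 3 = 1) (hxy : x * y = y * x) (hx1 : x ≠ 1)
    (hyx : y ∉ Subgroup.zpowers x) {i j i' j' : ℕ} (e : x ^ i * y ^ j = x ^ i' * y ^ j') :
    i % 3 = i' % 3 ∧ j % 3 = j' % 3 := by
  have hc : Commute x y := hxy
  have hmul : ∀ i j i' j' : ℕ, x ^ i * y ^ j * (x ^ i' * y ^ j') = x ^ (i + i') * y ^ (j + j') := by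
    intro i j i' j'
    rw [pow_add, pow_add, mul_assoc, mul_assoc, ← mul_assoc (y ^ j), ← (hc.pow_pow i' j).eq, mul_assoc]
  have e2 : x ^ ((i + 2 * i') % 3) * y ^ ((j + 2 * j') % 3) = 1 := by
    rw [← pow_eq_pow_mod _ hx, ← pow_eq_pow_mod _ hy, ← hmul, e, hmul]
    rw [show i' + 2 * i' = 3 * i' by ring, show j' + 2 * j' = 3 * j' by ring, pow_mul, pow_mul, hx, hy,
      one_pow, one_pow, one_mul]
  obtain ⟨e3, e4⟩ := indep_three hx hy hx1 hyx (Nat.mod_lt _ (by norm_num)) (Nat.mod_lt _ (by norm_num)) e2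
  omega

/-- The order from independence. -/
theorem card_of_indep {x y : H} (hx : x ^ 3 = 1) (hy : y ^ 3 = 1) (hxy : x * y = y * x) (hx1 : x ≠ 1)
    (hyx : y ∉ Subgroup.zpowers x) : Nat.card (Subgroup.closure ({x, y} : Set H)) = 9 := by
  have hxK : x ∈ Subgroup.closure ({x, y} : Set H) := Subgroup.subset_closure (Set.mem_insert _ _)
  have hyK : y ∈ Subgroup.closure ({x, y} : Set H) := Subgroup.subset_closure (Set.mem_insert_of_mem _ rfl)
  have hm : ∀ i j : ℕ, x ^ i * y ^ j ∈ Subgroup.closure ({x, y} : Set H) := fun i j =>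
    Subgroup.mul_mem _ (Subgroup.pow_mem _ hxK i) (Subgroup.pow_mem _ hyK j)
  have hf : Function.Bijective
      (fun p : Fin 3 × Fin 3 => (⟨x ^ p.1.1 * y ^ p.2.1, hm _ _⟩ : Subgroup.closure ({x, y} : Set H))) := by
    constructor
    · intro p q e
      have e1 : x ^ p.1.1 * y ^ p.2.1 = x ^ q.1.1 * y ^ q.2.1 := Subtype.ext_iff.1 e
      obtain ⟨e3, e4⟩ := pair_inj_three hx hy hxy hx1 hyx e1
      rw [Nat.mod_eq_of_lt p.1.2, Nat.mod_eq_of_lt q.1.2] at e3
      rw [Nat.mod_eq_of_lt p.2.2, Nat.mod_eq_of_lt q.2.2] at e4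
      exact Prod.ext (Fin.ext e3) (Fin.ext e4)
    · intro z
      obtain ⟨i, hi, j, hj, e⟩ := mem_closure_pair_three hx hy hxy z.2
      exact ⟨(⟨i, hi⟩, ⟨j, hj⟩), Subtype.ext e.symm⟩
  have h1 := Nat.card_eq_of_bijective _ hf
  rw [Nat.card_prod, Nat.card_fin] at h1
  exact h1.symm

variable {F M G : Type*} [Field F] [AddCommGroup M] [Module F M] [Group G] {σ : G →* Module.End F M}
  {E : Type*} [Group E] {X : Ext σ E}

theorem spl_of_cube {x : E} (hx : x ^ 3 = 1) : Spl X (Subgroup.zpowers (X.π x)) := by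
  by_cases h1 : X.π x = 1
  · rw [h1, Subgroup.zpowers_one_eq_bot]
    exact ⟨⊥, isLift_bot⟩
  · refine ⟨Subgroup.zpowers x, fun y hy e => ?_, MonoidHom.map_zpowers _ _⟩
    rcases mem_zpowers_three hx hy with h | h | h
    · exact h
    · rw [h] at e
      exact absurd e h1
    · exfalso
      apply h1
      have h2 := congrArg X.π (cube_eq_one hx)
      rw [map_mul, ← h, e, one_mul, map_one] at h2
      exact h2

/-- Commuting lifts of order three give a splitting. -/
theorem spl_of_pair {x y : E} (hx : x ^ 3 = 1) (hy : y ^ 3 = 1) (hxy : x * y = y * x) :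
    Spl X (Subgroup.closure ({X.π x, X.π y} : Set G)) := by
  by_cases h1 : X.π y ∈ Subgroup.zpowers (X.π x)
  · rw [closure_pair_of_mem h1]
    exact spl_of_cube hx
  by_cases h2 : X.π x = 1
  · rw [Set.pair_comm, closure_pair_of_mem (by rw [h2]; exact Subgroup.one_mem _)]
    exact spl_of_cube hy
  refine ⟨Subgroup.closure {x, y}, fun z hz e => ?_, ?_⟩
  · obtain ⟨i, hi, j, hj, rfl⟩ := mem_closure_pair_three hx hy hxy hz
    rw [map_mul, map_pow, map_pow] at e
    obtain ⟨rfl, rfl⟩ := indep_three (by rw [← map_pow, hx, map_one]) (by rw [← map_pow, hy, map_one]) h2 h1 hi hj e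
    rw [pow_zero, pow_zero, one_mul]
  · rw [MonoidHom.map_closure, Set.image_pair]

/-- The commutator of two lifts. -/
theorem IsCoc.comm {t : G → E} {γ : G → G → M} (h : IsCoc X t γ) {x y : G} (hxy : x * y = y * x) :
    t x * t y = X.j (γ x y - γ y x) * (t y * t x) := by
  rw [h.2, h.2, ← hxy, ← mul_assoc, ← X.j_add, sub_add_cancel]

/-- The cube of a lift. -/
theorem IsCoc.cube_eq {t : G → E} {γ : G → G → M} (h : IsCoc X t γ) {x : G} (hx : x ^ 3 = 1) :
    t x ^ 3 = X.j (γ 1 1 + γ x x + γ (x * x) x) := by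
  rw [pow_succ, pow_two, h.2, mul_assoc, h.2, cube_eq_one hx, h.one, ← X.j_add, ← X.j_add]
  congr 1
  abel

/-- Transfer of coboundaries from the subgroup as a group. -/
theorem B2.of_subtype {K : Subgroup G} {γ : G → G → M}
    (h : B2 (σ.comp K.subtype) ⊤ (fun x y : K => γ x y)) : B2 σ K γ := by
  classical
  obtain ⟨b, hb⟩ := h
  refine ⟨fun g => if hg : g ∈ K then b ⟨g, hg⟩ else 0, fun g hg k hk => ?_⟩
  simp only [dif_pos hg, dif_pos hk, dif_pos (K.mul_mem hg hk)]
  exact hb ⟨g, hg⟩ trivial ⟨k, hk⟩ trivial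

theorem Z2.subtype {K : Subgroup G} {γ : G → G → M} (h : Z2 σ K γ) :
    Z2 (σ.comp K.subtype) ⊤ (fun x y : K => γ x y) := h.comap K.subtype fun x _ => x.2

theorem B2.subtype {K : Subgroup G} {γ : G → G → M} (h : B2 σ K γ) :
    B2 (σ.comp K.subtype) ⊤ (fun x y : K => γ x y) := h.comap K.subtype fun x _ => x.2

/-- A cocycle on `⟨x, y⟩ ≤ 3²` with trivial commutator and trivial cubes is a coboundary (any module). -/
theorem Z2.b2_pair {x y : G} {γ : G → G → M} (h : Z2 σ (Subgroup.closure {x, y}) γ) (hx : x ^ 3 = 1)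
    (hy : y ^ 3 = 1) (hxy : x * y = y * x) (h1 : γ x y = γ y x) (h2 : γ 1 1 + γ x x + γ (x * x) x = 0)
    (h3 : γ 1 1 + γ y y + γ (y * y) y = 0) : B2 σ (Subgroup.closure {x, y}) γ := by
  apply B2.of_subtype
  set K : Subgroup G := Subgroup.closure {x, y} with hK
  have hxK : x ∈ K := Subgroup.subset_closure (Set.mem_insert _ _)
  have hyK : y ∈ K := Subgroup.subset_closure (Set.mem_insert_of_mem _ rfl)
  have hc := isCoc_tw h.subtype
  have e1 := hc.cube_eq (x := ⟨x, hxK⟩) (Subtype.ext hx)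
  have e2 := hc.cube_eq (x := ⟨y, hyK⟩) (Subtype.ext hy)
  have e3 := hc.comm (x := ⟨x, hxK⟩) (y := ⟨y, hyK⟩) (Subtype.ext hxy)
  have z1 : γ ((1 : K) : G) ((1 : K) : G) + γ x x + γ ((⟨x, hxK⟩ * ⟨x, hxK⟩ : K) : G) x = 0 := h2
  have z2 : γ ((1 : K) : G) ((1 : K) : G) + γ y y + γ ((⟨y, hyK⟩ * ⟨y, hyK⟩ : K) : G) y = 0 := h3
  simp only [z1, Ext.j_zero] at e1
  simp only [z2, Ext.j_zero] at e2
  simp only [h1, sub_self, Ext.j_zero, one_mul] at e3
  have h4 := spl_of_pair (X := twExt h.subtype) e1 e2 e3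
  rw [hc.1, hc.1, hc.spl_iff] at h4
  have h5 : Subgroup.closure ({⟨x, hxK⟩, ⟨y, hyK⟩} : Set K) = ⊤ := by
    apply Subgroup.map_injective K.subtype_injective
    rw [MonoidHom.map_closure, Set.image_pair, ← MonoidHom.range_eq_map, Subgroup.range_subtype]
    rfl
  rwa [h5] at h4

/-- A cocycle on a cyclic group of order three with trivial cube is a coboundary (any module). -/
theorem Z2.b2_zpowers {x : G} {γ : G → G → M} (h : Z2 σ (Subgroup.zpowers x) γ) (hx : x ^ 3 = 1)
    (h2 : γ 1 1 + γ x x + γ (x * x) x = 0) : B2 σ (Subgroup.zpowers x) γ := by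
  have e := closure_pair_of_mem (Subgroup.mem_zpowers x)
  rw [← e] at h ⊢
  exact h.b2_pair hx hx rfl rfl h2 h2

end Nine

section Triv

variable {F : Type*} [Field F] {G : Type*} [Group G] {a : G → G → F} {x y : G}

/-- **The invariants on `3²` are complete.** -/
theorem Z2.b2_iff_pair (h3 : (3 : F) = 0) (h : Z2 (triv F G) (Subgroup.closure {x, y}) a) (hx : x ^ 3 = 1)
    (hy : y ^ 3 = 1) (hxy : x * y = y * x) :
    B2 (triv F G) (Subgroup.closure {x, y}) a ↔ pairing a x y = 0 ∧ cube a x = 0 ∧ cube a y = 0 := by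
  have hxK : x ∈ Subgroup.closure ({x, y} : Set G) := Subgroup.subset_closure (Set.mem_insert _ _)
  have hyK : y ∈ Subgroup.closure ({x, y} : Set G) := Subgroup.subset_closure (Set.mem_insert_of_mem _ rfl)
  constructor
  · exact fun hb => ⟨hb.pairing_eq_zero hxK hyK hxy, hb.cube_eq_zero h3 hxK hx, hb.cube_eq_zero h3 hyK hy⟩
  · rintro ⟨h1, h2, h4⟩
    exact h.b2_pair hx hy hxy (sub_eq_zero.1 h1) h2 h4

theorem Z2.b2_iff_zpowers (h3 : (3 : F) = 0) (h : Z2 (triv F G) (Subgroup.zpowers x) a) (hx : x ^ 3 = 1) :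
    B2 (triv F G) (Subgroup.zpowers x) a ↔ cube a x = 0 :=
  ⟨fun hb => hb.cube_eq_zero h3 (Subgroup.mem_zpowers x) hx, fun h2 => h.b2_zpowers hx h2⟩

/-- Coordinates on `3²`. -/
theorem exists_coord (hx : x ^ 3 = 1) (hy : y ^ 3 = 1) (hxy : x * y = y * x) (hx1 : x ≠ 1)
    (hyx : y ∉ Subgroup.zpowers x) :
    ∃ α β : G → ZMod 3, (∀ i j : ℕ, α (x ^ i * y ^ j) = i ∧ β (x ^ i * y ^ j) = j) ∧
      ∀ g ∈ Subgroup.closure ({x, y} : Set G), ∀ h ∈ Subgroup.closure ({x, y} : Set G),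
        α (g * h) = α g + α h ∧ β (g * h) = β g + β h := by
  classical
  have hc : Commute x y := hxy
  have hmul : ∀ i j i' j' : ℕ, x ^ i * y ^ j * (x ^ i' * y ^ j') = x ^ (i + i') * y ^ (j + j') := by
    intro i j i' j'
    rw [pow_add, pow_add, mul_assoc, mul_assoc, ← mul_assoc (y ^ j), ← (hc.pow_pow i' j).eq, mul_assoc]
  have hinj : ∀ i j i' j' : ℕ, x ^ i * y ^ j = x ^ i' * y ^ j' →
      ((i : ZMod 3) = (i' : ZMod 3)) ∧ ((j : ZMod 3) = (j' : ZMod 3)) := by
    intro i j i' j' e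
    rw [ZMod.natCast_eq_natCast_iff', ZMod.natCast_eq_natCast_iff']
    exact pair_inj_three hx hy hxy hx1 hyx e
  have h1 : ∀ g : G, ∃ p : ZMod 3 × ZMod 3, ∀ i j : ℕ, g = x ^ i * y ^ j → p.1 = i ∧ p.2 = j := by
    intro g
    by_cases hg : ∃ i j : ℕ, g = x ^ i * y ^ j
    · obtain ⟨i, j, rfl⟩ := hg
      exact ⟨(i, j), fun i' j' e => hinj i j i' j' e⟩
    · exact ⟨(0, 0), fun i j e => absurd ⟨i, j, e⟩ hg⟩
  choose p hp using h1
  refine ⟨fun g => (p g).1, fun g => (p g).2, fun i j => hp _ i j rfl, fun g hg h hh => ?_⟩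
  obtain ⟨i, -, j, -, rfl⟩ := mem_closure_pair_three hx hy hxy hg
  obtain ⟨i', -, j', -, rfl⟩ := mem_closure_pair_three hx hy hxy hh
  have h2 := hp _ _ _ (hmul i j i' j')
  have h3 := hp _ i j rfl
  have h4 := hp _ i' j' rfl
  simp only [h2.1, h2.2, h3.1, h3.2, h4.1, h4.2, Nat.cast_add, and_self]

/-- **The Heisenberg cocycle.** -/
theorem exists_heis (hx : x ^ 3 = 1) (hy : y ^ 3 = 1) (hxy : x * y = y * x) (hx1 : x ≠ 1)
    (hyx : y ∉ Subgroup.zpowers x) :
    ∃ θ : G → G → ZMod 3, Z2 (triv (ZMod 3) G) (Subgroup.closure {x, y}) θ ∧ pairing θ x y = 1 ∧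
      ∀ g ∈ Subgroup.closure ({x, y} : Set G), cube θ g = 0 := by
  obtain ⟨α, β, h1, h2⟩ := exists_coord hx hy hxy hx1 hyx
  refine ⟨fun g h => α g * β h, ?_, ?_, ?_⟩
  · rw [z2_triv]
    intro g hg h hh k hk
    rw [(h2 g hg h hh).1, (h2 h hh k hk).2]
    ring
  · have e1 := h1 1 0
    have e2 := h1 0 1
    rw [pow_one, pow_zero, mul_one] at e1
    rw [pow_one, pow_zero, one_mul] at e2
    show α x * β y - α y * β x = 1
    rw [e1.1, e1.2, e2.1, e2.2]
    simp
  · intro g hg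
    have e1 := h1 0 0
    rw [pow_zero, pow_zero, mul_one] at e1
    show α 1 * β 1 + α g * β g + α (g * g) * β g = 0
    rw [e1.1, (h2 g hg g hg).1]
    have h3 : (3 : ZMod 3) = 0 := rfl
    linear_combination (α g * β g) * h3

theorem exists_heis_of_card (hx : x ^ 3 = 1) (hy : y ^ 3 = 1) (hxy : x * y = y * x)
    (h9 : Nat.card (Subgroup.closure ({x, y} : Set G)) = 9) :
    ∃ θ : G → G → ZMod 3, Z2 (triv (ZMod 3) G) (Subgroup.closure {x, y}) θ ∧ pairing θ x y = 1 ∧
      ∀ g ∈ Subgroup.closure ({x, y} : Set G), cube θ g = 0 :=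
  exists_heis hx hy hxy (indep_of_card hx hy h9).1 (indep_of_card hx hy h9).2

end Triv

end Cfsg.Agent.B5591
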