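import Cfsg.Agent.B5591.CocC

/-!
# S5591: quotient modules and submodules (part g of the cocycle library)
-/

set_option autoImplicit false

namespace Cfsg.Agent.B5591

variable {F M G : Type*} [Field F] [AddCommGroup M] [Module F M] [Group G]

/-- The action on the quotient by an invariant submodule. -/
def quo (σ : G →* Module.End F M) (J : Submodule F M) (hJ : ∀ g, ∀ m ∈ J, σ g m ∈ J) :
    G →* Module.End F (M ⧸ J) where
  toFun g := J.mapQ J (σ g) (hJ g)
  map_one' := by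
    apply J.linearMap_qext
    ext m
    show J.mapQ J (σ 1) (hJ 1) (J.mkQ m) = J.mkQ m
    rw [Submodule.mkQ_apply, Submodule.mapQ_apply, act_one]
  map_mul' g h := by
    apply J.linearMap_qext
    ext m
    show J.mapQ J (σ (g * h)) (hJ _) (J.mkQ m) = J.mapQ J (σ g) (hJ g) (J.mapQ J (σ h) (hJ h) (J.mkQ m))
    simp only [Submodule.mkQ_apply, Submodule.mapQ_apply, act_mul]

/-- The action on an invariant submodule. -/
def sub (σ : G →* Module.End F M) (J : Submodule F M) (hJ : ∀ g, ∀ m ∈ J, σ g m ∈ J) :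
    G →* Module.End F J where
  toFun g := (σ g).restrict (hJ g)
  map_one' := by
    ext m
    show σ 1 m = m
    exact act_one _
  map_mul' g h := by
    ext m
    show σ (g * h) m = σ g (σ h m)
    exact act_mul _ _ _

variable {σ : G →* Module.End F M} {J : Submodule F M} {hJ : ∀ g, ∀ m ∈ J, σ g m ∈ J} {K T : Subgroup G}

theorem quo_mk (g : G) (m : M) : quo σ J hJ g (J.mkQ m) = J.mkQ (σ g m) := rfl

theorem sub_val (g : G) (m : J) : ((sub σ J hJ g m : J) : M) = σ g m := rfl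

theorem Z2.mkQ {γ : G → G → M} (h : Z2 σ K γ) : Z2 (quo σ J hJ) K (fun g k => J.mkQ (γ g k)) :=
  h.map J.mkQ fun _ _ _ => rfl

theorem B2.mkQ {γ : G → G → M} (h : B2 σ K γ) : B2 (quo σ J hJ) K (fun g k => J.mkQ (γ g k)) :=
  h.map J.mkQ fun _ _ _ => rfl

theorem Z1.mkQ {c : G → M} (h : Z1 σ K c) : Z1 (quo σ J hJ) K (fun g => J.mkQ (c g)) :=
  h.map J.mkQ fun _ _ _ => rfl

theorem B1.mkQ {c : G → M} (h : B1 σ K c) : B1 (quo σ J hJ) K (fun g => J.mkQ (c g)) :=
  h.map J.mkQ fun _ _ _ => rfl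

/-- A cocycle with values in the submodule dies in the quotient. -/
theorem b2_mkQ_of_mem {γ : G → G → M} (h : ∀ g ∈ K, ∀ k ∈ K, γ g k ∈ J) :
    B2 (quo σ J hJ) K (fun g k => J.mkQ (γ g k)) :=
  B2.zero.congr fun g hg k hk => (Submodule.Quotient.mk_eq_zero J).2 (h g hg k hk)

/-- Fixed vectors of the quotient lift if `H¹(T, J) = 0`. -/
theorem exists_fixed_of_h1 (h1 : H1 (sub σ J hJ) T) {x : M ⧸ J} (hx : ∀ g ∈ T, quo σ J hJ g x = x) :
    ∃ m : M, J.mkQ m = x ∧ ∀ g ∈ T, σ g m = m := by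
  classical
  obtain ⟨m, rfl⟩ := J.mkQ_surjective x
  have h2 : ∀ g ∈ T, m - σ g m ∈ J := fun g hg => (Submodule.Quotient.eq J).1 (hx g hg).symm
  let c : G → J := fun g => if hg : g ∈ T then ⟨m - σ g m, h2 g hg⟩ else 0
  have hc : ∀ g ∈ T, (c g : M) = m - σ g m := fun g hg => by
    show ((if hg : g ∈ T then (⟨m - σ g m, h2 g hg⟩ : J) else 0 : J) : M) = _
    rw [dif_pos hg]
  have h3 : Z1 (sub σ J hJ) T c := by
    intro g hg k hk
    apply Subtype.ext
    show (c (g * k) : M) = c g + σ g (c k)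
    rw [hc _ (T.mul_mem hg hk), hc g hg, hc k hk, map_sub, act_mul]
    abel
  obtain ⟨n, hn⟩ := h1 c h3
  refine ⟨m - n, ?_, fun g hg => ?_⟩
  · rw [map_sub, Submodule.mkQ_apply J n, (Submodule.Quotient.mk_eq_zero J).2 n.2, sub_zero]
  · have h4 : m - σ g m = n - σ g n := (hc g hg).symm.trans (congrArg Subtype.val (hn g hg))
    rw [map_sub, sub_eq_sub_iff_sub_eq_sub, ← neg_sub m, h4, neg_sub]

/-- **Fixed vectors of the quotient lift for a group of invertible order.** -/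
theorem exists_fixed_of_card (hT : (Nat.card T : F) ≠ 0) {x : M ⧸ J} (hx : ∀ g ∈ T, quo σ J hJ g x = x) :
    ∃ m : M, J.mkQ m = x ∧ ∀ g ∈ T, σ g m = m := exists_fixed_of_h1 (h1_of_card hT) hx

theorem Fx.quo (hT : (Nat.card T : F) ≠ 0) (h : Fx σ T) : Fx (quo σ J hJ) T := by
  intro x hx
  obtain ⟨m, rfl, hm⟩ := exists_fixed_of_card hT hx
  rw [h m hm, map_zero]

/-- No fixed vectors in the quotient if all fixed vectors lie in the submodule. -/
theorem fx_quo_of_mem (hT : (Nat.card T : F) ≠ 0) (h : ∀ m, (∀ g ∈ T, σ g m = m) → m ∈ J) :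
    Fx (quo σ J hJ) T := by
  intro x hx
  obtain ⟨m, rfl, hm⟩ := exists_fixed_of_card hT hx
  exact (Submodule.Quotient.mk_eq_zero J).2 (h m hm)

/-- A class which dies in the quotient comes from the submodule. -/
theorem Z2.exists_mem {γ : G → G → M} (h : Z2 σ K γ) (hb : B2 (quo σ J hJ) K (fun g k => J.mkQ (γ g k))) :
    ∃ γ' : G → G → M, Z2 σ K γ' ∧ (∀ g ∈ K, ∀ k ∈ K, γ' g k ∈ J) ∧ B2 σ K (γ - γ') := by
  obtain ⟨b, hb⟩ := hb
  choose β hβ using fun g => J.mkQ_surjective (b g)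
  refine ⟨γ - fun g k => β g + σ g (β k) - β (g * k), h.sub (z2_cob β), fun g hg k hk => ?_, ?_⟩
  · apply (Submodule.Quotient.eq J).1
    show J.mkQ (γ g k) = J.mkQ (β g + σ g (β k) - β (g * k))
    rw [map_sub, map_add, ← quo_mk (hJ := hJ), hβ, hβ, hβ]
    exact hb g hg k hk
  · rw [sub_sub_cancel]
    exact ⟨β, fun _ _ _ _ => rfl⟩

/-- A cocycle with values in the range of an injective equivariant map is the image of a cocycle. -/
theorem Z2.exists_preimage {V : Type*} [AddCommGroup V] [Module F V] {ρ : G →* Module.End F V} (ι : V →ₗ[F] M)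
    (hι : Function.Injective ι) (he : ∀ g ∈ K, ∀ v, ι (ρ g v) = σ g (ι v)) {γ : G → G → M} (h : Z2 σ K γ)
    (hr : ∀ g ∈ K, ∀ k ∈ K, γ g k ∈ LinearMap.range ι) :
    ∃ δ : G → G → V, Z2 ρ K δ ∧ ∀ g ∈ K, ∀ k ∈ K, ι (δ g k) = γ g k := by
  classical
  have h1 : ∀ g k, ∃ v, g ∈ K → k ∈ K → ι v = γ g k := by
    intro g k
    by_cases hgk : g ∈ K ∧ k ∈ K
    · obtain ⟨v, hv⟩ := hr g hgk.1 k hgk.2
      exact ⟨v, fun _ _ => hv⟩
    · exact ⟨0, fun hg hk => absurd ⟨hg, hk⟩ hgk⟩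
  choose δ hδ using h1
  refine ⟨δ, fun a ha b hb c hc => hι ?_, fun g hg k hk => hδ g k hg hk⟩
  rw [map_add, map_add, he a ha, hδ a b ha hb, hδ _ c (K.mul_mem ha hb) hc, hδ b c hb hc,
    hδ a _ ha (K.mul_mem hb hc)]
  exact h a ha b hb c hc

end Cfsg.Agent.B5591
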