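import Cfsg.Agent.H863.STT2
import Cfsg.Agent.B5591.CocE
import Cfsg.Agent.B5591.CocF

/-!
# S5591: the local analysis of an odd cocycle at a Sylow `3`-subgroup of order nine (box LocAbs)
-/

set_option autoImplicit false
set_option linter.unusedSectionVars false

namespace Cfsg.Agent.B5591

section Fix

variable {G D : Type*} [Group G] [Finite G] [MulAction G D]

/-- Coprime action: a transporter can be chosen centralising a `3`-group. -/
theorem exists_cent_transporter {B R : Subgroup G} (hB : IsPGroup 3 B) (hR : ¬ 3 ∣ Nat.card R)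
    (hn : B ≤ Subgroup.normalizer (R : Set G)) {d d' : D} (hd : ∀ b ∈ B, b • d = d) (hd' : ∀ b ∈ B, b • d' = d')
    {ρ : G} (hρ : ρ ∈ R) (e : ρ • d = d') : ∃ τ ∈ R, τ • d = d' ∧ ∀ b ∈ B, b * τ = τ * b := by
  let S : Type _ := {τ : G // τ ∈ R ∧ τ • d = d'}
  let act : MulAction B S :=
    { smul := fun b τ => ⟨b * τ.1 * (b : G)⁻¹, (Subgroup.mem_normalizer_iff.1 (hn b.2) _).1 τ.2.1, by
        rw [mul_smul, mul_smul, hd _ (B.inv_mem b.2), τ.2.2, hd' _ b.2]⟩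
      one_smul := fun τ => Subtype.ext (by
        show ((1 : B) : G) * τ.1 * ((1 : B) : G)⁻¹ = τ.1
        simp)
      mul_smul := fun a b τ => Subtype.ext (by
        show ((a * b : B) : G) * τ.1 * ((a * b : B) : G)⁻¹ = a * (b * τ.1 * (b : G)⁻¹) * (a : G)⁻¹
        rw [Subgroup.coe_mul]
        group) }
  have hc : Nat.card S = Nat.card (R ⊓ MulAction.stabilizer G d : Subgroup G) := by
    apply Nat.card_congr
    refine ⟨fun τ => ⟨ρ⁻¹ * τ.1, R.mul_mem (R.inv_mem hρ) τ.2.1, ?_⟩,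
      fun τ => ⟨ρ * τ.1, R.mul_mem hρ τ.2.1, ?_⟩, fun τ => Subtype.ext ?_, fun τ => Subtype.ext ?_⟩
    · show (ρ⁻¹ * τ.1) • d = d
      rw [mul_smul, τ.2.2, ← e, inv_smul_smul]
    · have h1 : τ.1 • d = d := τ.2.2
      rw [mul_smul, h1, e]
    · exact mul_inv_cancel_left ρ τ.1
    · exact inv_mul_cancel_left ρ τ.1
  have : Fact (Nat.Prime 3) := ⟨Nat.prime_three⟩
  obtain ⟨τ, hτ⟩ := hB.nonempty_fixed_point_of_prime_not_dvd_card S (by
    rw [hc]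
    exact fun h => hR (h.trans (Subgroup.card_dvd_of_le inf_le_left)))
  refine ⟨τ.1, τ.2.1, τ.2.2, fun b hb => ?_⟩
  have h1 : b * τ.1 * b⁻¹ = τ.1 := congrArg Subtype.val (hτ ⟨b, hb⟩)
  rw [← mul_inv_eq_iff_eq_mul]
  exact h1

/-- A `3`-subgroup is conjugate into a subgroup of index prime to three. -/
theorem exists_conj_into {B A H : Subgroup G} (hB : IsPGroup 3 B) (hBH : B ≤ H) (hi : ¬ 3 ∣ A.relIndex H) :
    ∃ m ∈ H, ∀ b ∈ B, m⁻¹ * b * m ∈ A := by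
  let act : MulAction B (H ⧸ A.subgroupOf H) := MulAction.compHom _ (Subgroup.inclusion hBH)
  have : Fact (Nat.Prime 3) := ⟨Nat.prime_three⟩
  obtain ⟨q, hq⟩ := hB.nonempty_fixed_point_of_prime_not_dvd_card (H ⧸ A.subgroupOf H) hi
  obtain ⟨m, rfl⟩ := QuotientGroup.mk_surjective q
  refine ⟨m, m.2, fun b hb => ?_⟩
  have h1 : (QuotientGroup.mk ((⟨b, hBH hb⟩ : H) * m) : H ⧸ A.subgroupOf H) = QuotientGroup.mk m := hq ⟨b, hb⟩
  have h2 := QuotientGroup.eq.1 h1.symm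
  rw [Subgroup.mem_subgroupOf] at h2
  rw [mul_assoc]
  exact h2

end Fix

theorem Z2.pairing_det {F : Type*} [Field F] {G : Type*} [Group G] {K : Subgroup G} {γ : G → G → F} {x y : G}
    (h : Z2 (triv F G) K γ) (hx : x ∈ K) (hy : y ∈ K) (hxy : x * y = y * x) (a b c d : ℕ) :
    pairing γ (x ^ a * y ^ b) (x ^ c * y ^ d) = ((a : F) * d - b * c) * pairing γ x y := by
  have C : Commute x y := hxy
  have hw : x ^ c * y ^ d ∈ K := K.mul_mem (K.pow_mem hx c) (K.pow_mem hy d)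
  have c1 : Commute x (x ^ c * y ^ d) := (Commute.self_pow x c).mul_right (C.pow_right d)
  have c2 : Commute y (x ^ c * y ^ d) := (C.symm.pow_right c).mul_right (Commute.self_pow y d)
  rw [h.pairing_mul_left (K.pow_mem hx a) (K.pow_mem hy b) hw (c1.pow_left a) (c2.pow_left b),
    h.pairing_pow_left hx hw c1, h.pairing_pow_left hy hw c2,
    h.pairing_mul_right hx (K.pow_mem hx c) (K.pow_mem hy d) (Commute.self_pow x c) (C.pow_right d),
    h.pairing_mul_right hy (K.pow_mem hx c) (K.pow_mem hy d) (C.symm.pow_right c) (Commute.self_pow y d),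
    h.pairing_pow_right hx hx rfl, h.pairing_pow_right hx hy hxy, h.pairing_pow_right hy hx hxy.symm,
    h.pairing_pow_right hy hy rfl, pairing_self, pairing_self, pairing_swap γ x y]
  ring

theorem eq_zero_of_eq_neg3 {a : ZMod 3} (h : a = -a) : a = 0 := by
  revert a
  decide

/-- The abstract data of the local analysis. -/
structure Loc (G D : Type*) [Group G] [MulAction G D] where
  ν : D → D
  φ : D → ZMod 3
  N : Subgroup G
  R : Subgroup G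
  x1 : G
  x2 : G
  e3 : D
  n0 : G
  ν_smul : ∀ (g : G) (d : D), g • ν d = ν (g • d)
  ν_ν : ∀ d, ν (ν d) = d
  φ_ν : ∀ d, φ (ν d) = -φ d
  N27 : ¬ 27 ∣ Nat.card N
  R3 : ¬ 3 ∣ Nat.card R
  NR : N ≤ Subgroup.normalizer (R : Set G)
  φ_R : ∀ ρ ∈ R, ∀ d, φ (ρ • d) = φ d
  φ_N : ∀ n ∈ N, (∀ d, φ (n • d) = φ d) ∨ ∀ d, φ (n • d) = -φ d
  x1_3 : x1 ^ 3 = 1
  x2_3 : x2 ^ 3 = 1
  comm : x1 * x2 = x2 * x1
  x1_ne : x1 ≠ 1
  x2_not : x2 ∉ Subgroup.zpowers x1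
  x1_mem : x1 ∈ N
  x2_mem : x2 ∈ N
  fix1 : x1 • e3 = e3
  fix2 : x2 • e3 = e3
  φ_ne : φ e3 ≠ 0
  hR : ∀ n ∈ N, ∃ ρ ∈ R, n • e3 = ρ • e3 ∨ n • e3 = ν (ρ • e3)
  n0_mem : n0 ∈ N
  n0_1 : n0 * x1 * n0⁻¹ = x1⁻¹
  n0_2 : n0 * x2 * n0⁻¹ = x2⁻¹
  n0_φ : φ (n0 • e3) = φ e3
  cover : ∀ p : D, ∃ g : G, g * x1 = x1 * g ∧ g * x2 = x2 * g ∧ φ (g • p) = φ p ∧
    ((∃ t ∈ R, t • g • p = ν (g • p)) ∨
      ∃ n ∈ N, ∃ s : G, s * x1 = x1 * s ∧ s * x2 = x2 * s ∧ φ (s • e3) = φ e3 ∧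
        (g • p = n • s • e3 ∨ g • p = ν (n • s • e3)))

namespace Loc

variable {G D : Type*} [Group G] [Finite G] [MulAction G D] (L : Loc G D)

/-- The group of order nine. -/
def A : Subgroup G := Subgroup.closure {L.x1, L.x2}

theorem x1_A : L.x1 ∈ L.A := Subgroup.subset_closure (Set.mem_insert _ _)

theorem x2_A : L.x2 ∈ L.A := Subgroup.subset_closure (Set.mem_insert_of_mem _ rfl)

theorem card_A : Nat.card L.A = 9 := card_of_indep L.x1_3 L.x2_3 L.comm L.x1_ne L.x2_not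

theorem A_p : IsPGroup 3 L.A := IsPGroup.of_card (n := 2) L.card_A

theorem A_le {H : Subgroup G} (h1 : L.x1 ∈ H) (h2 : L.x2 ∈ H) : L.A ≤ H := by
  unfold A
  rw [Subgroup.closure_le]
  rintro t (rfl | rfl)
  exacts [h1, h2]

theorem A_le_N : L.A ≤ L.N := L.A_le L.x1_mem L.x2_mem

theorem A_fix {d : D} (h1 : L.x1 • d = d) (h2 : L.x2 • d = d) {x : G} (hx : x ∈ L.A) : x • d = d :=
  L.A_le (H := MulAction.stabilizer G d) h1 h2 hx

theorem A_e3 {x : G} (hx : x ∈ L.A) : x • L.e3 = L.e3 := L.A_fix L.fix1 L.fix2 hx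

theorem A_cent {g : G} (h1 : g * L.x1 = L.x1 * g) (h2 : g * L.x2 = L.x2 * g) {x : G} (hx : x ∈ L.A) :
    g * x = x * g := by
  have h := L.A_le (H := Subgroup.centralizer {g}) (Subgroup.mem_centralizer_singleton_iff.2 h1.symm)
    (Subgroup.mem_centralizer_singleton_iff.2 h2.symm) hx
  exact (Subgroup.mem_centralizer_singleton_iff.1 h).symm

theorem A_comm {x y : G} (hx : x ∈ L.A) (hy : y ∈ L.A) : x * y = y * x :=
  L.A_cent (L.A_cent rfl L.comm hx).symm (L.A_cent L.comm.symm rfl hx).symm hy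

theorem A_cube {x : G} (hx : x ∈ L.A) : x ^ 3 = 1 := by
  obtain ⟨i, -, j, -, rfl⟩ := mem_closure_pair_three L.x1_3 L.x2_3 L.comm hx
  have C : Commute (L.x1 ^ i) (L.x2 ^ j) := Commute.pow_pow L.comm i j
  rw [C.mul_pow, ← pow_mul, ← pow_mul, mul_comm i, mul_comm j, pow_mul, pow_mul, L.x1_3, L.x2_3, one_pow, one_pow,
    one_mul]

theorem n0_inv {x : G} (hx : x ∈ L.A) : L.n0 * x * L.n0⁻¹ = x⁻¹ := by
  induction hx using Subgroup.closure_induction with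
  | mem x hx =>
    rcases hx with rfl | rfl
    exacts [L.n0_1, L.n0_2]
  | one => rw [mul_one, mul_inv_cancel, inv_one]
  | mul x y hx hy ihx ihy =>
    have e : L.n0 * (x * y) * L.n0⁻¹ = (L.n0 * x * L.n0⁻¹) * (L.n0 * y * L.n0⁻¹) := by group
    rw [e, ihx, ihy, L.A_comm hx hy, mul_inv_rev]
  | inv x _ ih =>
    have e : L.n0 * x⁻¹ * L.n0⁻¹ = (L.n0 * x * L.n0⁻¹)⁻¹ := by group
    rw [e, ih]

theorem ν_fix {x : G} {d : D} (h : x • L.ν d = L.ν d) : x • d = d := by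
  rw [← L.ν_ν d, L.ν_smul, h]

theorem φ_A {x : G} (hx : x ∈ L.A) (d : D) : L.φ (x • d) = L.φ d := by
  rcases L.φ_N x (L.A_le_N hx) with h | h
  · exact h d
  · have h1 := h L.e3
    rw [L.A_e3 hx] at h1
    exact absurd (eq_zero_of_eq_neg3 h1) L.φ_ne

/-- The `A`-fixed points in the orbit of `e3`. -/
theorem transport {n : G} (hn : n ∈ L.N) (hf : ∀ x ∈ L.A, x • n • L.e3 = n • L.e3) :
    ∃ ρ : G, (∀ x ∈ L.A, x * ρ = ρ * x) ∧ ((ρ • L.e3 = n • L.e3 ∧ ∀ d, L.φ (n • d) = L.φ d) ∨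
      (ρ • L.ν L.e3 = n • L.e3 ∧ ∀ d, L.φ (n • d) = -L.φ d)) := by
  have hA : L.A ≤ Subgroup.normalizer (L.R : Set G) := L.A_le_N.trans L.NR
  obtain ⟨ρ, hρ, h | h⟩ := L.hR n hn
  · obtain ⟨τ, -, h1, h2⟩ := exists_cent_transporter L.A_p L.R3 hA (fun _ hb => L.A_e3 hb) hf hρ h.symm
    refine ⟨τ, h2, Or.inl ⟨h1, ?_⟩⟩
    rcases L.φ_N n hn with h3 | h3
    · exact h3
    · have h4 := h3 L.e3
      rw [h, L.φ_R ρ hρ] at h4
      exact absurd (eq_zero_of_eq_neg3 h4) L.φ_ne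
  · rw [← L.ν_smul] at h
    obtain ⟨τ, -, h1, h2⟩ := exists_cent_transporter L.A_p L.R3 hA
      (fun b hb => by rw [L.ν_smul, L.A_e3 hb]) hf hρ h.symm
    refine ⟨τ, h2, Or.inr ⟨h1, ?_⟩⟩
    rcases L.φ_N n hn with h3 | h3
    · have h4 := h3 L.e3
      rw [h, L.φ_R ρ hρ, L.φ_ν] at h4
      exact absurd (eq_zero_of_eq_neg3 h4.symm) L.φ_ne
    · exact h3

/-- Sylow's theorem in the stabiliser of an `A`-fixed point. -/
theorem sylow {e : D} (he : ∀ x ∈ L.A, x • e = e) {n : G} (hn : n ∈ L.N) :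
    ∃ m ∈ L.N, m • e = n • e ∧ ∀ x ∈ L.A, x • n • e = n • e → m⁻¹ * x * m ∈ L.A := by
  let H : Subgroup G := L.N ⊓ MulAction.stabilizer G e
  have hAH : L.A ≤ H := fun x hx => ⟨L.A_le_N hx, he x hx⟩
  let B : Subgroup G := cjS n⁻¹ (L.A ⊓ MulAction.stabilizer G (n • e))
  have hB : IsPGroup 3 B := (L.A_p.to_le inf_le_left).map _
  have hBH : B ≤ H := by
    rintro _ ⟨x, ⟨hx, hxe⟩, rfl⟩
    refine ⟨L.N.mul_mem (L.N.mul_mem (L.N.inv_mem hn) (L.A_le_N hx)) (L.N.inv_mem (L.N.inv_mem hn)), ?_⟩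
    have h1 : x • n • e = n • e := hxe
    show (n⁻¹ * x * n⁻¹⁻¹) • e = e
    rw [inv_inv, mul_smul, mul_smul, h1, inv_smul_smul]
  have hi : ¬ 3 ∣ L.A.relIndex H := by
    have h1 := relIndex_ne_zero_three hAH (k := 2) L.card_A
      (fun h => L.N27 (h.trans (Subgroup.card_dvd_of_le inf_le_left)))
    exact fun h => h1 ((ZMod.natCast_eq_zero_iff _ 3).2 h)
  obtain ⟨m, hm, h1⟩ := exists_conj_into hB hBH hi
  refine ⟨n * m, L.N.mul_mem hn hm.1, ?_, fun x hx hxe => ?_⟩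
  · have h2 : m • e = e := hm.2
    rw [mul_smul, h2]
  · have h2 := h1 _ (conj_mem_cjS n⁻¹ (S := L.A ⊓ MulAction.stabilizer G (n • e)) ⟨hx, hxe⟩)
    have e1 : (n * m)⁻¹ * x * (n * m) = m⁻¹ * (n⁻¹ * x * n⁻¹⁻¹) * m := by group
    rw [e1]
    exact h2

section

variable {γ : G → G → D → ZMod 3} (hγ : Z2 (perm (ZMod 3) G D) ⊤ γ)

include hγ

omit [Finite G] in
theorem cube_cent {g x : G} (h : g * x = x * g) (hx : x ^ 3 = 1) {d : D} (hd : x • d = d) :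
    cube (fun a b => γ a b (g • d)) x = cube (fun a b => γ a b d) x := by
  have h1 := hγ.cube_at_conj rfl (Subgroup.mem_top g) (Subgroup.mem_top x) hx hd
  rwa [h, mul_inv_cancel_right] at h1

omit [Finite G] in
theorem pairing_cent {g x y : G} (h : g * x = x * g) (h' : g * y = y * g) (hxy : x * y = y * x) {d : D}
    (hd : x • d = d) (hd' : y • d = d) :
    pairing (fun a b => γ a b (g • d)) x y = pairing (fun a b => γ a b d) x y := by
  have h1 := hγ.pairing_at_conj (Subgroup.mem_top g) (Subgroup.mem_top x) (Subgroup.mem_top y) hxy hd hd'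
  rwa [h, h', mul_inv_cancel_right, mul_inv_cancel_right] at h1

/-- The cubes vanish at `e3`. -/
theorem cube_e3 {x : G} (hx : x ∈ L.A) : cube (fun a b => γ a b L.e3) x = 0 := by
  have hf : ∀ y ∈ L.A, y • L.n0 • L.e3 = L.n0 • L.e3 := by
    intro y hy
    have h1 := L.n0_inv (L.A.inv_mem hy)
    rw [inv_inv] at h1
    rw [← h1, mul_smul, mul_smul, inv_smul_smul, L.A_e3 (L.A.inv_mem hy)]
  obtain ⟨ρ, h1, ⟨h2, -⟩ | ⟨-, h2⟩⟩ := L.transport L.n0_mem hf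
  · have h3 := hγ.cube_at_conj rfl (Subgroup.mem_top L.n0) (Subgroup.mem_top x) (L.A_cube hx) (L.A_e3 hx)
    have hi := L.A.inv_mem hx
    rw [L.n0_inv hx, ← h2, cube_cent hγ (h1 _ hi).symm (L.A_cube hi) (L.A_e3 hi),
      (hγ.at L.e3).cube_inv rfl ⟨Subgroup.mem_top x, L.A_e3 hx⟩ (L.A_cube hx)] at h3
    exact eq_zero_of_eq_neg3 h3.symm
  · have h3 := h2 L.e3
    rw [L.n0_φ] at h3
    exact absurd (eq_zero_of_eq_neg3 h3) L.φ_ne

/-- The pairings at `e3` and at `ν e3` are opposite. -/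
theorem pairing_ν {n1 : G} {a b c d : ℕ} (hn : n1 ∈ L.N) (h1 : n1 * L.x1 * n1⁻¹ = L.x1 ^ a * L.x2 ^ b)
    (h2 : n1 * L.x2 * n1⁻¹ = L.x1 ^ c * L.x2 ^ d) (hdet : (a : ZMod 3) * d - b * c = -1)
    (hφ : L.φ (n1 • L.e3) = -L.φ L.e3) :
    pairing (fun g h => γ g h (L.ν L.e3)) L.x1 L.x2 = -pairing (fun g h => γ g h L.e3) L.x1 L.x2 := by
  have hz : H863.STT.Nz L.A n1 := by
    apply H863.STT.nz_closure
    rintro t (rfl | rfl)
    · rw [h1]; exact L.A.mul_mem (L.A.pow_mem L.x1_A _) (L.A.pow_mem L.x2_A _)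
    · rw [h2]; exact L.A.mul_mem (L.A.pow_mem L.x1_A _) (L.A.pow_mem L.x2_A _)
  have hf : ∀ y ∈ L.A, y • n1 • L.e3 = n1 • L.e3 := by
    intro y hy
    have h3 : n1⁻¹ * y * n1⁻¹⁻¹ ∈ L.A := H863.STT.Nz.conj (Subgroup.inv_mem _ hz) hy
    have h4 := L.A_e3 h3
    rw [inv_inv, mul_smul, mul_smul, inv_smul_eq_iff] at h4
    exact h4
  obtain ⟨ρ, h3, ⟨-, h4⟩ | ⟨h4, -⟩⟩ := L.transport hn hf
  · rw [h4] at hφ
    exact absurd (eq_zero_of_eq_neg3 hφ) L.φ_ne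
  · have h5 := hγ.pairing_at_conj (Subgroup.mem_top n1) (Subgroup.mem_top L.x1) (Subgroup.mem_top L.x2) L.comm
      L.fix1 L.fix2
    have f1 : L.x1 • L.ν L.e3 = L.ν L.e3 := by rw [L.ν_smul, L.fix1]
    have f2 : L.x2 • L.ν L.e3 = L.ν L.e3 := by rw [L.ν_smul, L.fix2]
    rw [h1, h2, (hγ.at (n1 • L.e3)).pairing_det ⟨Subgroup.mem_top _, hf _ L.x1_A⟩
      ⟨Subgroup.mem_top _, hf _ L.x2_A⟩ L.comm, hdet, ← h4,
      pairing_cent hγ (h3 _ L.x1_A).symm (h3 _ L.x2_A).symm L.comm f1 f2] at h5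
    rw [← h5]
    ring

variable (hodd : ∀ g h d, γ g h (L.ν d) = -γ g h d)

include hodd

omit [Finite G] hγ in
theorem cube_ν (x : G) (d : D) : cube (fun a b => γ a b (L.ν d)) x = -cube (fun a b => γ a b d) x := by
  rw [← cube_neg]
  congr 1
  funext a b
  exact hodd a b d

omit [Finite G] hγ in
theorem pairing_odd (x y : G) (d : D) :
    pairing (fun a b => γ a b (L.ν d)) x y = -pairing (fun a b => γ a b d) x y := by
  rw [← pairing_neg]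
  congr 1
  funext a b
  exact hodd a b d

omit hγ hodd in
theorem negator {p : D} {t : G} (ht : t ∈ L.R) (h : t • p = L.ν p) :
    ∃ τ : G, τ • p = L.ν p ∧ ∀ x ∈ L.A, x • p = p → τ * x = x * τ := by
  obtain ⟨τ, -, h1, h2⟩ := exists_cent_transporter (B := L.A ⊓ MulAction.stabilizer G p)
    (L.A_p.to_le inf_le_left) L.R3 (inf_le_left.trans (L.A_le_N.trans L.NR)) (fun _ hb => hb.2)
    (fun b hb => by
      have h3 : b • p = p := hb.2
      rw [L.ν_smul, h3]) ht h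
  exact ⟨τ, h1, fun x hx hp => (h2 x ⟨hx, hp⟩).symm⟩

omit hodd in
theorem cube_Y {n s : G} (hn : n ∈ L.N) (h1 : s * L.x1 = L.x1 * s) (h2 : s * L.x2 = L.x2 * s) {x : G}
    (hx : x ∈ L.A) (hp : x • n • s • L.e3 = n • s • L.e3) : cube (fun a b => γ a b (n • s • L.e3)) x = 0 := by
  have he : ∀ y ∈ L.A, y • s • L.e3 = s • L.e3 := fun y hy => by
    rw [← mul_smul, ← L.A_cent h1 h2 hy, mul_smul, L.A_e3 hy]
  obtain ⟨m, -, h3, h4⟩ := L.sylow he hn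
  have hy := h4 x hx hp
  have h5 := hγ.cube_at_conj rfl (Subgroup.mem_top m) (Subgroup.mem_top _) (L.A_cube hy) (he _ hy)
  have e : m * (m⁻¹ * x * m) * m⁻¹ = x := by group
  rw [e, h3, cube_cent hγ (L.A_cent h1 h2 hy) (L.A_cube hy) (L.A_e3 hy), L.cube_e3 hγ hy] at h5
  exact h5

/-- All cubes vanish. -/
theorem cube_zero {x : G} (hx : x ∈ L.A) {p : D} (hp : x • p = p) : cube (fun a b => γ a b p) x = 0 := by
  obtain ⟨g, g1, g2, -, hc⟩ := L.cover p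
  have hg := L.A_cent g1 g2 hx
  rw [← cube_cent hγ hg (L.A_cube hx) hp]
  have hp' : x • g • p = g • p := by rw [← mul_smul, ← hg, mul_smul, hp]
  rcases hc with ⟨t, ht, h⟩ | ⟨n, hn, s, h1, h2, -, h | h⟩
  · obtain ⟨τ, h1, h2⟩ := L.negator ht h
    have h3 := cube_cent hγ (h2 x hx hp') (L.A_cube hx) hp'
    rw [h1, L.cube_ν hodd] at h3
    exact eq_zero_of_eq_neg3 h3.symm
  · rw [h] at hp' ⊢
    exact L.cube_Y hγ hn h1 h2 hx hp'
  · rw [h] at hp' ⊢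
    rw [L.cube_ν hodd, L.cube_Y hγ hn h1 h2 hx (L.ν_fix hp'), neg_zero]

theorem pairing_Y {n s : G} (hn : n ∈ L.N) (h1 : s * L.x1 = L.x1 * s) (h2 : s * L.x2 = L.x2 * s)
    (hφ : L.φ (s • L.e3) = L.φ L.e3) (hp : ∀ x ∈ L.A, x • n • s • L.e3 = n • s • L.e3) :
    pairing (fun a b => γ a b (n • s • L.e3)) L.x1 L.x2 * L.φ L.e3 =
      pairing (fun a b => γ a b L.e3) L.x1 L.x2 * L.φ (n • s • L.e3) := by
  have he : ∀ y ∈ L.A, y • s • L.e3 = s • L.e3 := fun y hy => by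
    rw [← mul_smul, ← L.A_cent h1 h2 hy, mul_smul, L.A_e3 hy]
  obtain ⟨m, hm, h3, h4⟩ := L.sylow he hn
  have y1 := h4 _ L.x1_A (hp _ L.x1_A)
  have y2 := h4 _ L.x2_A (hp _ L.x2_A)
  have e : ∀ x : G, m * (m⁻¹ * x * m) * m⁻¹ = x := fun x => by group
  have h5 := hγ.pairing_at_conj (Subgroup.mem_top m) (Subgroup.mem_top _) (Subgroup.mem_top _) (L.A_comm y1 y2)
    (he _ y1) (he _ y2)
  have h6 := hγ.pairing_at_conj (Subgroup.mem_top m) (Subgroup.mem_top _) (Subgroup.mem_top _) (L.A_comm y1 y2)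
    (L.A_e3 y1) (L.A_e3 y2)
  rw [e, e] at h5 h6
  rw [pairing_cent hγ (L.A_cent h1 h2 y1) (L.A_cent h1 h2 y2) (L.A_comm y1 y2) (L.A_e3 y1) (L.A_e3 y2), ← h6] at h5
  have hf : ∀ x ∈ L.A, x • m • L.e3 = m • L.e3 := by
    intro x hx
    have h7 := L.A_e3 (h4 x hx (hp x hx))
    rw [mul_smul, mul_smul, inv_smul_eq_iff] at h7
    exact h7
  rw [← h3, h5]
  obtain ⟨ρ, h7, ⟨h8, h9⟩ | ⟨h8, h9⟩⟩ := L.transport hm hf
  · rw [← h8, pairing_cent hγ (h7 _ L.x1_A).symm (h7 _ L.x2_A).symm L.comm L.fix1 L.fix2, h9, hφ]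
  · have f1 : L.x1 • L.ν L.e3 = L.ν L.e3 := by rw [L.ν_smul, L.fix1]
    have f2 : L.x2 • L.ν L.e3 = L.ν L.e3 := by rw [L.ν_smul, L.fix2]
    rw [← h8, pairing_cent hγ (h7 _ L.x1_A).symm (h7 _ L.x2_A).symm L.comm f1 f2, h9, hφ, L.pairing_odd hodd]
    ring

/-- The pairings are proportional to `φ`. -/
theorem pairing_eq {p : D} (hp : ∀ x ∈ L.A, x • p = p) :
    pairing (fun a b => γ a b p) L.x1 L.x2 * L.φ L.e3 = pairing (fun a b => γ a b L.e3) L.x1 L.x2 * L.φ p := by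
  obtain ⟨g, g1, g2, g3, hc⟩ := L.cover p
  rw [← pairing_cent hγ g1 g2 L.comm (hp _ L.x1_A) (hp _ L.x2_A), ← g3]
  have hp' : ∀ x ∈ L.A, x • g • p = g • p := fun x hx => by
    rw [← mul_smul, ← L.A_cent g1 g2 hx, mul_smul, hp x hx]
  rcases hc with ⟨t, ht, h⟩ | ⟨n, hn, s, h1, h2, h3, h | h⟩
  · obtain ⟨τ, h1, h2⟩ := L.negator ht h
    have h3 := pairing_cent hγ (h2 _ L.x1_A (hp' _ L.x1_A)) (h2 _ L.x2_A (hp' _ L.x2_A)) L.comm
      (hp' _ L.x1_A) (hp' _ L.x2_A)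
    rw [h1, L.pairing_odd hodd] at h3
    have h4 := L.φ_R t ht (g • p)
    rw [h, L.φ_ν] at h4
    rw [eq_zero_of_eq_neg3 h3.symm, eq_zero_of_eq_neg3 h4.symm, zero_mul, mul_zero]
  · rw [h] at hp' ⊢
    exact L.pairing_Y hγ hodd hn h1 h2 h3 hp'
  · rw [h] at hp' ⊢
    rw [L.pairing_odd hodd, L.φ_ν, neg_mul, L.pairing_Y hγ hodd hn h1 h2 h3 (fun x hx => L.ν_fix (hp' x hx)),
      mul_neg]

omit hγ hodd in
theorem sub_A {B : Subgroup G} (hB : B ≤ L.A) : B = L.A ∨ ∃ x ∈ L.A, B = Subgroup.zpowers x := by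
  by_cases h0 : B = ⊥
  · exact Or.inr ⟨1, L.A.one_mem, by rw [h0, Subgroup.zpowers_one_eq_bot]⟩
  obtain ⟨⟨x, hx⟩, hx1⟩ := Subgroup.ne_bot_iff_exists_ne_one.1 h0
  have hx1' : x ≠ 1 := fun h => hx1 (Subtype.ext h)
  have h1 : Nat.card B ∣ 3 ^ 2 := by
    have := Subgroup.card_dvd_of_le hB
    rwa [L.card_A] at this
  have : Fact (Nat.Prime 3) := ⟨Nat.prime_three⟩
  have h2 : Nat.card (Subgroup.zpowers x) = 3 := by
    rw [Nat.card_zpowers]
    exact orderOf_eq_prime (L.A_cube (hB hx)) hx1'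
  have h3 : Subgroup.zpowers x ≤ B := by rw [Subgroup.zpowers_le]; exact hx
  obtain ⟨k, hk, h4⟩ := (Nat.dvd_prime_pow Nat.prime_three).1 h1
  rcases Nat.lt_or_ge k 2 with h5 | h5
  · right
    refine ⟨x, hB hx, (Subgroup.eq_of_le_of_card_ge h3 ?_).symm⟩
    rw [h2, h4]
    interval_cases k <;> norm_num
  · left
    apply Subgroup.eq_of_le_of_card_ge hB
    rw [L.card_A, h4, le_antisymm hk h5]
    norm_num

/-- **The local theorem.** -/
theorem b2 : ∃ a : G → G → ZMod 3, B2 (perm (ZMod 3) G D) L.A (γ - fun g h => a g h • L.φ) := by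
  obtain ⟨θ, hθ, h1, h3⟩ := exists_heis L.x1_3 L.x2_3 L.comm L.x1_ne L.x2_not
  obtain ⟨c, hc⟩ : ∃ c : ZMod 3, c * L.φ L.e3 = pairing (fun a b => γ a b L.e3) L.x1 L.x2 :=
    ⟨_ * (L.φ L.e3)⁻¹, inv_mul_cancel_right₀ L.φ_ne _⟩
  refine ⟨c • θ, ?_⟩
  have hθ' : Z2 (perm (ZMod 3) G D) L.A (fun g h => (c • θ) g h • L.φ) :=
    (hθ.smul c).map (LinearMap.toSpanSingleton (ZMod 3) (D → ZMod 3) L.φ) fun g hg m => by
      funext d
      show m * L.φ d = m * L.φ (g⁻¹ • d)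
      rw [L.φ_A (L.A.inv_mem hg)]
  have hδ := (hγ.mono le_top).sub hθ'
  apply hδ.b2_perm'
  intro p
  have hp := hδ.at p
  have e : (fun g k => (γ - fun g h => (c • θ) g h • L.φ) g k p) = (fun g k => γ g k p) - (c * L.φ p) • θ := by
    funext g k
    show γ g k p - c * θ g k * L.φ p = γ g k p - c * L.φ p * θ g k
    ring
  rw [e] at hp ⊢
  have hcube : ∀ x ∈ L.A, x • p = p → cube ((fun g k => γ g k p) - (c * L.φ p) • θ) x = 0 := by
    intro x hx hxp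
    rw [cube_sub, cube_smul, L.cube_zero hγ hodd hx hxp, h3 x hx, mul_zero, sub_zero]
  rcases L.sub_A (B := L.A ⊓ MulAction.stabilizer G p) inf_le_left with h | ⟨x, hx, h⟩
  · have hf : ∀ x ∈ L.A, x • p = p := fun x hx => by
      rw [← h] at hx
      exact hx.2
    rw [h] at hp ⊢
    refine (hp.b2_iff_pair rfl L.x1_3 L.x2_3 L.comm).2 ⟨?_, hcube _ L.x1_A (hf _ L.x1_A), hcube _ L.x2_A (hf _ L.x2_A)⟩
    rw [pairing_sub, pairing_smul, h1, mul_one, sub_eq_zero]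
    apply mul_right_cancel₀ L.φ_ne
    rw [L.pairing_eq hγ hodd hf, ← hc]
    ring
  · have hf : x • p = p := by
      have h4 : x ∈ L.A ⊓ MulAction.stabilizer G p := by rw [h]; exact Subgroup.mem_zpowers x
      exact h4.2
    rw [h] at hp ⊢
    exact (hp.b2_iff_zpowers rfl (L.A_cube hx)).2 (hcube x hx hf)

end

end Loc

end Cfsg.Agent.B5591
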