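import Cfsg.Agent.B5591.LocDef
import Cfsg.Agent.B5591.LocAbs
import Cfsg.Agent.H863.SFin

/-!
# S5591 from the boxes (box Final)
-/

set_option autoImplicit false

namespace Cfsg.Agent.B5591

open Cfsg.Agent.H863 Cfsg.Agent.H863.SExt

section Compl

variable {F M G : Type*} [Field F] [AddCommGroup M] [Module F M] [Group G] {σ : G →* Module.End F M}
  {E : Type*} [Group E] {X : Ext σ E} {A : Subgroup E}

theorem isLift_of_compl (hA : ∀ x, X.π x = 1 ↔ x ∈ A) {K : Subgroup E} (h : A.IsComplement' K) :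
    IsLift X K ⊤ := by
  refine ⟨fun x hx h1 => Subgroup.disjoint_def.1 h.disjoint ((hA x).1 h1) hx, ?_⟩
  rw [eq_top_iff]
  intro g _
  obtain ⟨x, rfl⟩ := X.surj g
  obtain ⟨⟨a, k⟩, hk⟩ := h.existsUnique x |>.exists
  refine ⟨k, k.2, ?_⟩
  have h1 : (a : E) * k = x := hk
  rw [← h1, map_mul, (hA a).2 a.2, one_mul]

theorem compl_of_isLift (hA : ∀ x, X.π x = 1 ↔ x ∈ A) {K : Subgroup E} (h : IsLift X K ⊤) :
    A.IsComplement' K := by
  refine Subgroup.isComplement'_of_disjoint_and_mul_eq_univ ?_ ?_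
  · rw [Subgroup.disjoint_def]
    intro x hx hk
    exact h.1 x hk ((hA x).2 hx)
  · rw [Set.eq_univ_iff_forall]
    intro x
    obtain ⟨s, hs, e⟩ := h.exists (Subgroup.mem_top (X.π x))
    refine Set.mem_mul.2 ⟨x * s⁻¹, ?_, s, hs, inv_mul_cancel_right _ _⟩
    show _ ∈ A
    rw [← hA, map_mul, map_inv, e, mul_inv_cancel]

/-- The kernel of an extension as a module. -/
theorem exists_ker_equiv (X : Ext σ E) : ∃ ψ : Additive X.π.ker ≃+ M, ∀ a : X.π.ker, X.j (ψ (Additive.ofMul a)) = a := by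
  let f : M →+ Additive X.π.ker :=
    AddMonoidHom.mk' (fun v => Additive.ofMul ⟨X.j v, X.π_j v⟩) fun a b => by
      apply Additive.toMul.injective
      exact Subtype.ext (X.j_add a b)
  have hf : Function.Bijective f := by
    constructor
    · intro a b h
      exact X.j_inj (congrArg (fun x : Additive X.π.ker => (x.toMul : E)) h)
    · intro a
      obtain ⟨v, hv⟩ := X.ker _ a.toMul.2
      exact ⟨v, Additive.toMul.injective (Subtype.ext hv.symm)⟩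
  refine ⟨(AddEquiv.ofBijective f hf).symm, fun a => ?_⟩
  have h := (AddEquiv.ofBijective f hf).apply_symm_apply (Additive.ofMul a)
  exact congrArg (fun x : Additive X.π.ker => (x.toMul : E)) h

end Compl

namespace Geo

open Cfsg.Agent.Monster.VecEngine Cfsg.Agent.BabyM.Conc Cfsg.Agent.H863.BRep

/-- The data of `BoxR`. -/
structure RData where
  R : Subgroup G
  h3 : ¬ 3 ∣ Nat.card R
  nrm : NN ≤ Subgroup.normalizer (R : Set G)
  le : R0 ≤ R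
  fix : ∀ g ∈ R, σV g wV = wV
  dim : ∀ v : V3, (∀ g ∈ R, σV g v = v) → ∃ c : F3, v = c • wV

theorem rdata (h : BoxR) : Nonempty RData := by
  obtain ⟨R, h1, -, h3, h4, h5, h6, h7⟩ := h
  refine ⟨⟨R, h1, h3, ?_, h6, h7⟩⟩
  unfold R0
  rw [Subgroup.closure_le]
  rintro g (hg | ⟨l, hl, rfl⟩)
  exacts [h4 hg, h5 l hl]

theorem wV_ne : wV ≠ 0 := by
  intro h
  apply phi_d0
  show iota wV d0 = 0
  rw [h, map_zero, Pi.zero_apply]

theorem RData.sign (P : RData) {n : G} (hn : n ∈ NN) : σV n wV = wV ∨ σV n wV = -wV := by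
  obtain ⟨c, hc⟩ := P.dim (σV n wV) fun g hg => by
    have h1 : n⁻¹ * g * n⁻¹⁻¹ ∈ P.R := (Subgroup.mem_normalizer_iff.1 (P.nrm (NN.inv_mem hn)) g).1 hg
    have h2 := P.fix _ h1
    rw [inv_inv, act_mul, act_mul] at h2
    have h3 := congrArg (σV n) h2
    rwa [act_act_inv] at h3
  have h0 : c = 0 ∨ c = 1 ∨ c = -1 := by
    generalize c = a
    revert a
    decide
  rcases h0 with rfl | rfl | rfl
  · exfalso
    rw [zero_smul] at hc
    exact wV_ne (act_inj n (hc.trans (map_zero _).symm))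
  · left; rw [hc, one_smul]
  · right; rw [hc, neg_smul, one_smul]

variable {u v : G} (Ld : LocData u v)

theorem LocData.u_eq : u = Ld.k⁻¹ * Ld.x1 * Ld.k := by rw [← Ld.k_u]; group

theorem LocData.v_eq : v = Ld.k⁻¹ * Ld.x2 * Ld.k := by rw [← Ld.k_v]; group

theorem LocData.fix_of {x : G} (h : x • Ld.e3 = Ld.e3) : Ld.k⁻¹ * x * Ld.k ∈ MulAction.stabilizer G dS := by
  show (Ld.k⁻¹ * x * Ld.k) • dS = dS
  rw [mul_smul, mul_smul, inv_smul_eq_iff]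
  rcases Ld.k_e with h1 | h1
  · rw [h1, h]
  · rw [h1, smul_neg', h]

include Ld in
theorem LocData.u_mem : u ∈ MulAction.stabilizer G dS := by
  have h := Ld.fix_of Ld.fix1
  rwa [← Ld.u_eq] at h

include Ld in
theorem LocData.v_mem : v ∈ MulAction.stabilizer G dS := by
  have h := Ld.fix_of Ld.fix2
  rwa [← Ld.v_eq] at h

include Ld in
theorem LocData.uv : u * v = v * u := by
  have h : Ld.k⁻¹ * Ld.x1 * Ld.k * (Ld.k⁻¹ * Ld.x2 * Ld.k) = Ld.k⁻¹ * Ld.x2 * Ld.k * (Ld.k⁻¹ * Ld.x1 * Ld.k) :=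
    calc Ld.k⁻¹ * Ld.x1 * Ld.k * (Ld.k⁻¹ * Ld.x2 * Ld.k) = Ld.k⁻¹ * (Ld.x1 * Ld.x2) * Ld.k := by group
      _ = Ld.k⁻¹ * (Ld.x2 * Ld.x1) * Ld.k := by rw [Ld.comm]
      _ = _ := by group
  rwa [← Ld.u_eq, ← Ld.v_eq] at h

theorem LocData.indep (hA : BoxA0 u v) : Ld.x1 ≠ 1 ∧ Ld.x2 ∉ Subgroup.zpowers Ld.x1 := by
  obtain ⟨a, ha, h1⟩ := hA
  have h0 : (0 : F3) ≠ 1 := by decide
  constructor
  · intro h
    have h2 : u = 1 := Ld.u_eq.trans (by rw [h]; group)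
    rw [h2, ha.pairing_one_left Ld.v_mem] at h1
    exact h0 h1
  · intro h
    rcases mem_zpowers_three Ld.x1_3 h with h2 | h2 | h2
    · have h3 : v = 1 := Ld.v_eq.trans (by rw [h2]; group)
      rw [h3, ha.pairing_one_right Ld.u_mem] at h1
      exact h0 h1
    · have h3 : v = u := Ld.v_eq.trans (by rw [h2, ← Ld.u_eq])
      rw [h3, pairing_self] at h1
      exact h0 h1
    · have h3 : v = u * u := by
        have h4 : Ld.k⁻¹ * Ld.x2 * Ld.k = Ld.k⁻¹ * Ld.x1 * Ld.k * (Ld.k⁻¹ * Ld.x1 * Ld.k) := by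
          rw [h2]
          group
        rwa [← Ld.u_eq, ← Ld.v_eq] at h4
      rw [h3, ha.pairing_mul_right Ld.u_mem Ld.u_mem Ld.u_mem rfl rfl, pairing_self, add_zero] at h1
      exact h0 h1

/-- The abstract data. -/
noncomputable def LocData.loc (hS : BoxSyl) (P : RData) (hA : BoxA0 u v) : Loc G Ax where
  ν := neg
  φ := phi
  N := NN
  R := P.R
  x1 := Ld.x1
  x2 := Ld.x2
  e3 := Ld.e3
  n0 := Ld.n0
  ν_smul := smul_neg'
  ν_ν := neg_neg'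
  φ_ν := phi_neg
  N27 := hS.2
  R3 := P.h3
  NR := P.nrm
  φ_R ρ hρ := phi_smul_of_fix (P.fix ρ hρ)
  φ_N n hn := (P.sign hn).imp phi_smul_of_fix phi_smul_of_neg
  x1_3 := Ld.x1_3
  x2_3 := Ld.x2_3
  comm := Ld.comm
  x1_ne := (Ld.indep hA).1
  x2_not := (Ld.indep hA).2
  x1_mem := Ld.x1_mem
  x2_mem := Ld.x2_mem
  fix1 := Ld.fix1
  fix2 := Ld.fix2
  φ_ne := Ld.phi_ne
  hR n hn := by
    obtain ⟨ρ, hρ, h⟩ := Ld.hR n hn
    exact ⟨ρ, P.le hρ, h⟩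
  n0_mem := Ld.n0_mem
  n0_1 := Ld.n0_1
  n0_2 := Ld.n0_2
  n0_φ := Ld.n0_phi
  cover p := by
    obtain ⟨g, h1, h2, h3, h4⟩ := Ld.cover p
    refine ⟨g, h1, h2, h3, h4.imp ?_ id⟩
    rintro ⟨t, ht, h⟩
    exact ⟨t, P.le ht, h⟩

section

variable (hS : BoxSyl) (P : RData) (hA : BoxA0 u v) (hLG : BoxLG)

include hLG in
/-- From the Sylow subgroup to the whole group. -/
theorem b2_top {M : Type} [AddCommGroup M] [Module F3 M] {σ : G →* Module.End F3 M} (h0 : Fx σ KO)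
    {γ : G → G → M} (hγ : Z2 σ ⊤ γ) (hb : B2 σ (Ld.loc hS P hA).A γ) : B2 σ ⊤ γ := by
  have hle : (Ld.loc hS P hA).A ≤ NN := (Ld.loc hS P hA).A_le_N
  have h1 : B2 σ NN γ := (hγ.mono le_top).gaschuetz hle
    (relIndex_ne_zero_three hle (k := 2) (Ld.loc hS P hA).card_A hS.2) hb
  exact (isCoc_tw hγ).spl_iff.1 (hLG (twExt hγ) h0 ((isCoc_tw hγ).spl_iff.2 (h1.mono hS.1)))

/-- The invariant of a cocycle with values in the functions. -/
noncomputable def LocData.ψ (γ : G → G → Ax → F3) : F3 := pairing (fun g h => γ g h Ld.e3) Ld.x1 Ld.x2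

theorem LocData.ψ_b2 {γ : G → G → Ax → F3} (h : B2 σW ⊤ γ) : Ld.ψ γ = 0 :=
  (h.at Ld.e3).pairing_eq_zero ⟨Subgroup.mem_top _, Ld.fix1⟩ ⟨Subgroup.mem_top _, Ld.fix2⟩ Ld.comm

include hS P hA in
/-- An odd cocycle with non-zero invariant. -/
theorem exists_odd : ∃ γ : G → G → Ax → F3, Z2 σW ⊤ γ ∧ (∀ g h d, γ g h (neg d) = -γ g h d) ∧ Ld.ψ γ ≠ 0 := by
  obtain ⟨a, ha, h1⟩ := id hA
  have htr : ∀ d : Ax, ∃ g : G, g • dS = d := fun d => by
    obtain ⟨g, rfl⟩ := trans d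
    exact ⟨g * (gE .y1)⁻¹, by rw [mul_smul, dS, inv_smul_smul]⟩
  obtain ⟨γ, hγ, -, h2, -⟩ := exists_shapiro (F := F3) rfl dS htr rfl ha.subtype
  have h3 := h2 Ld.k ⟨u, Ld.u_mem⟩ ⟨v, Ld.v_mem⟩ (Subtype.ext Ld.uv)
  have h4 : pairing (fun g h => γ g h (Ld.k • dS)) Ld.x1 Ld.x2 = 1 := by
    rw [← Ld.k_u, ← Ld.k_v]
    exact h3.trans h1
  have h5 : pairing (fun g h => γ g h (neg Ld.e3)) Ld.x1 Ld.x2 = -pairing (fun g h => γ g h Ld.e3) Ld.x1 Ld.x2 :=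
    (Ld.loc hS P hA).pairing_ν hγ Ld.n1_mem Ld.n1_1 Ld.n1_2 Ld.n1_det Ld.n1_phi
  refine ⟨fun g h => od (γ g h), hγ.map od fun g _ f => od_equiv g f, fun g h d => od_neg _ d, ?_⟩
  have h6 : Ld.ψ (fun g h => od (γ g h)) =
      pairing (fun g h => γ g h Ld.e3) Ld.x1 Ld.x2 - pairing (fun g h => γ g h (neg Ld.e3)) Ld.x1 Ld.x2 :=
    pairing_sub (fun g h => γ g h Ld.e3) (fun g h => γ g h (neg Ld.e3)) Ld.x1 Ld.x2
  rw [h6]
  rcases Ld.k_e with h7 | h7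
  · rw [h7] at h4
    rw [h5, h4]
    decide
  · rw [h7] at h4
    rw [h4, eq_comm, neg_eq_iff_eq_neg] at h5
    rw [h5, h4]
    decide

include Ld hS P hA hLG in
/-- **Existence.** -/
theorem exists_nonsplit (hN : BoxNeg) (hK : BoxKS) : ∃ β : G → G → V3, Z2 σV ⊤ β ∧ ¬ B2 σV ⊤ β := by
  obtain ⟨γ, hγ, hodd, hψ⟩ := exists_odd Ld hS P hA
  obtain ⟨a, ha⟩ := (Ld.loc hS P hA).b2 hγ hodd
  have h1 : B2 σM (Ld.loc hS P hA).A (fun g k => J.mkQ (γ g k)) := by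
    refine (B2.mkQ (hJ := J_inv) ha).congr fun g _ k _ => ?_
    show J.mkQ (γ g k) = J.mkQ (γ g k - a g k • phi)
    have h0 : J.mkQ (a g k • phi) = 0 := (Submodule.Quotient.mk_eq_zero J).2 (J.smul_mem _ (iota_mem wV))
    rw [map_sub, h0, sub_zero]
  have h2 := b2_top Ld hS P hA hLG (fx_M hN hK) hγ.mkQ h1
  obtain ⟨γ', h3, h4, h5⟩ := hγ.exists_mem h2
  have h6 : Z2 σW ⊤ (fun g h => od (γ' g h)) := h3.map od fun g _ f => od_equiv g f
  obtain ⟨β, hβ, h7⟩ := h6.exists_preimage iota iota_injective (fun g _ w => iota_equiv g w)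
    (fun g hg k hk => od_mem (h4 g hg k hk))
  refine ⟨β, hβ, fun hb => hψ (Ld.ψ_b2 ?_)⟩
  have h8 : B2 σW ⊤ (fun g h => iota (β g h)) := hb.map iota fun g _ w => iota_equiv g w
  have h9 : B2 σW ⊤ (fun g h => od ((γ - γ') g h)) := h5.map od fun g _ f => od_equiv g f
  refine (h8.add h9).neg.congr fun g hg k hk => ?_
  show γ g k = -(iota (β g k) + od (γ g k - γ' g k))
  rw [h7 g hg k hk, map_sub, od_of_odd (hodd g k)]
  abel

include hS P hA hLG in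
/-- The invariant detects the splitting. -/
theorem b2_of_ψ (hN : BoxNeg) {β : G → G → V3} (hβ : Z2 σV ⊤ β) (h : Ld.ψ (fun g k => iota (β g k)) = 0) :
    B2 σV ⊤ β := by
  have hR : (Nat.card P.R : F3) ≠ 0 := fun h0 => P.h3 ((ZMod.natCast_eq_zero_iff _ 3).1 h0)
  obtain ⟨S, hS'⟩ := spl_of_card (twExt hβ) hR
  obtain ⟨t, δ, h1, -, h2⟩ := hS'.exists_coc_fixed (h1_of_card hR)
  have h3 : B2 σV ⊤ (β - δ) := (isCoc_tw hβ).b2_sub h1
  have hδ := h1.z2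
  refine h3.of_sub (b2_top Ld hS P hA hLG (fx_V hN) hδ ?_)
  let L := Ld.loc hS P hA
  have hle : L.A ≤ Subgroup.normalizer (P.R : Set G) := L.A_le_N.trans P.nrm
  have key : ∀ w : V3, (∀ g ∈ P.R, σV g w = w) → iota w Ld.e3 = 0 → w = 0 := by
    intro w hw h0
    obtain ⟨c, rfl⟩ := P.dim w hw
    rw [map_smul, Pi.smul_apply, smul_eq_mul] at h0
    rw [(mul_eq_zero.1 h0).resolve_right Ld.phi_ne, zero_smul]
  have hι : Z2 σW ⊤ (fun g k => iota (δ g k)) := hδ.map iota fun g _ w => iota_equiv g w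
  have hc : ∀ x ∈ L.A, δ 1 1 + δ x x + δ (x * x) x = 0 := by
    intro x hx
    apply key
    · intro g hg
      rw [map_add, map_add, h2 _ (hle L.A.one_mem) _ (hle L.A.one_mem) g hg, h2 _ (hle hx) _ (hle hx) g hg,
        h2 _ (hle (L.A.mul_mem hx hx)) _ (hle hx) g hg]
    · rw [map_add, map_add]
      exact L.cube_e3 hι hx
  refine (hδ.mono le_top).b2_pair Ld.x1_3 Ld.x2_3 Ld.comm ?_ (hc _ L.x1_A) (hc _ L.x2_A)
  rw [← sub_eq_zero]
  apply key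
  · intro g hg
    rw [map_sub, h2 _ (hle L.x1_A) _ (hle L.x2_A) g hg, h2 _ (hle L.x2_A) _ (hle L.x1_A) g hg]
  · have h4 : B2 σW ⊤ (fun g k => iota ((β - δ) g k)) := h3.map iota fun g _ w => iota_equiv g w
    have h5 := Ld.ψ_b2 h4
    have h6 : Ld.ψ (fun g k => iota ((β - δ) g k)) =
        Ld.ψ (fun g k => iota (β g k)) - Ld.ψ (fun g k => iota (δ g k)) := by
      unfold LocData.ψ
      rw [← pairing_sub]
      congr 1
      funext g k
      show iota (β g k - δ g k) Ld.e3 = _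
      rw [map_sub]
      rfl
    rw [h6, h, zero_sub, neg_eq_zero] at h5
    rw [map_sub]
    exact h5

include Ld hS P hA hLG in
/-- **Uniqueness.** -/
theorem unique_class (hN : BoxNeg) {β β' : G → G → V3} (hβ : Z2 σV ⊤ β) (hβ' : Z2 σV ⊤ β') (h : ¬ B2 σV ⊤ β)
    (h' : ¬ B2 σV ⊤ β') : B2 σV ⊤ (β - β') ∨ B2 σV ⊤ (β + β') := by
  have h1 : Ld.ψ (fun g k => iota (β g k)) ≠ 0 := fun h0 => h (b2_of_ψ Ld hS P hA hLG hN hβ h0)
  have h2 : Ld.ψ (fun g k => iota (β' g k)) ≠ 0 := fun h0 => h' (b2_of_ψ Ld hS P hA hLG hN hβ' h0)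
  have h3 : Ld.ψ (fun g k => iota ((β - β') g k)) =
      Ld.ψ (fun g k => iota (β g k)) - Ld.ψ (fun g k => iota (β' g k)) := by
    unfold LocData.ψ
    rw [← pairing_sub]
    congr 1
    funext g k
    show iota (β g k - β' g k) Ld.e3 = _
    rw [map_sub]
    rfl
  have h4 : Ld.ψ (fun g k => iota ((β + β') g k)) =
      Ld.ψ (fun g k => iota (β g k)) + Ld.ψ (fun g k => iota (β' g k)) := by
    unfold LocData.ψ
    rw [← pairing_add]
    congr 1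
    funext g k
    show iota (β g k + β' g k) Ld.e3 = _
    rw [map_add]
    rfl
  have h5 : ∀ a b : F3, a ≠ 0 → b ≠ 0 → a - b = 0 ∨ a + b = 0 := by decide
  rcases h5 _ _ h1 h2 with h6 | h6
  · exact Or.inl (b2_of_ψ Ld hS P hA hLG hN (hβ.sub hβ') (h3.trans h6))
  · exact Or.inr (b2_of_ψ Ld hS P hA hLG hN (hβ.add hβ') (h4.trans h6))

end

/-- **S5591 from the two cohomological statements.** -/
theorem final_of (hex : ∃ β : G → G → V3, Z2 σV ⊤ β ∧ ¬ B2 σV ⊤ β)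
    (hun : ∀ β β' : G → G → V3, Z2 σV ⊤ β → Z2 σV ⊤ β' → ¬ B2 σV ⊤ β → ¬ B2 σV ⊤ β' →
      B2 σV ⊤ (β - β') ∨ B2 σV ⊤ (β + β'))
    (ρ : Cfsg.Spor.BabyMonster →* GL (Fin 4371) (ZMod 3)) (hρ : Function.Injective ρ) :
    (∃ (E : Type) (_ : Group E) (A : Subgroup E) (_ : A.Normal) (e : E ⧸ A ≃* Cfsg.Spor.BabyMonster) (φ : Additive ↥A ≃+ (Fin 4371 → ZMod 3)),
      (∀ (g : E) (a b : ↥A), (b : E) = g * a * g⁻¹ → φ (Additive.ofMul b) =
        (ρ (e (QuotientGroup.mk g)) : Matrix (Fin 4371) (Fin 4371) (ZMod 3)).mulVec (φ (Additive.ofMul a))) ∧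
      ∀ K : Subgroup E, ¬ A.IsComplement' K) ∧
    ∀ (E : Type*) [Group E] (A : Subgroup E) [A.Normal] (e : E ⧸ A ≃* Cfsg.Spor.BabyMonster) (φ : Additive ↥A ≃+ (Fin 4371 → ZMod 3)),
      (∀ (g : E) (a b : ↥A), (b : E) = g * a * g⁻¹ → φ (Additive.ofMul b) =
        (ρ (e (QuotientGroup.mk g)) : Matrix (Fin 4371) (Fin 4371) (ZMod 3)).mulVec (φ (Additive.ofMul a))) →
      (∀ K : Subgroup E, ¬ A.IsComplement' K) →
      ∀ (E' : Type*) [Group E'] (A' : Subgroup E') [A'.Normal] (e' : E' ⧸ A' ≃* Cfsg.Spor.BabyMonster) (φ' : Additive ↥A' ≃+ (Fin 4371 → ZMod 3)),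
        (∀ (g : E') (a b : ↥A'), (b : E') = g * a * g⁻¹ → φ' (Additive.ofMul b) =
          (ρ (e' (QuotientGroup.mk g)) : Matrix (Fin 4371) (Fin 4371) (ZMod 3)).mulVec (φ' (Additive.ofMul a))) →
        (∀ K : Subgroup E', ¬ A'.IsComplement' K) → Nonempty (E ≃* E') := by
  obtain ⟨e₀, he₀⟩ := BGL.equiv (Fintype.card_fin 4371) two_ne hρ
  constructor
  · obtain ⟨β, hβ, hn⟩ := hex
    obtain ⟨ψ, hψ⟩ := exists_ker_equiv (twExt hβ)
    refine ⟨Tw σV β hβ, inferInstance, (twExt hβ).π.ker, inferInstance,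
      (QuotientGroup.quotientKerEquivOfSurjective _ (twExt hβ).surj).trans BGL.iso.symm,
      ψ.trans e₀.toAddEquiv, ?_, ?_⟩
    · intro g a b hab
      show e₀ (ψ (Additive.ofMul b)) =
        (ρ (BGL.iso.symm ((twExt hβ).π g)) : Matrix (Fin 4371) (Fin 4371) (ZMod 3)).mulVec (e₀ (ψ (Additive.ofMul a)))
      rw [he₀, MulEquiv.apply_symm_apply]
      congr 1
      apply (twExt hβ).j_inj
      rw [hψ, hab, ← hψ a, (twExt hβ).conj, mul_inv_cancel_right]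
    · intro K hK
      exact hn ((isCoc_tw hβ).spl_iff.1 ⟨K, isLift_of_compl (fun _ => Iff.rfl) hK⟩)
  · intro E _ A _ e φ hφ hc E' _ A' _ e' φ' hφ' hc'
    obtain ⟨X, hX⟩ := SFin.exists_ext two_ne e₀ he₀ A e φ hφ
    obtain ⟨X', hX'⟩ := SFin.exists_ext two_ne e₀ he₀ A' e' φ' hφ'
    obtain ⟨t, γ, h⟩ := exists_coc X
    obtain ⟨t', γ', h'⟩ := exists_coc X'
    have n1 : ¬ B2 σV ⊤ γ := fun hb => by
      obtain ⟨S, hS⟩ := h.spl_iff.2 hb
      exact hc S (compl_of_isLift (fun x => by rw [hX]; exact SFin.pi_eq_one A e x) hS)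
    have n2 : ¬ B2 σV ⊤ γ' := fun hb => by
      obtain ⟨S, hS⟩ := h'.spl_iff.2 hb
      exact hc' S (compl_of_isLift (fun x => by rw [hX']; exact SFin.pi_eq_one A' e' x) hS)
    rcases hun γ γ' h.z2 h'.z2 n1 n2 with hb | hb
    · exact iso_of_B2 h h' hb
    · exact iso_of_B2_add h h' hb

/-- **S5591 from the boxes.** -/
theorem final (hN : BoxNeg) (hK : BoxKS) (hS : BoxSyl) (hR : BoxR) (hLG : BoxLG) {u v : G} (hA : BoxA0 u v)
    (hL : Nonempty (LocData u v))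
    (ρ : Cfsg.Spor.BabyMonster →* GL (Fin 4371) (ZMod 3)) (hρ : Function.Injective ρ) :
    (∃ (E : Type) (_ : Group E) (A : Subgroup E) (_ : A.Normal) (e : E ⧸ A ≃* Cfsg.Spor.BabyMonster) (φ : Additive ↥A ≃+ (Fin 4371 → ZMod 3)),
      (∀ (g : E) (a b : ↥A), (b : E) = g * a * g⁻¹ → φ (Additive.ofMul b) =
        (ρ (e (QuotientGroup.mk g)) : Matrix (Fin 4371) (Fin 4371) (ZMod 3)).mulVec (φ (Additive.ofMul a))) ∧
      ∀ K : Subgroup E, ¬ A.IsComplement' K) ∧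
    ∀ (E : Type*) [Group E] (A : Subgroup E) [A.Normal] (e : E ⧸ A ≃* Cfsg.Spor.BabyMonster) (φ : Additive ↥A ≃+ (Fin 4371 → ZMod 3)),
      (∀ (g : E) (a b : ↥A), (b : E) = g * a * g⁻¹ → φ (Additive.ofMul b) =
        (ρ (e (QuotientGroup.mk g)) : Matrix (Fin 4371) (Fin 4371) (ZMod 3)).mulVec (φ (Additive.ofMul a))) →
      (∀ K : Subgroup E, ¬ A.IsComplement' K) →
      ∀ (E' : Type*) [Group E'] (A' : Subgroup E') [A'.Normal] (e' : E' ⧸ A' ≃* Cfsg.Spor.BabyMonster) (φ' : Additive ↥A' ≃+ (Fin 4371 → ZMod 3)),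
        (∀ (g : E') (a b : ↥A'), (b : E') = g * a * g⁻¹ → φ' (Additive.ofMul b) =
          (ρ (e' (QuotientGroup.mk g)) : Matrix (Fin 4371) (Fin 4371) (ZMod 3)).mulVec (φ' (Additive.ofMul a))) →
        (∀ K : Subgroup E', ¬ A'.IsComplement' K) → Nonempty (E ≃* E') := by
  obtain ⟨P⟩ := rdata hR
  obtain ⟨Ld⟩ := hL
  exact final_of (exists_nonsplit Ld hS P hA hLG hN hK)
    (fun _ _ h1 h2 h3 h4 => unique_class Ld hS P hA hLG hN h1 h2 h3 h4) ρ hρ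

end Geo

end Cfsg.Agent.B5591
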