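import Cfsg.Agent.B5591.SylBox

/-!
# S5591: the action of `NN` on the classes of the points, and lifts of permutations
-/

set_option autoImplicit false

namespace Cfsg.Agent.B5591.Geo

open Cfsg Cfsg.Agent.SporadicA Cfsg.Agent.SporadicA.M24Gens
open Cfsg.Agent.Monster Cfsg.Agent.Monster.PauliBasic Cfsg.Agent.Monster.PauliClif Cfsg.Agent.Monster.PauliBits
open Cfsg.Agent.BabyM.Conc Cfsg.Agent.BabyM Cfsg.Agent.H863 Cfsg.Agent.H863.BRep Cfsg.Agent.H863.BCode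
open Cfsg.Agent.BabyM.KTab
open Cfsg.Agent.BabyM.NbAct (pPerm hPerm pPerm_tab hPerm_tab)

/-! ### Conjugation of classes -/

theorem ab_self (a : B 11 × B 11) : a + a = 0 := Prod.ext (add_self _) (add_self _)

theorem ab_inv_mul {p : Pauli 11} {x x' : ℕ} (hp : ab p = ab (dec 11 (x ^^^ x'))) :
    ab ((dec 11 x)⁻¹ * p) = ab (dec 11 x') := by
  rw [ab_mul, hp, BCode.ab_dec_xor]
  show ab (dec 11 x) + _ = _
  rw [← add_assoc, ab_self, zero_add]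

theorem ab_z (p : Pauli 11) : ab (p * Pauli.z 11) = ab p := by
  rw [Pauli.mul_z]
  rfl

theorem cj_xor {g : G} {x y x' y' : ℕ} (h : Cj g.1 x y) (h' : Cj g.1 x' y') : Cj g.1 (x ^^^ x') (y ^^^ y') := by
  intro p hp
  obtain ⟨q1, h1, h2⟩ := h (dec 11 x) rfl
  obtain ⟨q2, h3, h4⟩ := h' _ (ab_inv_mul hp)
  refine ⟨q1 * q2, ?_, by rw [ab_mul, h2, h4, BCode.ab_dec_xor]⟩
  calc g.1 * Cd.R p = g.1 * Cd.R (dec 11 x) * Cd.R ((dec 11 x)⁻¹ * p) := by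
        rw [mul_assoc, ← map_mul, mul_inv_cancel_left]
    _ = Cd.R (q1 * q2) * g.1 := by rw [h1, mul_assoc, h3, map_mul, mul_assoc]

theorem cj_uniq {g : G} {x y y' : ℕ} (h : Cj g.1 x y) (h' : Cj g.1 x y') (hy : y < 2 ^ 22) (hy' : y' < 2 ^ 22) :
    y = y' := by
  obtain ⟨q1, h1, h2⟩ := h (dec 11 x) rfl
  obtain ⟨q2, h3, h4⟩ := h' (dec 11 x) rfl
  have h5 : q1 = q2 := Cd.R_injective (mul_right_cancel (h1.symm.trans h3))
  exact eq_of_ab_dec hy hy' (by rw [← h2, ← h4, h5])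

theorem cj_mk {g : G} (hg : g ∈ CC) {x y : ℕ} {p0 q0 : Pauli 11} (hp : ab p0 = ab (dec 11 x))
    (hq : ab q0 = ab (dec 11 y)) (h : g * r p0 = r q0 * g) : Cj g.1 x y := by
  intro p hp'
  rcases BGrp.eq_or_of_ab (hp'.trans hp.symm) with rfl | rfl
  · exact ⟨q0, congrArg Subtype.val h, hq⟩
  · refine ⟨q0 * Pauli.z 11, ?_, (ab_z _).trans hq⟩
    have h1 : g * r (p0 * Pauli.z 11) = r (q0 * Pauli.z 11) * g := by
      rw [map_mul, map_mul, ← BGrp.gE_z, ← mul_assoc, h, mul_assoc, BGrp.z_comm hg, mul_assoc]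
    exact congrArg Subtype.val h1

theorem cj_ex {g : G} {x y : ℕ} (h : Cj g.1 x y) : ∃ w, ab w = ab (dec 11 y) ∧ g * q x = r w * g := by
  obtain ⟨w, h1, h2⟩ := h (dec 11 x) rfl
  exact ⟨w, h2, Subtype.ext h1⟩

theorem cj_inv {g : G} (hg : g ∈ CC) {x y : ℕ} (h : Cj g.1 x y) : Cj (g⁻¹).1 y x := by
  obtain ⟨w, h1, h2⟩ := cj_ex h
  refine cj_mk (inv_mem hg) h1 rfl ?_
  calc g⁻¹ * r w = g⁻¹ * (r w * g) * g⁻¹ := by group
    _ = q x * g⁻¹ := by rw [← h2]; group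

theorem cj_mul {g h : G} {x y w : ℕ} (h1 : Cj g.1 x y) (h2 : Cj h.1 y w) : Cj (h * g).1 x w := h1.comp h2

theorem cj_of_comm {g : G} (hg : g ∈ CC) {c : ℕ} (h : g * q c = q c * g) : Cj g.1 c c := cj_mk hg rfl rfl h

theorem cj_Q {g : G} (hg : g ∈ QQ) (c : ℕ) : Cj g.1 c c := by
  obtain ⟨w, rfl⟩ := hg
  refine cj_mk (r_mem w) rfl (q0 := w * dec 11 c * w⁻¹) ?_ ?_
  · rw [Pauli.conj_eq]
    rfl
  · rw [← map_mul, ← map_mul, inv_mul_cancel_right]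

theorem xor_xor (y : ℕ) : y ^^^ 0x400 ^^^ 0x400 = y := by rw [Nat.xor_assoc, Nat.xor_self, Nat.xor_zero]

/-- Conjugation of classes modulo the line. -/
def Ac (g : G) (x y : ℕ) : Prop := Cj g.1 x y ∨ Cj g.1 x (y ^^^ 0x400)

theorem Ac.xor {g : G} {x y x' y' : ℕ} (h : Ac g x y) (h' : Ac g x' y') : Ac g (x ^^^ x') (y ^^^ y') := by
  have e1 : (y ^^^ 0x400) ^^^ y' = (y ^^^ y') ^^^ 0x400 := by
    rw [Nat.xor_assoc, Nat.xor_comm 0x400, ← Nat.xor_assoc]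
  have e2 : (y ^^^ 0x400) ^^^ (y' ^^^ 0x400) = y ^^^ y' := by
    rw [← Nat.xor_assoc, e1, xor_xor]
  rcases h with h | h <;> rcases h' with h' | h'
  · exact Or.inl (cj_xor h h')
  · exact Or.inr (Nat.xor_assoc _ _ _ ▸ cj_xor h h')
  · exact Or.inr (e1 ▸ cj_xor h h')
  · exact Or.inl (e2 ▸ cj_xor h h')

theorem Ac.comp {g h : G} {x y w : ℕ} (h1 : Ac g x y) (h2 : Ac h y w) (hp : Cj h.1 0x400 0x400) :
    Ac (h * g) x w := by
  rcases h1 with h1 | h1 <;> rcases h2 with h2 | h2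
  · exact Or.inl (cj_mul h1 h2)
  · exact Or.inr (cj_mul h1 h2)
  · exact Or.inr (cj_mul h1 (cj_xor h2 hp))
  · exact Or.inl (xor_xor w ▸ cj_mul h1 (cj_xor h2 hp))

theorem Ac.uniq {g : G} {x y y' : ℕ} (h : Ac g x y) (h' : Ac g x y') (hy : y < 2 ^ 10) (hy' : y' < 2 ^ 10) :
    y = y' := by
  have l1 : ∀ {a : ℕ}, a < 2 ^ 10 → a < 2 ^ 22 := fun h => lt_trans h (by norm_num)
  have l2 : ∀ {a : ℕ}, a < 2 ^ 10 → a ^^^ 0x400 < 2 ^ 22 := fun h => Nat.xor_lt_two_pow (l1 h) (by norm_num)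
  have l3 : ∀ {a b : ℕ}, a < 2 ^ 10 → b < 2 ^ 10 → a ≠ b ^^^ 0x400 := by
    intro a b ha hb e
    have h1 := congrArg (fun n => Nat.testBit n 10) e
    simp only [Nat.testBit_xor, Nat.testBit_lt_two_pow ha, Nat.testBit_lt_two_pow hb] at h1
    exact absurd h1 (by decide)
  rcases h with h | h <;> rcases h' with h' | h'
  · exact cj_uniq h h' (l1 hy) (l1 hy')
  · exact absurd (cj_uniq h h' (l1 hy) (l2 hy')) (l3 hy hy')
  · exact absurd (cj_uniq h' h (l1 hy') (l2 hy)) (l3 hy' hy)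
  · rw [← xor_xor y, cj_uniq h h' (l2 hy) (l2 hy'), xor_xor]

/-! ### The classes of the points -/

/-- The codes of the points. -/
def kap (j : ℕ) : ℕ :=
  [0, 0x75, 0x9f, 0x14b, 0x2e3, 0x1b3, 0x366, 0x2cc, 0x1ed, 0x3da, 0x3b4, 0x31d, 0x23a, 0x1, 0x2, 0x4, 0x8, 0x10,
    0x20, 0x40, 0x80, 0x100, 0x200, 0].getD j 0

theorem kap_lt : ∀ j < 24, kap j < 2 ^ 10 := by decide +kernel

theorem kap_y : ∀ l ∈ [Ltr.y1, .y2, .y3, .y4, .y5, .y6, .y7, .y8, .y9, .y10], inW l = true ∧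
    ln (Ic l) 0x400 = 0x400 ∧ ∀ j < 24, ln (Ic l) (kap j) = kap j ∨ ln (Ic l) (kap j) = kap j ^^^ 0x400 := by
  decide +kernel

theorem kap_p : ∀ j < 24, ln (Ic .p) (kap j) = kap (DuadGen.tabP.getD j 0) := by decide +kernel

theorem kap_h : ∀ j < 24, ln (Ic .h) (kap j) = kap (DuadGen.tabH.getD j 0) := by decide +kernel

theorem R0_link {g : G} (hg : g ∈ R0) : Cj g.1 0x400 0x400 ∧ ∀ j < 24, Ac g (kap j) (kap j) := by
  let H : Subgroup G :=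
    { carrier := {g | g ∈ CC ∧ Cj g.1 0x400 0x400 ∧ ∀ j < 24, Ac g (kap j) (kap j)}
      one_mem' := ⟨one_mem _, Cj.one _, fun _ _ => Or.inl (Cj.one _)⟩
      mul_mem' := by
        rintro a b ⟨h1, h2, h3⟩ ⟨h4, h5, h6⟩
        exact ⟨mul_mem h1 h4, cj_mul h5 h2, fun j hj => (h6 j hj).comp (h3 j hj) h2⟩
      inv_mem' := by
        rintro a ⟨h1, h2, h3⟩
        refine ⟨inv_mem h1, cj_inv h1 h2, fun j hj => ?_⟩
        rcases h3 j hj with h4 | h4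
        · exact Or.inl (cj_inv h1 h4)
        · have h5 := cj_xor (cj_inv h1 h4) (cj_inv h1 h2)
          rw [xor_xor] at h5
          exact Or.inr h5 }
  refine (R0_le (H := H) (fun x hx => ?_) (fun l hl => ?_) hg).2
  · exact ⟨NN_le_CC (QQ_le_NN hx), cj_Q hx _, fun _ _ => Or.inl (cj_Q hx _)⟩
  · obtain ⟨h1, h2, h3⟩ := kap_y l hl
    have h5 := Cj_letter h1 0x400
    rw [h2] at h5
    refine ⟨NN_le_CC (gE_mem_NN (y_cases hl).1), h5, fun j hj => ?_⟩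
    have h6 := Cj_letter h1 (kap j)
    rcases h3 j hj with h4 | h4 <;> rw [h4] at h6
    · exact Or.inl h6
    · exact Or.inr h6

theorem mem_N0 {g : G} (h1 : g * gE .z = gE .z * g) (h2 : g * gE .Z10 = gE .Z10 * g) : g ∈ N0 := by
  apply Subgroup.mem_centralizer_iff.2
  rintro t (rfl | rfl)
  · exact h1.symm
  · exact h2.symm

theorem lift_T {σ : Equiv.Perm GolayPt} (hσ : σ ∈ DuadGen.duad) :
    ∃ t ∈ N0, Pm t σ ∧ ∀ x, Cj t.1 (kap (pidx x)) (kap (pidx (σ x))) := by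
  rw [← DuadGen.closure_eq pPerm_tab hPerm_tab] at hσ
  induction hσ using Subgroup.closure_induction with
  | mem σ hσ =>
    rcases hσ with rfl | rfl
    · refine ⟨gE .p, mem_N0 (BGrp.z_comm (BGrp.gE_mem rfl)) (BTI.comm_D rfl), pm_p, fun x => ?_⟩
      rw [pPerm_tab, ← kap_p _ (pidx_lt x)]
      exact Cj_letter rfl _
    · refine ⟨gE .h, mem_N0 (BGrp.z_comm (BGrp.gE_mem rfl)) (BTI.comm_D rfl), pm_h, fun x => ?_⟩
      rw [hPerm_tab, ← kap_h _ (pidx_lt x)]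
      exact Cj_letter rfl _
  | one => exact ⟨1, one_mem _, Pm.one, fun _ => Cj.one _⟩
  | mul σ τ _ _ ih ih' =>
    obtain ⟨a, h1, h2, h3⟩ := ih
    obtain ⟨b, h4, h5, h6⟩ := ih'
    exact ⟨a * b, mul_mem h1 h4, h2.mul h5, fun x => cj_mul (h6 x) (h3 (τ x))⟩
  | inv σ _ ih =>
    obtain ⟨a, h1, h2, h3⟩ := ih
    refine ⟨a⁻¹, inv_mem h1, h2.inv, fun x => ?_⟩
    have h4 := cj_inv (N0_le_CC h1) (h3 (σ⁻¹ x))
    rwa [show σ (σ⁻¹ x) = x from σ.apply_symm_apply x] at h4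

theorem Pm.duad {g : G} (hg : g ∈ NN) {σ : Equiv.Perm GolayPt} (h : Pm g σ) : σ ∈ DuadGen.duad := by
  obtain ⟨τ, h1, h2⟩ := exists_pm hg
  rw [h.unique h2]
  exact h1

theorem R0_of_pm2 {g t : G} (hg : g ∈ NN) (ht : t ∈ NN) {σ : Equiv.Perm GolayPt} (h1 : Pm g σ) (h2 : Pm t σ) :
    g * t⁻¹ ∈ R0 := by
  apply R0_of_pm (mul_mem hg (inv_mem ht))
  have h := h1.mul h2.inv
  rwa [mul_inv_cancel] at h

theorem link {g : G} (hg : g ∈ NN) {σ : Equiv.Perm GolayPt} (h : Pm g σ) (x : GolayPt) :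
    Ac g (kap (pidx x)) (kap (pidx (σ x))) := by
  obtain ⟨t, h1, h2, h3⟩ := lift_T (h.duad hg)
  obtain ⟨h4, h5⟩ := R0_link (R0_of_pm2 hg (N0_le_NN h1) h h2)
  have h6 := Ac.comp (Or.inl (h3 x)) (h5 _ (pidx_lt (σ x))) h4
  rwa [inv_mul_cancel_right] at h6

/-- The code of the image of a duad. -/
def kk (σ : Equiv.Perm GolayPt) (a b : GolayPt) : ℕ := kap (pidx (σ a)) ^^^ kap (pidx (σ b))

theorem kk_lt (σ : Equiv.Perm GolayPt) (a b : GolayPt) : kk σ a b < 2 ^ 10 :=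
  Nat.xor_lt_two_pow (kap_lt _ (pidx_lt _)) (kap_lt _ (pidx_lt _))

theorem link2 {g : G} (hg : g ∈ NN) {σ : Equiv.Perm GolayPt} (h : Pm g σ) (a b : GolayPt) :
    Ac g (kk 1 a b) (kk σ a b) := (link hg h a).xor (link hg h b)

theorem kk_of_cj {g : G} (hg : g ∈ NN) {σ : Equiv.Perm GolayPt} (h : Pm g σ) {a b : GolayPt}
    (hc : Cj g.1 (kk 1 a b) (kk 1 a b)) : kk σ a b = kk 1 a b :=
  (link2 hg h a b).uniq (Or.inl hc) (kk_lt _ _ _) (kk_lt _ _ _)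

theorem kk1 : kk 1 (some 1) (some 2) = 0xea := by decide +kernel

theorem kk2 : kk 1 (some 13) (some 16) = 0x9 := by decide +kernel

theorem kk3 : kk 1 (some 19) (some 21) = 0x140 := by decide +kernel

theorem kk4 : kk 1 (some 4) (some 22) = 0xe3 := by decide +kernel

/-! ### The normaliser of `KO` -/

/-- The class `y` is centralised by `KO`. -/
def Cm (y : ℕ) : Prop := ∀ k ∈ KO, ∀ w : Pauli 11, ab w = ab (dec 11 y) → k * r w = r w * k

theorem KO_zz {k : G} (hk : k ∈ KO) : k * gE .z = gE .z * k := N0_zz (KP_le_N0 (KS_le_KP (KO_le_KS hk)))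

theorem cm_of {y : ℕ} (h : ∀ k ∈ KO, k * q y = q y * k) : Cm y := by
  intro k hk w hw
  rcases BGrp.eq_or_of_ab hw with rfl | rfl
  · exact h k hk
  · have h1 : k * r (dec 11 y) = r (dec 11 y) * k := h k hk
    rw [map_mul, ← BGrp.gE_z, ← mul_assoc, h1, mul_assoc, KO_zz hk, mul_assoc]

theorem Cm.xor {y y' : ℕ} (h : Cm y) (h' : Cm y') : Cm (y ^^^ y') := by
  intro k hk w hw
  have h1 := h k hk _ rfl
  have h2 := h' k hk _ (ab_inv_mul hw)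
  have e : r w = r (dec 11 y) * r ((dec 11 y)⁻¹ * w) := by rw [← map_mul, mul_inv_cancel_left]
  rw [e, ← mul_assoc, h1, mul_assoc, h2, mul_assoc]

theorem Cm.xor' {y y' w : ℕ} (h : Cm y) (h' : Cm y') (e : y ^^^ y' = w) : Cm w := e ▸ h.xor h'

theorem pp_eq : pp = q 0x400 := BGrp.gE_Z10

theorem cm_p : Cm 0x400 := cm_of fun _ hk =>
  (Subgroup.mem_centralizer_iff.1 hk _ (Or.inr (Or.inl pp_eq.symm))).symm

theorem cm_1 : Cm 0xea := cm_of fun _ hk =>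
  (Subgroup.mem_centralizer_iff.1 hk _ (Or.inr (Or.inr (Or.inl rfl)))).symm

theorem cm_2 : Cm 0x9 := cm_of fun _ hk =>
  (Subgroup.mem_centralizer_iff.1 hk _ (Or.inr (Or.inr (Or.inr (Or.inl rfl))))).symm

theorem cm_3 : Cm 0x140 := cm_of fun _ hk =>
  (Subgroup.mem_centralizer_iff.1 hk _ (Or.inr (Or.inr (Or.inr (Or.inr rfl))))).symm

/-- The codes of `Ω` modulo the line. -/
def sp : List ℕ := [0xea, 0x9, 0xe3, 0x140, 0x1aa, 0x149, 0x1a3]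

theorem cm_sp {y : ℕ} (h : y ∈ sp) : Cm y := by
  simp only [sp, List.mem_cons, List.not_mem_nil, or_false] at h
  rcases h with rfl | rfl | rfl | rfl | rfl | rfl | rfl
  · exact cm_1
  · exact cm_2
  · exact cm_1.xor' cm_2 (by decide)
  · exact cm_3
  · exact cm_1.xor' cm_3 (by decide)
  · exact cm_2.xor' cm_3 (by decide)
  · exact (cm_1.xor cm_2).xor' cm_3 (by decide)

theorem conj_comm {g k : G} (hk : k ∈ KO) {c y : ℕ} (h : Ac g c y) (hy : y ∈ sp) :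
    q c * (g⁻¹ * k * g⁻¹⁻¹) = g⁻¹ * k * g⁻¹⁻¹ * q c := by
  have key : ∀ y', Cj g.1 c y' → Cm y' → q c * (g⁻¹ * k * g⁻¹⁻¹) = g⁻¹ * k * g⁻¹⁻¹ * q c := by
    intro y' h1 h2
    obtain ⟨w, h3, h4⟩ := cj_ex h1
    have h5 := h2 k hk w h3
    calc q c * (g⁻¹ * k * g⁻¹⁻¹) = g⁻¹ * (g * q c) * g⁻¹ * k * g := by group
      _ = g⁻¹ * (r w * k) * g := by rw [h4]; group
      _ = g⁻¹ * k * (r w * g) := by rw [← h5]; group
      _ = g⁻¹ * k * g⁻¹⁻¹ * q c := by rw [← h4]; group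
  rcases h with h | h
  · exact key _ h (cm_sp hy)
  · exact key _ h ((cm_sp hy).xor cm_p)

theorem norm_KO {g : G} (hg : g ∈ N0) {σ : Equiv.Perm GolayPt} (h : Pm g σ) (h1 : kk σ (some 1) (some 2) ∈ sp)
    (h2 : kk σ (some 13) (some 16) ∈ sp) (h3 : kk σ (some 19) (some 21) ∈ sp) :
    g ∈ Subgroup.normalizer (KO : Set G) := by
  rw [← inv_mem_iff]
  apply Subgroup.mem_normalizer_fintype
  intro k hk
  have hN : g⁻¹ * k * g⁻¹⁻¹ ∈ N0 :=
    mul_mem (mul_mem (inv_mem hg) (KP_le_N0 (KS_le_KP (KO_le_KS hk)))) (inv_mem (inv_mem hg))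
  apply Subgroup.mem_centralizer_iff.2
  rintro t (rfl | rfl | rfl | rfl | rfl)
  · exact (N0_zz hN).symm
  · exact (N0_pp hN).symm
  · exact conj_comm hk (kk1 ▸ link2 (N0_le_NN hg) h _ _) h1
  · exact conj_comm hk (kk2 ▸ link2 (N0_le_NN hg) h _ _) h2
  · exact conj_comm hk (kk3 ▸ link2 (N0_le_NN hg) h _ _) h3

theorem R0_norm_KO {g : G} (hg : g ∈ N0) (h : g ∈ R0) : g ∈ Subgroup.normalizer (KO : Set G) :=
  norm_KO hg (pm_of_R0 h) (by rw [kk1]; decide) (by rw [kk2]; decide) (by rw [kk3]; decide)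

/-! ### Lifts to `KP` and `KS` -/

theorem mem_KP {g : G} (hg : g ∈ N0) (h : g * q 0xea = q 0xea * g) : g ∈ KP := by
  apply Subgroup.mem_centralizer_iff.2
  rintro t (rfl | rfl | rfl)
  · exact (N0_zz hg).symm
  · exact (N0_pp hg).symm
  · exact h.symm

theorem KP_1 {g : G} (hg : g ∈ KP) : g * q 0xea = q 0xea * g :=
  (Subgroup.mem_centralizer_iff.1 hg _ (Or.inr (Or.inr rfl))).symm

theorem mem_KS {g : G} (hg : g ∈ KP) (h : g * q 0x9 = q 0x9 * g) : g ∈ KS := by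
  apply Subgroup.mem_centralizer_iff.2
  rintro t (rfl | rfl | rfl | rfl)
  · exact (N0_zz (KP_le_N0 hg)).symm
  · exact (N0_pp (KP_le_N0 hg)).symm
  · exact (KP_1 hg).symm
  · exact h.symm

theorem KS_2 {g : G} (hg : g ∈ KS) : g * q 0x9 = q 0x9 * g :=
  (Subgroup.mem_centralizer_iff.1 hg _ (Or.inr (Or.inr (Or.inr rfl)))).symm

theorem q_N0 {c : ℕ} (h : fm c 0x400 = false) : q c ∈ N0 :=
  mem_N0 (BGrp.z_comm (r_mem _)) (by rw [BGrp.gE_Z10]; exact SMod.comm_codes h)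

theorem adjust {t : G} {c d : ℕ} (h : Cj t.1 c c) (hd : fm d c = true) :
    t * q c = q c * t ∨ q d * t * q c = q c * (q d * t) := by
  rcases BGrp.of_Cj h (p := dec 11 c) rfl (w := dec 11 c) rfl with h1 | h1
  · exact Or.inl h1
  · right
    have h2 : q d * q c = gE .z * q c * q d := SMod.anti_codes hd
    have h3 : t * q c = q c * gE .z * t := h1
    have h4 : q d * gE .z = gE .z * q d := BGrp.z_comm (r_mem _)
    have h5 : q c * gE .z = gE .z * q c := BGrp.z_comm (r_mem _)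
    calc q d * t * q c = (q d * q c) * gE .z * t := by rw [mul_assoc, h3]; group
      _ = gE .z * q c * (q d * gE .z) * t := by rw [h2]; group
      _ = (gE .z * gE .z) * q c * (q d * t) := by rw [h4, ← mul_assoc, mul_assoc _ (q c), h5]; group
      _ = q c * (q d * t) := by rw [BGrp.z_sq, one_mul]

theorem pm_q {t : G} {σ : Equiv.Perm GolayPt} (h : Pm t σ) (d : ℕ) : Pm (q d * t) σ := by
  have h1 := (pm_Q (g := q d) ⟨_, rfl⟩).mul h
  rwa [one_mul] at h1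

theorem lift_P {σ : Equiv.Perm GolayPt} (hσ : σ ∈ DuadGen.duad) (h1 : kk σ (some 1) (some 2) = 0xea) :
    ∃ t ∈ KP, Pm t σ ∧ ∀ a b, Cj t.1 (kk 1 a b) (kk σ a b) := by
  obtain ⟨t, h2, h3, h4⟩ := lift_T hσ
  have h5 : ∀ a b, Cj t.1 (kk 1 a b) (kk σ a b) := fun a b => cj_xor (h4 a) (h4 b)
  have h6 := h5 (some 1) (some 2)
  rw [kk1, h1] at h6
  rcases adjust h6 (d := 0x1000) (by decide +kernel) with h7 | h7
  · exact ⟨t, mem_KP h2 h7, h3, h5⟩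
  · exact ⟨q 0x1000 * t, mem_KP (mul_mem (q_N0 (by decide +kernel)) h2) h7, pm_q h3 _,
      fun a b => cj_mul (h5 a b) (cj_Q ⟨_, rfl⟩ _)⟩

theorem lift_S {σ : Equiv.Perm GolayPt} (hσ : σ ∈ DuadGen.duad) (h1 : kk σ (some 1) (some 2) = 0xea)
    (h2 : kk σ (some 13) (some 16) = 0x9) : ∃ t ∈ KS, Pm t σ := by
  obtain ⟨t, h3, h4, h5⟩ := lift_P hσ h1
  have h6 := h5 (some 13) (some 16)
  rw [kk2, h2] at h6
  rcases adjust h6 (d := 0x800) (by decide +kernel) with h7 | h7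
  · exact ⟨t, mem_KS h3 h7, h4⟩
  · exact ⟨q 0x800 * t, mem_KS (mul_mem (mem_KP (q_N0 (by decide +kernel))
      (SMod.comm_codes (by decide +kernel))) h3) h7, pm_q h4 _⟩

theorem kk_KP {g : G} (hg : g ∈ KP) {σ : Equiv.Perm GolayPt} (h : Pm g σ) : kk σ (some 1) (some 2) = 0xea := by
  rw [← kk1]
  apply kk_of_cj (N0_le_NN (KP_le_N0 hg)) h
  rw [kk1]
  exact cj_of_comm (N0_le_CC (KP_le_N0 hg)) (KP_1 hg)

end Cfsg.Agent.B5591.Geo
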