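import Mathlib
import Cfsg.Agent.B5591.CocC

/-!
# S5591: gluing of lifts along a flag (abstract part)
-/

set_option autoImplicit false

namespace Cfsg.Agent.B5591.LGAbs

open Cfsg.Agent.H863.SExt Subgroup

section Grp

variable {H : Type*} [Group H]

theorem cent_cj {g h a : H} : a * (g⁻¹ * h * g) = (g⁻¹ * h * g) * a ↔ (g * a * g⁻¹) * h = h * (g * a * g⁻¹) := by
  constructor
  · intro e
    calc g * a * g⁻¹ * h = g * (a * (g⁻¹ * h * g)) * g⁻¹ := by group
      _ = g * ((g⁻¹ * h * g) * a) * g⁻¹ := by rw [e]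
      _ = _ := by group
  · intro e
    calc a * (g⁻¹ * h * g) = g⁻¹ * ((g * a * g⁻¹) * h) * g := by group
      _ = g⁻¹ * (h * (g * a * g⁻¹)) * g := by rw [e]
      _ = _ := by group

omit [Group H] in
theorem fs {a : H} {P : H → Prop} : (∀ x ∈ ({a} : Set H), P x) ↔ P a :=
  ⟨fun h => h a rfl, fun h _ hx => hx ▸ h⟩

theorem mem_c2 {a b h : H} : h ∈ centralizer ({a, b} : Set H) ↔ a * h = h * a ∧ b * h = h * b := by
  rw [mem_centralizer_iff, Set.forall_mem_insert, fs]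

theorem mem_c3 {a b c h : H} :
    h ∈ centralizer ({a, b, c} : Set H) ↔ a * h = h * a ∧ b * h = h * b ∧ c * h = h * c := by
  rw [mem_centralizer_iff, Set.forall_mem_insert, Set.forall_mem_insert, fs]

theorem mem_c4 {a b c d h : H} :
    h ∈ centralizer ({a, b, c, d} : Set H) ↔ a * h = h * a ∧ b * h = h * b ∧ c * h = h * c ∧ d * h = h * d := by
  rw [mem_centralizer_iff, Set.forall_mem_insert, Set.forall_mem_insert, Set.forall_mem_insert,
    fs]

theorem mem_c5 {a b c d f h : H} :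
    h ∈ centralizer ({a, b, c, d, f} : Set H) ↔
      a * h = h * a ∧ b * h = h * b ∧ c * h = h * c ∧ d * h = h * d ∧ f * h = h * f := by
  rw [mem_centralizer_iff, Set.forall_mem_insert, Set.forall_mem_insert, Set.forall_mem_insert,
    Set.forall_mem_insert, fs]

theorem cjS_c2 (g a b : H) :
    cjS g (centralizer ({a, b} : Set H)) = centralizer ({g * a * g⁻¹, g * b * g⁻¹} : Set H) := by
  ext h
  rw [mem_cjS, mem_c2, mem_c2, cent_cj, cent_cj]

theorem cjS_c3 (g a b c : H) :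
    cjS g (centralizer ({a, b, c} : Set H)) = centralizer ({g * a * g⁻¹, g * b * g⁻¹, g * c * g⁻¹} : Set H) := by
  ext h
  rw [mem_cjS, mem_c3, mem_c3, cent_cj, cent_cj, cent_cj]

theorem cjS_c4 (g a b c d : H) :
    cjS g (centralizer ({a, b, c, d} : Set H)) =
      centralizer ({g * a * g⁻¹, g * b * g⁻¹, g * c * g⁻¹, g * d * g⁻¹} : Set H) := by
  ext h
  rw [mem_cjS, mem_c4, mem_c4, cent_cj, cent_cj, cent_cj, cent_cj]

theorem comm_mul {a b h : H} (ha : a * h = h * a) (hb : b * h = h * b) : a * b * h = h * (a * b) := by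
  rw [mul_assoc, hb, ← mul_assoc, ha, mul_assoc]

/-- `y` is `x` modulo `z`. -/
def Md (z x y : H) : Prop := y = x ∨ y = z * x

theorem Md.comm {z x y h : H} (m : Md z x y) (hz : z * h = h * z) (hx : x * h = h * x) : y * h = h * y := by
  rcases m with rfl | rfl
  · exact hx
  · exact comm_mul hz hx

theorem Md.symm {z x y : H} (m : Md z x y) (hz : z * z = 1) : Md z y x := by
  rcases m with rfl | rfl
  · exact Or.inl rfl
  · exact Or.inr (by rw [← mul_assoc, hz, one_mul])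

/-- An element mapping the generators into the group they generate normalises the centraliser. -/
theorem mem_normalizer_cent [Finite H] {S : Set H} {g : H} (h : ∀ a ∈ S, g * a * g⁻¹ ∈ closure S) :
    g ∈ normalizer ((centralizer S : Subgroup H) : Set H) := by
  rw [← inv_mem_iff, mem_normalizer_iff_cjS]
  apply eq_of_le_of_card_ge
  · intro x hx
    rw [mem_cjS, inv_inv] at hx
    rw [mem_centralizer_iff]
    intro a ha
    have h1 : closure S ≤ centralizer {g * x * g⁻¹} := by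
      rw [closure_le]
      intro b hb
      show b ∈ centralizer {g * x * g⁻¹}
      rw [mem_centralizer_iff, fs]
      exact (mem_centralizer_iff.1 hx b hb).symm
    have h2 := h1 (h a ha)
    rw [mem_centralizer_iff, fs] at h2
    calc a * x = g⁻¹ * ((g * a * g⁻¹) * (g * x * g⁻¹)) * g := by group
      _ = g⁻¹ * ((g * x * g⁻¹) * (g * a * g⁻¹)) * g := by rw [h2]
      _ = x * a := by group
  · exact (card_map_of_injective (MulAut.conj g⁻¹).injective).ge

end Grp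

variable {F M G : Type*} [Field F] [AddCommGroup M] [Module F M] [Group G] {σ : G →* Module.End F M}
  {E : Type*} [Group E] {X : Ext σ E}

theorem fx_cj {K : Subgroup G} (h : Fx σ K) (g : G) : Fx σ (cjS g K) := by
  intro m hm
  have h1 : σ g⁻¹ m = 0 := h _ fun k hk => by
    have h2 := hm _ (conj_mem_cjS g hk)
    rw [act_mul, act_mul] at h2
    apply act_inj (σ := σ) g
    rw [h2, act_act_inv]
  rw [← act_act_inv (σ := σ) g m, h1, map_zero]

theorem norm_restrict {S : Subgroup E} {T : Subgroup G} {e : E} (h : e ∈ normalizer (S : Set E))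
    (hT : X.π e ∈ normalizer (T : Set G)) : e ∈ normalizer ((S ⊓ T.comap X.π : Subgroup E) : Set E) := by
  rw [mem_normalizer_iff] at h hT ⊢
  intro x
  rw [mem_inf, mem_inf, mem_comap, mem_comap, map_mul, map_mul, map_inv, ← h x, ← hT (X.π x)]

theorem norm_inj {S : Subgroup E} {K : Subgroup G} (hS : IsLift X S K) (h0 : Fx σ K) {x y : E}
    (hx : x ∈ normalizer (S : Set E)) (hy : y ∈ normalizer (S : Set E)) (e : X.π x = X.π y) : x = y := by
  obtain ⟨m, hm⟩ := X.of_eq e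
  have h1 : X.j m ∈ normalizer (S : Set E) := by
    have h2 : X.j m = x * y⁻¹ := by rw [hm, mul_inv_cancel_right]
    rw [h2]
    exact mul_mem hx (inv_mem hy)
  rw [hm, h0 m (hS.j_mem_normalizer.1 h1), X.j_zero, one_mul]

theorem norm_one {S : Subgroup E} {K : Subgroup G} (hS : IsLift X S K) (h0 : Fx σ K) {x : E}
    (hx : x ∈ normalizer (S : Set E)) (e : X.π x = 1) : x = 1 :=
  norm_inj hS h0 hx (one_mem _) (by rw [e, map_one])

/-- **The gluing lemma.** -/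
theorem gl {K L H : Subgroup G} {S : Subgroup E} (hS : IsLift X S H) (hK : K ≤ L) (hL : L ≤ H) (h0 : Fx σ K)
    (h1 : H1 σ L) (hgen : H ≤ closure (((H ⊓ normalizer (K : Set G) : Subgroup G) : Set G) ∪ L)) {g : G}
    (gK : g ∈ normalizer (K : Set G)) (gL : g ∈ normalizer (L : Set G)) (gH : g ∈ normalizer (H : Set G)) :
    ∃ e ∈ normalizer (S : Set E), X.π e = g := by
  have hSL := hS.restrict hL
  have hSK := hS.restrict (hK.trans hL)
  obtain ⟨e, he, rfl⟩ := hSL.exists_normalizer h1 gL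
  refine ⟨e, ?_, rfl⟩
  have eK : e ∈ normalizer ((S ⊓ K.comap X.π : Subgroup E) : Set E) := by
    have h2 := norm_restrict (X := X) he gK
    rwa [inf_assoc, inf_eq_right.2 (comap_mono hK)] at h2
  let S' : Subgroup E := S ⊓ cjS e⁻¹ S
  have hS' : ∀ x, x ∈ S' ↔ x ∈ S ∧ e * x * e⁻¹ ∈ S := by
    intro x
    rw [mem_inf, mem_cjS, inv_inv]
  have h3 : H ≤ S'.map X.π := by
    refine hgen.trans ((closure_le _).2 ?_)
    rintro h (⟨hh, hn⟩ | hh)
    · obtain ⟨x, hx, rfl⟩ := hS.exists hh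
      refine ⟨x, (hS' x).2 ⟨hx, ?_⟩, rfl⟩
      have h4 : X.π e * X.π x * (X.π e)⁻¹ ∈ H := (mem_normalizer_iff.1 gH _).1 hh
      obtain ⟨y, hy, ey⟩ := hS.exists h4
      have h5 : x ∈ normalizer ((S ⊓ K.comap X.π : Subgroup E) : Set E) := norm_restrict (le_normalizer hx) hn
      have h6 : y ∈ normalizer ((S ⊓ K.comap X.π : Subgroup E) : Set E) :=
        norm_restrict (le_normalizer hy) (by rw [ey]; exact mul_mem (mul_mem gK hn) (inv_mem gK))
      have h7 := norm_inj hSK h0 (mul_mem (mul_mem eK h5) (inv_mem eK)) h6 (by rw [ey, map_mul, map_mul, map_inv])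
      rw [h7]
      exact hy
    · obtain ⟨x, hx, rfl⟩ := hSL.exists hh
      exact ⟨x, (hS' x).2 ⟨hx.1, ((mem_normalizer_iff.1 he x).1 hx).1⟩, rfl⟩
  have h8 : cjS e S ≤ S := by
    rintro _ ⟨x, hx, rfl⟩
    obtain ⟨x', hx', ex⟩ := h3 (hS.mem hx)
    replace hx' := (hS' x').1 hx'
    rw [← hS.inj hx'.1 hx ex]
    exact hx'.2
  have h9 := hS.cj e
  rw [mem_normalizer_iff_cjS.1 gH] at h9
  exact mem_normalizer_iff_cjS.2 (hS.eq_of_le h9 h8)

/-! ### Agreement of lifts -/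

variable (X) in
/-- `S` and `S'` have the same elements over `H`. -/
def Agree (S S' : Subgroup E) (H : Subgroup G) : Prop := ∀ h ∈ H, ∃ e ∈ S, e ∈ S' ∧ X.π e = h

theorem Agree.mono {S S' : Subgroup E} {H H' : Subgroup G} (h : Agree X S S' H) (hH : H' ≤ H) : Agree X S S' H' :=
  fun g hg => h g (hH hg)

theorem Agree.symm {S S' : Subgroup E} {H : Subgroup G} (h : Agree X S S' H) : Agree X S' S H := by
  intro g hg
  obtain ⟨e, h1, h2, h3⟩ := h g hg
  exact ⟨e, h2, h1, h3⟩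

theorem Agree.trans {S S' S'' : Subgroup E} {H K : Subgroup G} (h : Agree X S S' H) (h' : Agree X S' S'' H)
    (hS : IsLift X S' K) : Agree X S S'' H := by
  intro g hg
  obtain ⟨e, h1, h2, h3⟩ := h g hg
  obtain ⟨e', h4, h5, h6⟩ := h' g hg
  rw [← hS.inj h2 h4 (h3.trans h6.symm)] at h5
  exact ⟨e, h1, h5, h3⟩

theorem Agree.cj {S S' : Subgroup E} {H : Subgroup G} (h : Agree X S S' H) (e : E) :
    Agree X (cjS e S) (cjS e S') (cjS (X.π e) H) := by
  rintro _ ⟨g, hg, rfl⟩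
  obtain ⟨x, h1, h2, rfl⟩ := h g hg
  refine ⟨e * x * e⁻¹, conj_mem_cjS e h1, conj_mem_cjS e h2, ?_⟩
  rw [map_mul, map_mul, map_inv]
  rfl

/-! ### Admissible lifts -/

section Adm

variable {z p : G} {S0 : Subgroup E}

variable (X z p S0) in
/-- The conjugates of the lift `S0`. -/
def Adm (S : Subgroup E) (u v : G) : Prop :=
  ∃ e : E, X.π e * z * (X.π e)⁻¹ = u ∧ X.π e * p * (X.π e)⁻¹ = v ∧ S = cjS e S0

theorem adm_base : Adm X z p S0 S0 z p :=
  ⟨1, by rw [map_one, one_mul, inv_one, mul_one], by rw [map_one, one_mul, inv_one, mul_one], (cjS_one _).symm⟩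

theorem Adm.cj {S : Subgroup E} {u v : G} (h : Adm X z p S0 S u v) (e : E) :
    Adm X z p S0 (cjS e S) (X.π e * u * (X.π e)⁻¹) (X.π e * v * (X.π e)⁻¹) := by
  obtain ⟨f, rfl, rfl, rfl⟩ := h
  refine ⟨e * f, ?_, ?_, (cjS_mul _ _ _).symm⟩ <;> rw [map_mul] <;> group

variable (h0 : IsLift X S0 (centralizer {z, p}))

include h0

theorem Adm.lift {S : Subgroup E} {u v : G} (h : Adm X z p S0 S u v) : IsLift X S (centralizer {u, v}) := by
  obtain ⟨e, rfl, rfl, rfl⟩ := h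
  rw [← cjS_c2]
  exact h0.cj e

/-- An admissible lift is a conjugate by an element over any given transporter. -/
theorem Adm.over {S : Subgroup E} {g : G} (h : Adm X z p S0 S (g * z * g⁻¹) (g * p * g⁻¹)) :
    ∃ e, X.π e = g ∧ S = cjS e S0 := by
  obtain ⟨e, h1, h2, rfl⟩ := h
  have h3 : (X.π e)⁻¹ * g ∈ centralizer ({z, p} : Set G) := by
    rw [mem_c2]
    constructor
    · calc z * ((X.π e)⁻¹ * g) = (X.π e)⁻¹ * (X.π e * z * (X.π e)⁻¹) * g := by group
        _ = (X.π e)⁻¹ * (g * z * g⁻¹) * g := by rw [h1]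
        _ = _ := by group
    · calc p * ((X.π e)⁻¹ * g) = (X.π e)⁻¹ * (X.π e * p * (X.π e)⁻¹) * g := by group
        _ = (X.π e)⁻¹ * (g * p * g⁻¹) * g := by rw [h2]
        _ = _ := by group
  obtain ⟨x, hx, ex⟩ := h0.exists h3
  refine ⟨e * x, by rw [map_mul, ex, mul_inv_cancel_left], ?_⟩
  rw [cjS_mul, mem_normalizer_iff_cjS.1 (le_normalizer hx)]

theorem Adm.conj_j {S S' : Subgroup E} {u v : G} (h : Adm X z p S0 S u v) (h' : Adm X z p S0 S' u v) :
    ∃ m, S' = cjS (X.j m) S := by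
  obtain ⟨e, rfl, rfl, rfl⟩ := h
  obtain ⟨e', h1, rfl⟩ := h'.over h0
  obtain ⟨m, hm⟩ := X.of_eq h1
  exact ⟨m, by rw [hm, cjS_mul]⟩

theorem Adm.uniq {S S' : Subgroup E} {u v : G} (h : Adm X z p S0 S u v) (h' : Adm X z p S0 S' u v)
    {H : Subgroup G} (hH : Fx σ H) (ha : Agree X S S' H) : S = S' := by
  obtain ⟨m, rfl⟩ := h.conj_j h0 h'
  have h1 : m = 0 := hH m fun g hg => by
    obtain ⟨e, h2, h3, rfl⟩ := ha g hg
    rw [mem_cjS] at h3
    have h4 := (h.lift h0).inj h3 h2 (by rw [map_mul, map_mul, map_inv, X.π_j, inv_one, one_mul, mul_one])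
    apply fixed_of_j_comm (X := X)
    calc e * X.j m = X.j m * ((X.j m)⁻¹ * e * X.j m) := by group
      _ = X.j m * e := by rw [h4]
  rw [h1, X.j_zero, cjS_one]

theorem Adm.exists_norm {S : Subgroup E} {u v g : G} (h : Adm X z p S0 S u v)
    (h' : Adm X z p S0 S (g * u * g⁻¹) (g * v * g⁻¹)) : ∃ e ∈ normalizer (S : Set E), X.π e = g := by
  obtain ⟨e, rfl⟩ := X.surj g
  obtain ⟨m, hm⟩ := (h.cj e).conj_j h0 h'
  refine ⟨X.j m * e, mem_normalizer_iff_cjS.2 ?_, by rw [map_mul, X.π_j, one_mul]⟩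
  rw [cjS_mul, ← hm]

/-- Transfer of a normalising element. -/
theorem Adm.transfer {S S' : Subgroup E} {K H : Subgroup G} {u v : G} (h : Adm X z p S0 S' u v) (hS : IsLift X S K)
    (ha : Agree X S S' H) (hH : Fx σ H) {e : E} (he : e ∈ normalizer (S : Set E))
    (h' : Adm X z p S0 S' (X.π e * u * (X.π e)⁻¹) (X.π e * v * (X.π e)⁻¹)) (hn : H ≤ cjS (X.π e) H) :
    e ∈ normalizer (S' : Set E) := by
  have h1 := (ha.cj e).mono hn
  rw [mem_normalizer_iff_cjS.1 he] at h1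
  exact mem_normalizer_iff_cjS.2 (h'.uniq h0 (h.cj e) hH (ha.symm.trans h1 hS)).symm

/-- Transport of a neighbour. -/
theorem Adm.nb {S S1 : Subgroup E} {a b g : G} {H : Subgroup G} (h : Adm X z p S0 S (g * z * g⁻¹) (g * p * g⁻¹))
    (h1 : Adm X z p S0 S1 a b) (ha : Agree X S0 S1 H) :
    ∃ S', Adm X z p S0 S' (g * a * g⁻¹) (g * b * g⁻¹) ∧ Agree X S S' (cjS g H) := by
  obtain ⟨e, rfl, rfl⟩ := h.over h0
  exact ⟨_, h1.cj e, ha.cj e⟩

/-- The lines of the base plane. -/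
theorem plane {K L H : Subgroup G} (hK : K ≤ L) (hL : L ≤ H) (hH : H ≤ centralizer {z, p}) (hf : Fx σ K)
    (h1 : H1 σ L) (hgen : H ≤ closure (((H ⊓ normalizer (K : Set G) : Subgroup G) : Set G) ∪ L)) {g : G}
    (gK : g ∈ normalizer (K : Set G)) (gL : g ∈ normalizer (L : Set G)) (gH : g ∈ normalizer (H : Set G)) :
    ∃ S1, Adm X z p S0 S1 (g * z * g⁻¹) (g * p * g⁻¹) ∧ Agree X S0 S1 H := by
  have h2 := h0.restrict hH
  obtain ⟨e, he, rfl⟩ := gl h2 hK hL hf h1 hgen gK gL gH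
  refine ⟨cjS e S0, ⟨e, rfl, rfl, rfl⟩, fun h hh => ?_⟩
  obtain ⟨x, hx, rfl⟩ := h2.exists hh
  refine ⟨x, hx.1, ?_, rfl⟩
  rw [← mem_normalizer_iff_cjS.1 he] at hx
  exact cjS_mono e inf_le_left hx

omit h0 in
theorem Adm.move {S : Subgroup E} {u v : G} (h : Adm X z p S0 S u v) {n : E} (hn : n ∈ normalizer (S0 : Set E)) :
    ∃ g : G, g * z * g⁻¹ = u ∧ g * p * g⁻¹ = v ∧
      Adm X z p S0 S (g * (X.π n * z * (X.π n)⁻¹) * g⁻¹) (g * (X.π n * p * (X.π n)⁻¹) * g⁻¹) := by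
  obtain ⟨e, h1, h2, rfl⟩ := h
  refine ⟨X.π e, h1, h2, e * n, ?_, ?_, ?_⟩
  · rw [map_mul]; group
  · rw [map_mul]; group
  · rw [cjS_mul, mem_normalizer_iff_cjS.1 hn]

end Adm

/-! ### The setting -/

variable (X) in
/-- The lifts of a line, with its symmetries and its neighbours in the base plane. -/
structure Setting (z p y1 y2 : G) (S0 : Subgroup E) : Prop where
  zz : z * z = 1
  pp : p * p = 1
  zp : z * p = p * z
  lift : IsLift X S0 (centralizer {z, p})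
  rho : ∃ n ∈ normalizer (S0 : Set E), X.π n * z * (X.π n)⁻¹ = z ∧ X.π n * p * (X.π n)⁻¹ = z * p
  tau : ∃ n ∈ normalizer (S0 : Set E), X.π n * z * (X.π n)⁻¹ = p ∧ X.π n * p * (X.π n)⁻¹ = z * p
  nb1 : ∃ S, Adm X z p S0 S z y1 ∧ Agree X S0 S (centralizer {z, p, y1})
  nb2 : ∃ S, Adm X z p S0 S p y2 ∧ Agree X S0 S (centralizer {z, p, y2})

/-- The lines `⟨z, x⟩` and `⟨z, y⟩` are a translate of the base pair. -/
def Edge (z p y1 x y : G) : Prop := ∃ g, g * z * g⁻¹ = z ∧ Md z x (g * p * g⁻¹) ∧ Md z y (g * y1 * g⁻¹)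

/-- The line `⟨x, y⟩` is a translate of the base line off `z`. -/
def Off (z p y2 x y : G) : Prop := ∃ g, g * z * g⁻¹ = z ∧ g * p * g⁻¹ = x ∧ g * y2 * g⁻¹ = y

variable (X) in
/-- Adjacent lifts. -/
def Rel (z p : G) (S0 S : Subgroup E) (x : G) (S' : Subgroup E) (y : G) : Prop :=
  Adm X z p S0 S z x ∧ Adm X z p S0 S' z y ∧ Agree X S S' (centralizer {z, x, y})

theorem Rel.symm {z p x y : G} {S0 S S' : Subgroup E} (h : Rel X z p S0 S x S' y) : Rel X z p S0 S' y S x :=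
  ⟨h.2.1, h.1, h.2.2.symm.mono fun g hg => by
    rw [mem_c3] at hg ⊢
    exact ⟨hg.1, hg.2.2, hg.2.1⟩⟩

namespace Setting

variable {z p y1 y2 : G} {S0 : Subgroup E} (T : Setting X z p y1 y2 S0)

include T

theorem adm_rho {S : Subgroup E} {u v : G} (h : Adm X z p S0 S u v) : Adm X z p S0 S u (u * v) := by
  obtain ⟨n, hn, h1, h2⟩ := T.rho
  obtain ⟨g, rfl, rfl, h3⟩ := h.move hn
  rw [h1, h2] at h3
  rwa [show g * z * g⁻¹ * (g * p * g⁻¹) = g * (z * p) * g⁻¹ by group]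

theorem adm_tau {S : Subgroup E} {u v : G} (h : Adm X z p S0 S u v) : Adm X z p S0 S v (u * v) := by
  obtain ⟨n, hn, h1, h2⟩ := T.tau
  obtain ⟨g, rfl, rfl, h3⟩ := h.move hn
  rw [h1, h2] at h3
  rwa [show g * z * g⁻¹ * (g * p * g⁻¹) = g * (z * p) * g⁻¹ by group]

theorem adm_sw {S : Subgroup E} {u v : G} (h : Adm X z p S0 S u v) : Adm X z p S0 S (u * v) v := by
  have h1 := T.adm_rho (T.adm_tau (T.adm_tau h))
  obtain ⟨e, rfl, rfl, -⟩ := h
  generalize X.π e = g at h1 ⊢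
  have e1 : g * z * g⁻¹ * (g * p * g⁻¹) * (g * p * g⁻¹ * (g * z * g⁻¹ * (g * p * g⁻¹))) =
      g * (z * (p * p) * z * p) * g⁻¹ := by group
  rw [e1, T.pp, mul_one, T.zz, one_mul] at h1
  exact h1

theorem adm_md {S : Subgroup E} {x y : G} (h : Adm X z p S0 S z x) (m : Md z x y) : Adm X z p S0 S z y := by
  rcases m with rfl | rfl
  · exact h
  · exact T.adm_rho h

theorem exists_rel {S : Subgroup E} {x y : G} (h : Adm X z p S0 S z x) (he : Edge z p y1 x y) :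
    ∃ S', Rel X z p S0 S x S' y := by
  obtain ⟨g, h1, h2, h3⟩ := he
  obtain ⟨S1, h4, h5⟩ := T.nb1
  have h6 := T.adm_md h h2
  nth_rewrite 2 [← h1] at h6
  obtain ⟨S', h7, h8⟩ := h6.nb T.lift h4 h5
  rw [h1] at h7
  refine ⟨S', h, T.adm_md h7 (h3.symm T.zz), h8.mono fun k hk => ?_⟩
  rw [cjS_c3, h1, mem_c3]
  rw [mem_c3] at hk
  exact ⟨hk.1, h2.comm hk.1 hk.2.1, h3.comm hk.1 hk.2.2⟩

theorem tri {S1 S2 S3 : Subgroup E} {x y u : G} (h1 : Rel X z p S0 S1 x S2 y) (h2 : Rel X z p S0 S2 y S3 u)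
    (he : Edge z p y1 x u) (hf : Fx σ (centralizer {z, x, y, u})) : Rel X z p S0 S1 x S3 u := by
  obtain ⟨S', h3⟩ := T.exists_rel h1.1 he
  have a1 : Agree X S1 S2 (centralizer {z, x, y, u}) := h1.2.2.mono fun k hk => by
    rw [mem_c4] at hk
    exact mem_c3.2 ⟨hk.1, hk.2.1, hk.2.2.1⟩
  have a2 : Agree X S2 S3 (centralizer {z, x, y, u}) := h2.2.2.mono fun k hk => by
    rw [mem_c4] at hk
    exact mem_c3.2 ⟨hk.1, hk.2.2.1, hk.2.2.2⟩
  have a3 : Agree X S1 S' (centralizer {z, x, y, u}) := h3.2.2.mono fun k hk => by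
    rw [mem_c4] at hk
    exact mem_c3.2 ⟨hk.1, hk.2.1, hk.2.2.2⟩
  have a4 := a3.symm.trans (a1.trans a2 (h1.2.1.lift T.lift)) (h1.1.lift T.lift)
  rwa [h3.2.1.uniq T.lift h2.2.1 hf a4] at h3

/-- Elements normalising all lines through `z` are transferred along edges. -/
theorem norm_rel {S S' : Subgroup E} {x y : G} (h : Rel X z p S0 S x S' y) (hf : Fx σ (centralizer {z, x, y}))
    {e : E} (he : e ∈ normalizer (S : Set E)) (ez : X.π e * z * (X.π e)⁻¹ = z)
    (ex : Md z x (X.π e * x * (X.π e)⁻¹)) (ey : Md z y (X.π e * y * (X.π e)⁻¹)) : e ∈ normalizer (S' : Set E) := by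
  refine h.2.1.transfer T.lift (h.1.lift T.lift) h.2.2 hf he ?_ ?_
  · rw [ez]
    exact T.adm_md h.2.1 ey
  · intro k hk
    rw [cjS_c3, ez, mem_c3]
    rw [mem_c3] at hk
    exact ⟨hk.1, ex.comm hk.1 hk.2.1, ey.comm hk.1 hk.2.2⟩

theorem exists_norm_md {S : Subgroup E} {x g : G} (h : Adm X z p S0 S z x) (gz : g * z * g⁻¹ = z)
    (gx : Md z x (g * x * g⁻¹)) : ∃ e ∈ normalizer (S : Set E), X.π e = g := by
  refine h.exists_norm T.lift ?_
  rw [gz]
  exact T.adm_md h gx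

theorem exists_norm_sw {S : Subgroup E} {x g : G} (h : Adm X z p S0 S z x) (gz : g * z * g⁻¹ = z * x)
    (gx : g * x * g⁻¹ = x) : ∃ e ∈ normalizer (S : Set E), X.π e = g := by
  refine h.exists_norm T.lift ?_
  rw [gz, gx]
  exact T.adm_sw h

theorem exists_off {S : Subgroup E} {x y : G} (h : Adm X z p S0 S z x) (ho : Off z p y2 x y) :
    ∃ S', Adm X z p S0 S' x y ∧ Agree X S S' (centralizer {z, x, y}) := by
  obtain ⟨g, h1, rfl, rfl⟩ := ho
  obtain ⟨S1, h4, h5⟩ := T.nb2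
  nth_rewrite 2 [← h1] at h
  obtain ⟨S', h7, h8⟩ := h.nb T.lift h4 h5
  rw [cjS_c3, h1] at h8
  exact ⟨S', h7, h8⟩

theorem norm_off {S S' S'' : Subgroup E} {a x y : G} (h : Rel X z p S0 S a S' x) (h1 : Adm X z p S0 S'' x y)
    (h2 : Agree X S' S'' (centralizer {z, x, y})) (hf : Fx σ (centralizer {z, a, x, y})) {e : E}
    (he : e ∈ normalizer (S : Set E)) (ez : X.π e * z * (X.π e)⁻¹ = z * a) (ea : X.π e * a * (X.π e)⁻¹ = a)
    (ex : X.π e * x * (X.π e)⁻¹ = x) (ey : X.π e * y * (X.π e)⁻¹ = y) : e ∈ normalizer (S'' : Set E) := by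
  have a1 : Agree X S S' (centralizer {z, a, x, y}) := h.2.2.mono fun k hk => by
    rw [mem_c4] at hk
    exact mem_c3.2 ⟨hk.1, hk.2.1, hk.2.2.1⟩
  have a2 : Agree X S' S'' (centralizer {z, a, x, y}) := h2.mono fun k hk => by
    rw [mem_c4] at hk
    exact mem_c3.2 ⟨hk.1, hk.2.2.1, hk.2.2.2⟩
  refine h1.transfer T.lift (h.1.lift T.lift) (a1.trans a2 (h.2.1.lift T.lift)) hf he ?_ ?_
  · rw [ex, ey]
    exact h1
  · intro k hk
    rw [cjS_c4, ez, ea, ex, ey, mem_c4]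
    rw [mem_c4] at hk
    exact ⟨comm_mul hk.1 hk.2.1, hk.2⟩

/-- **Commutation of two lifts.** -/
theorem comm {Sa Sb S : Subgroup E} {a b x y : G} (ha : Rel X z p S0 Sa a S x) (hb : Rel X z p S0 Sb b S x)
    (ho : Off z p y2 x y) (fa : Fx σ (centralizer {z, a, x, y})) (fb : Fx σ (centralizer {z, b, x, y}))
    {e f : E} (he : e ∈ normalizer (Sa : Set E)) (hf : f ∈ normalizer (Sb : Set E))
    (ez : X.π e * z * (X.π e)⁻¹ = z * a) (ea : X.π e * a * (X.π e)⁻¹ = a)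
    (ex : X.π e * x * (X.π e)⁻¹ = x) (ey : X.π e * y * (X.π e)⁻¹ = y)
    (fz : X.π f * z * (X.π f)⁻¹ = z * b) (fa' : X.π f * b * (X.π f)⁻¹ = b)
    (fx : X.π f * x * (X.π f)⁻¹ = x) (fy : X.π f * y * (X.π f)⁻¹ = y)
    (hc : X.π e * X.π f = X.π f * X.π e) : e * f = f * e := by
  obtain ⟨S'', h1, h2⟩ := T.exists_off ha.2.1 ho
  have h3 := T.norm_off ha h1 h2 fa he ez ea ex ey
  have h4 := T.norm_off hb h1 h2 fb hf fz fa' fx fy
  refine norm_inj (h1.lift T.lift) (fa.mono fun k hk => ?_) (mul_mem h3 h4) (mul_mem h4 h3)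
    (by rw [map_mul, map_mul, hc])
  rw [mem_c4] at hk
  exact mem_c2.2 hk.2.2

end Setting

end Cfsg.Agent.B5591.LGAbs
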