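import Mathlib
import Cfsg.Agent.B5591.LGAbs

/-!
# S5591: gluing of lifts along a flag (the finite configuration, abstract part)
-/

set_option autoImplicit false

namespace Cfsg.Agent.B5591.LGAbs

open Cfsg.Agent.H863.SExt Subgroup

section Grp

variable {H : Type*} [Group H]

/-- The lines `⟨z, x⟩`, `⟨z, u⟩`, `⟨z, w⟩` are a translate of the base triple. -/
def Tri (z p y c x u w : H) : Prop :=
  ∃ g, g * z * g⁻¹ = z ∧ Md z x (g * p * g⁻¹) ∧ Md z u (g * y * g⁻¹) ∧ Md z w (g * c * g⁻¹)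

theorem Tri.edge {z p y c x u w : H} (h : Tri z p y c x u w) : Edge z p y x u := by
  obtain ⟨g, h1, h2, h3, -⟩ := h
  exact ⟨g, h1, h2, h3⟩

theorem Edge.off {z p y x u : H} (hz : z * z = 1) (h : Edge z p y x u)
    (ha : ∃ a, a * z * a⁻¹ = z ∧ a * p * a⁻¹ = z * p ∧ a * y * a⁻¹ = y)
    (hb : ∃ b, b * z * b⁻¹ = z ∧ b * p * b⁻¹ = p ∧ b * y * b⁻¹ = z * y) : Off z p (z * y) x u := by
  obtain ⟨a, a1, a2, a3⟩ := ha
  obtain ⟨b, b1, b2, b3⟩ := hb
  have key : ∀ g s t : H, g * (s * t) * g⁻¹ = (g * s * g⁻¹) * (g * t * g⁻¹) := fun g s t => by group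
  have key2 : ∀ g k s : H, g * k * s * (g * k)⁻¹ = g * (k * s * k⁻¹) * g⁻¹ := fun g s t => by group
  have s1 : ∃ g, g * z * g⁻¹ = z ∧ g * p * g⁻¹ = x ∧ Md z u (g * y * g⁻¹) := by
    obtain ⟨g, h1, h2 | h2, h3⟩ := h
    · exact ⟨g, h1, h2, h3⟩
    · refine ⟨g * a, by rw [key2, a1, h1], ?_, by rwa [key2, a3]⟩
      rw [key2, a2, key, h1, h2, ← mul_assoc, hz, one_mul]
  obtain ⟨g, h1, h2, h3 | h3⟩ := s1
  · refine ⟨g * b, by rw [key2, b1, h1], by rw [key2, b2, h2], ?_⟩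
    rw [key2, key b, b1, b3, ← mul_assoc z, hz, one_mul, h3]
  · refine ⟨g, h1, h2, ?_⟩
    rw [key, h1, h3, ← mul_assoc, hz, one_mul]

theorem c4_le_acb {z a b c : H} : centralizer ({z, a, b, c} : Set H) ≤ centralizer {z, a, c, b} := fun _ hk =>
  have h := mem_c4.1 hk
  mem_c4.2 ⟨h.1, h.2.1, h.2.2.2, h.2.2.1⟩

theorem c4_le_cab {z a b c : H} : centralizer ({z, a, b, c} : Set H) ≤ centralizer {z, c, a, b} := fun _ hk =>
  have h := mem_c4.1 hk
  mem_c4.2 ⟨h.1, h.2.2.2, h.2.1, h.2.2.1⟩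

theorem c4_le_c3 {z a b c : H} : centralizer ({z, a, b, c} : Set H) ≤ centralizer {z, a, b} := fun _ hk =>
  have h := mem_c4.1 hk
  mem_c3.2 ⟨h.1, h.2.1, h.2.2.1⟩

theorem c3_le_c2 {z a b : H} : centralizer ({z, a, b} : Set H) ≤ centralizer {z, b} := fun _ hk =>
  have h := mem_c3.1 hk
  mem_c2.2 ⟨h.1, h.2.2⟩

theorem c3_le_swap {z a b : H} : centralizer ({z, a, b} : Set H) ≤ centralizer {z, b, a} := fun _ hk =>
  have h := mem_c3.1 hk
  mem_c3.2 ⟨h.1, h.2.2, h.2.1⟩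

theorem Md.mem_closure {z x y : H} {S : Set H} (m : Md z x y) (hz : z ∈ S) (hx : x ∈ S) : y ∈ closure S := by
  rcases m with rfl | rfl
  · exact subset_closure hx
  · exact mul_mem (subset_closure hz) (subset_closure hx)

theorem conj_of_comm {g a : H} (h : a * g = g * a) : g * a * g⁻¹ = a := by
  rw [← h, mul_inv_cancel_right]

theorem conj_of_mul {g a b : H} (h : g * a = b * g) : g * a * g⁻¹ = b := by
  rw [h, mul_inv_cancel_right]

/-- The involution `g` interchanges `z` and `z a`. -/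
theorem sw_of {z a w g : H} (hg : g * g = 1) (hz : z * z = 1) (h : g * z * g = w) (ha : a = z * w)
    (hw : w * z = z * w) : g * z * g⁻¹ = z * a ∧ g * a * g⁻¹ = a := by
  have e : g⁻¹ = g := inv_eq_of_mul_eq_one_right hg
  rw [e, ha, h]
  refine ⟨by rw [← mul_assoc, hz, one_mul], ?_⟩
  calc g * (z * w) * g = (g * z * g) * (g * w * g) := by
        rw [show (g * z * g) * (g * w * g) = g * z * (g * g) * w * g by group, hg]; group
    _ = w * z := by
        rw [h, ← h, show g * (g * z * g) * g = (g * g) * z * (g * g) by group, hg, one_mul, mul_one]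
    _ = z * w := hw

end Grp

variable {F M G : Type*} [Field F] [AddCommGroup M] [Module F M] [Group G] {σ : G →* Module.End F M}
  {E : Type*} [Group E] {X : Ext σ E}

theorem Edge.fx {z p y x u : G} (hz : z * z = 1) (h : Edge z p y x u) (hf : Fx σ (centralizer {z, p, y})) :
    Fx σ (centralizer {z, x, u}) := by
  obtain ⟨g, h1, h2, h3⟩ := h
  refine (fx_cj hf g).mono fun k hk => ?_
  rw [cjS_c3, h1, mem_c3] at hk
  exact mem_c3.2 ⟨hk.1, (h2.symm hz).comm hk.1 hk.2.1, (h3.symm hz).comm hk.1 hk.2.2⟩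

theorem Tri.fx {z p y c x u w : G} (hz : z * z = 1) (h : Tri z p y c x u w) (hf : Fx σ (centralizer {z, p, y, c})) :
    Fx σ (centralizer {z, x, u, w}) := by
  obtain ⟨g, h1, h2, h3, h4⟩ := h
  refine (fx_cj hf g).mono fun k hk => ?_
  rw [cjS_c4, h1, mem_c4] at hk
  exact mem_c4.2 ⟨hk.1, (h2.symm hz).comm hk.1 hk.2.1, (h3.symm hz).comm hk.1 hk.2.2.1,
    (h4.symm hz).comm hk.1 hk.2.2.2⟩

variable (X) in
/-- The setting with rigidity of the solids. -/
structure Setting2 (z p y c : G) (S0 : Subgroup E) : Prop where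
  T : Setting X z p y (z * y) S0
  fx : Fx σ (centralizer {z, p, y, c})
  ha : ∃ a, a * z * a⁻¹ = z ∧ a * p * a⁻¹ = z * p ∧ a * y * a⁻¹ = y
  hb : ∃ b, b * z * b⁻¹ = z ∧ b * p * b⁻¹ = p ∧ b * y * b⁻¹ = z * y

variable (X) in
/-- A path of length two from the base line. -/
def Path (z p : G) (S0 S : Subgroup E) (m a : G) : Prop :=
  ∃ Sm, Rel X z p S0 S0 p Sm m ∧ Rel X z p S0 Sm m S a

namespace Setting2

variable {z p y c : G} {S0 : Subgroup E} (U : Setting2 X z p y c S0)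

include U

theorem fx3 : Fx σ (centralizer {z, p, y}) := U.fx.mono c4_le_c3

theorem fx2 : Fx σ (centralizer {z, p}) := U.fx3.mono (c3_le_swap.trans c3_le_c2)

theorem exists_path {m a : G} (h1 : Edge z p y p m) (h2 : Edge z p y m a) : ∃ S, Path X z p S0 S m a := by
  obtain ⟨Sm, r1⟩ := U.T.exists_rel adm_base h1
  obtain ⟨S, r2⟩ := U.T.exists_rel r1.2.1 h2
  exact ⟨S, Sm, r1, r2⟩

theorem path_lift {S : Subgroup E} {m a : G} (h : Path X z p S0 S m a) : IsLift X S (centralizer {z, a}) := by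
  obtain ⟨Sm, -, r2⟩ := h
  exact r2.2.1.lift U.T.lift

theorem path_fx {m a : G} (h2 : Edge z p y m a) : Fx σ (centralizer {z, a}) :=
  (h2.fx U.T.zz U.fx3).mono c3_le_c2

theorem path_norm {S : Subgroup E} {m a : G} (h : Path X z p S0 S m a) (h1 : Edge z p y p m) (h2 : Edge z p y m a)
    {e : E} (he : e ∈ normalizer (S0 : Set E)) (ez : X.π e * z * (X.π e)⁻¹ = z)
    (ep : Md z p (X.π e * p * (X.π e)⁻¹)) (em : Md z m (X.π e * m * (X.π e)⁻¹))
    (ea : Md z a (X.π e * a * (X.π e)⁻¹)) : e ∈ normalizer (S : Set E) := by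
  obtain ⟨Sm, r1, r2⟩ := h
  exact U.T.norm_rel r2 (h2.fx U.T.zz U.fx3) (U.T.norm_rel r1 (h1.fx U.T.zz U.fx3) he ez ep em) ez em ea

theorem path_sw {S : Subgroup E} {m a g : G} (h : Path X z p S0 S m a)
    (hg : g * z * g⁻¹ = z * a ∧ g * a * g⁻¹ = a) : ∃ e ∈ normalizer (S : Set E), X.π e = g := by
  obtain ⟨Sm, -, r2⟩ := h
  exact U.T.exists_norm_sw r2.2.1 hg.1 hg.2

theorem comm0 {S : Subgroup E} {m a q : G} (h : Path X z p S0 S m a) (t1 : Tri z p y c m q p)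
    (t2 : Tri z p y c a q m) {e f : E} (he : e ∈ normalizer (S0 : Set E)) (hf : f ∈ normalizer (S : Set E))
    (e1 : X.π e * z * (X.π e)⁻¹ = z * p ∧ X.π e * p * (X.π e)⁻¹ = p)
    (e2 : m * X.π e = X.π e * m) (e3 : q * X.π e = X.π e * q)
    (f1 : X.π f * z * (X.π f)⁻¹ = z * a ∧ X.π f * a * (X.π f)⁻¹ = a)
    (f2 : m * X.π f = X.π f * m) (f3 : q * X.π f = X.π f * q)
    (hc : X.π e * X.π f = X.π f * X.π e) : e * f = f * e := by
  obtain ⟨Sm, r1, r2⟩ := h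
  exact U.T.comm r1 r2.symm (t1.edge.off U.T.zz U.ha U.hb) ((t1.fx U.T.zz U.fx).mono c4_le_cab)
    ((t2.fx U.T.zz U.fx).mono c4_le_acb) he hf e1.1 e1.2 (conj_of_comm e2) (conj_of_comm e3) f1.1 f1.2
    (conj_of_comm f2) (conj_of_comm f3) hc

theorem rel_q {S S' : Subgroup E} {m a q : G} (h : Path X z p S0 S m a) (r0 : Rel X z p S0 S0 p S' q)
    (t1 : Tri z p y c m q p) (t2 : Tri z p y c a q m) : Rel X z p S0 S a S' q := by
  obtain ⟨Sm, r1, r2⟩ := h
  have r3 := U.T.tri r1.symm r0 t1.edge ((t1.fx U.T.zz U.fx).mono c4_le_acb)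
  exact U.T.tri r2.symm r3 t2.edge ((t2.fx U.T.zz U.fx).mono c4_le_acb)

theorem comm1 {S S' : Subgroup E} {m a m' a' q r : G} (h : Path X z p S0 S m a) (h' : Path X z p S0 S' m' a')
    (h0 : Edge z p y p q) (t1 : Tri z p y c m q p) (t2 : Tri z p y c a q m)
    (t1' : Tri z p y c m' q p) (t2' : Tri z p y c a' q m') (o : Tri z p y c q r a) (o' : Tri z p y c q r a')
    {e f : E} (he : e ∈ normalizer (S : Set E)) (hf : f ∈ normalizer (S' : Set E))
    (e1 : X.π e * z * (X.π e)⁻¹ = z * a ∧ X.π e * a * (X.π e)⁻¹ = a)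
    (e2 : q * X.π e = X.π e * q) (e3 : r * X.π e = X.π e * r)
    (f1 : X.π f * z * (X.π f)⁻¹ = z * a' ∧ X.π f * a' * (X.π f)⁻¹ = a')
    (f2 : q * X.π f = X.π f * q) (f3 : r * X.π f = X.π f * r)
    (hc : X.π e * X.π f = X.π f * X.π e) : e * f = f * e := by
  obtain ⟨Sq, r0⟩ := U.T.exists_rel adm_base h0
  exact U.T.comm (U.rel_q h r0 t1 t2) (U.rel_q h' r0 t1' t2') (o.edge.off U.T.zz U.ha U.hb)
    ((o.fx U.T.zz U.fx).mono c4_le_cab) ((o'.fx U.T.zz U.fx).mono c4_le_cab) he hf e1.1 e1.2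
    (conj_of_comm e2) (conj_of_comm e3) f1.1 f1.2 (conj_of_comm f2) (conj_of_comm f3) hc

end Setting2

end Cfsg.Agent.B5591.LGAbs
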