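import Mathlib
import Cfsg.Agent.B5591.LGAbs2
import Cfsg.Agent.B5591.Geo

/-!
# S5591: the setting of the gluing argument in the model
-/

set_option autoImplicit false

namespace Cfsg.Agent.B5591.LGSet

open Cfsg.Agent.Monster Cfsg.Agent.Monster.VecEngine Cfsg.Agent.Monster.VecSpace
open Cfsg.Agent.Monster.PauliBasic Cfsg.Agent.Monster.PauliBits
open Cfsg.Agent.BabyM.Conc Cfsg.Agent.BabyM
open Cfsg.Agent.H863.BRep Cfsg.Agent.H863.SExt Cfsg.Agent.H863.BCode Cfsg.Agent.H863.BGrp Cfsg.Agent.H863.SMod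
open Cfsg.Agent.B5591.Geo Cfsg.Agent.B5591.LGAbs Subgroup

theorem zz_sq : zz * zz = 1 := z_sq

theorem r_z (y : Pauli 11) : r y * zz = zz * r y := z_comm (r_mem y)

theorem q_z (c : ℕ) : q c * zz = zz * q c := r_z _

theorem pp_eq : pp = q 0x400 := gE_Z10

theorem pp_sq : pp * pp = 1 := z1_sq

theorem zp : zz * pp = pp * zz := by rw [pp_eq, q_z]

theorem y_eq : q 0x4ea = pp * q 0xea := n0_eq

theorem ea_eq : q 0xea = pp * q 0x4ea := by rw [y_eq, ← mul_assoc, pp_sq, one_mul]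

theorem md_of_or {g x y : G} (hx : x * zz = zz * x) (h : g * y = x * g ∨ g * y = x * zz * g) :
    Md zz x (g * y * g⁻¹) := by
  rcases h with h | h
  · exact Or.inl (conj_of_mul h)
  · exact Or.inr ((conj_of_mul h).trans hx)

theorem md_of_Cj {g : G} {a b c : ℕ} (h : Cj g.1 a b) (hc : b = c &&& 0x3fffff) : Md zz (q c) (g * q a * g⁻¹) :=
  md_of_or (q_z c) (of_Cj h (p := dec 11 a) rfl (w := dec 11 c) (by rw [hc, ab_dec_mask]))

theorem md_Q (y : Pauli 11) (c : ℕ) : Md zz (q c) (r y * q c * (r y)⁻¹) := by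
  apply md_of_or (q_z c)
  have h1 : Pauli.form y (dec 11 c) = 0 ∨ Pauli.form y (dec 11 c) = 1 := by
    generalize Pauli.form y (dec 11 c) = a
    revert a; decide
  unfold q
  rcases h1 with h1 | h1
  · left
    rw [← map_mul, ← map_mul, pauli_comm _ _ h1]
  · right
    rw [← map_mul, comm_of_form _ _ h1, map_mul, map_mul, ← gE_z]
    rfl

/-- The check of a triple. -/
noncomputable def triC (w : List Ltr) (a b c : ℕ) : Bool :=
  and (allW w) (and (Nat.beq (lw w 0x400) (Nat.land a 0x3fffff))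
    (and (Nat.beq (lw w 0x4ea) (Nat.land b 0x3fffff)) (Nat.beq (lw w 0x9) (Nat.land c 0x3fffff))))

/-- The check of a pair. -/
noncomputable def edgeC (w : List Ltr) (a b : ℕ) : Bool :=
  and (allW w) (and (Nat.beq (lw w 0x400) (Nat.land a 0x3fffff)) (Nat.beq (lw w 0x4ea) (Nat.land b 0x3fffff)))

theorem md_word {w : List Ltr} (h : allW w = true) {a c : ℕ} (hc : Nat.beq (lw w a) (Nat.land c 0x3fffff) = true) :
    Md zz (q c) (gW w * q a * (gW w)⁻¹) :=
  md_of_Cj (g := gW w) (Cj_word w h a) (Nat.eq_of_beq_eq_true hc)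

theorem z_word {w : List Ltr} (h : allW w = true) : gW w * zz * (gW w)⁻¹ = zz :=
  conj_of_mul (z_comm (g := gW w) (W_mem_C w h))

theorem tri_of {w : List Ltr} {a b c : ℕ} (h : triC w a b c = true) :
    Tri zz pp (q 0x4ea) (q 0x9) (q a) (q b) (q c) := by
  unfold triC at h
  rw [Bool.and_eq_true, Bool.and_eq_true, Bool.and_eq_true] at h
  refine ⟨gW w, z_word h.1, ?_, md_word h.1 h.2.2.1, md_word h.1 h.2.2.2⟩
  rw [pp_eq]
  exact md_word h.1 h.2.1

theorem edge_of {w : List Ltr} {a b : ℕ} (h : edgeC w a b = true) : Edge zz pp (q 0x4ea) (q a) (q b) := by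
  unfold edgeC at h
  rw [Bool.and_eq_true, Bool.and_eq_true] at h
  refine ⟨gW w, z_word h.1, ?_, md_word h.1 h.2.2⟩
  rw [pp_eq]
  exact md_word h.1 h.2.1

/-! ### Normalisers -/

/-- `g` normalises the flag. -/
structure Fl (g : G) : Prop where
  z : g * zz * g⁻¹ ∈ closure ({zz, pp, q 0xea} : Set G)
  p : g * pp * g⁻¹ ∈ closure ({zz, pp, q 0xea} : Set G)
  a : Md zz (q 0xea) (g * q 0xea * g⁻¹)
  b : Md zz (q 0x9) (g * q 0x9 * g⁻¹)
  c : Md zz (q 0x140) (g * q 0x140 * g⁻¹)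

theorem Fl.kp {g : G} (h : Fl g) : g ∈ normalizer (KP : Set G) := by
  apply mem_normalizer_cent
  rw [Set.forall_mem_insert, Set.forall_mem_insert, fs]
  exact ⟨h.z, h.p, h.a.mem_closure (Set.mem_insert _ _)
    (Set.mem_insert_of_mem _ (Set.mem_insert_of_mem _ (Set.mem_singleton _)))⟩

theorem Fl.ks {g : G} (h : Fl g) : g ∈ normalizer (KS : Set G) := by
  have e : closure ({zz, pp, q 0xea} : Set G) ≤ closure {zz, pp, q 0xea, q 0x9} := closure_mono
    (Set.insert_subset_insert (Set.insert_subset_insert (Set.singleton_subset_iff.2 (Set.mem_insert _ _))))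
  apply mem_normalizer_cent
  rw [Set.forall_mem_insert, Set.forall_mem_insert, Set.forall_mem_insert, fs]
  exact ⟨e h.z, e h.p, h.a.mem_closure (Set.mem_insert _ _)
    (Set.mem_insert_of_mem _ (Set.mem_insert_of_mem _ (Set.mem_insert _ _))),
    h.b.mem_closure (Set.mem_insert _ _)
    (Set.mem_insert_of_mem _ (Set.mem_insert_of_mem _ (Set.mem_insert_of_mem _ (Set.mem_singleton _))))⟩

theorem Fl.ko {g : G} (h : Fl g) : g ∈ normalizer (KO : Set G) := by
  have e : closure ({zz, pp, q 0xea} : Set G) ≤ closure {zz, pp, q 0xea, q 0x9, q 0x140} := closure_mono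
    (Set.insert_subset_insert (Set.insert_subset_insert (Set.singleton_subset_iff.2 (Set.mem_insert _ _))))
  apply mem_normalizer_cent
  rw [Set.forall_mem_insert, Set.forall_mem_insert, Set.forall_mem_insert, Set.forall_mem_insert, fs]
  exact ⟨e h.z, e h.p, h.a.mem_closure (Set.mem_insert _ _)
    (Set.mem_insert_of_mem _ (Set.mem_insert_of_mem _ (Set.mem_insert _ _))),
    h.b.mem_closure (Set.mem_insert _ _)
    (Set.mem_insert_of_mem _ (Set.mem_insert_of_mem _ (Set.mem_insert_of_mem _ (Set.mem_insert _ _)))),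
    h.c.mem_closure (Set.mem_insert _ _)
    (Set.mem_insert_of_mem _ (Set.mem_insert_of_mem _ (Set.mem_insert_of_mem _ (Set.mem_insert_of_mem _
      (Set.mem_singleton _)))))⟩

theorem z_mem3 : zz ∈ closure ({zz, pp, q 0xea} : Set G) := subset_closure (Set.mem_insert _ _)

theorem p_mem3 : pp ∈ closure ({zz, pp, q 0xea} : Set G) :=
  subset_closure (Set.mem_insert_of_mem _ (Set.mem_insert _ _))

theorem a_mem3 : q 0xea ∈ closure ({zz, pp, q 0xea} : Set G) :=
  subset_closure (Set.mem_insert_of_mem _ (Set.mem_insert_of_mem _ (Set.mem_singleton _)))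

theorem n0_of {g : G} (h1 : g * zz * g⁻¹ = zz ∨ g * zz * g⁻¹ = pp) (h2 : g * pp * g⁻¹ = zz * pp) :
    g ∈ normalizer (N0 : Set G) := by
  have e1 : zz ∈ closure ({zz, pp} : Set G) := subset_closure (Set.mem_insert _ _)
  have e2 : pp ∈ closure ({zz, pp} : Set G) := subset_closure (Set.mem_insert_of_mem _ (Set.mem_singleton _))
  apply mem_normalizer_cent
  rw [Set.forall_mem_insert, fs, h2]
  refine ⟨?_, mul_mem e1 e2⟩
  rcases h1 with h1 | h1 <;> rw [h1]
  exacts [e1, e2]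

theorem anti_q {c c' : ℕ} (h : fm c c' = true) : q c * q c' * (q c)⁻¹ = zz * q c' :=
  conj_of_mul (anti_codes h)

theorem comm_q {c c' : ℕ} (h : fm c c' = false) : q c * q c' * (q c)⁻¹ = q c' :=
  conj_of_mul (comm_codes h)

theorem qz (c : ℕ) : q c * zz * (q c)⁻¹ = zz := conj_of_mul (q_z c)

theorem rho_p : q 0x200000 * pp * (q 0x200000)⁻¹ = zz * pp := by
  rw [pp_eq]
  exact anti_q (by decide +kernel)

theorem fl_rho : Fl (q 0x200000) where
  z := by rw [qz]; exact z_mem3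
  p := by rw [rho_p]; exact mul_mem z_mem3 p_mem3
  a := md_Q _ _
  b := md_Q _ _
  c := md_Q _ _

theorem tau_z : gE .tau * zz * (gE .tau)⁻¹ = pp := conj_of_mul tz

theorem tau_p : gE .tau * pp * (gE .tau)⁻¹ = zz * pp := (conj_of_mul tz1).trans zp.symm

theorem fl_tau : Fl (gE .tau) where
  z := by rw [tau_z]; exact p_mem3
  p := by rw [tau_p]; exact mul_mem z_mem3 p_mem3
  a := Or.inl (conj_of_mul tau_ea)
  b := Or.inl (conj_of_mul (tau_R (v := [.Z0, .Z3]) (by decide) (by decide) (by decide +kernel)))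
  c := Or.inl (conj_of_mul (tau_R (v := [.Z6, .Z8]) (by decide) (by decide) (by decide +kernel)))

theorem xi_z : gE .xi * zz * (gE .xi)⁻¹ = zz := conj_of_mul (z_comm (gE_mem rfl))

theorem xi_p : gE .xi * pp * (gE .xi)⁻¹ = q 0x4ea := conj_of_mul xiz1

theorem fl_xi : Fl (gE .xi) where
  z := by rw [xi_z]; exact z_mem3
  p := by rw [xi_p, y_eq]; exact mul_mem p_mem3 a_mem3
  a := md_of_Cj (g := gE .xi) (Cj_letter (l := .xi) rfl _) (by decide +kernel)
  b := md_of_Cj (g := gE .xi) (Cj_letter (l := .xi) rfl _) (by decide +kernel)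
  c := md_of_Cj (g := gE .xi) (Cj_letter (l := .xi) rfl _) (by decide +kernel)

theorem tau_y : gE .tau * q 0x4ea * (gE .tau)⁻¹ = zz * q 0x4ea := (conj_of_mul t_n0).trans (q_z _)

theorem h3 {n : ℕ} (h : ¬ 3 ∣ n) : (n : F3) ≠ 0 := fun e => h ((ZMod.natCast_eq_zero_iff n 3).1 e)

variable {M : Type} [AddCommGroup M] [Module F3 M] {σ : G →* Module.End F3 M} {E : Type} [Group E] {X : Ext σ E}

theorem setting (bS : BoxKS) (b0 : BoxGen0) (bP : BoxGenP) (hf : Fx σ KO) {S0 : Subgroup E} (h0 : IsLift X S0 N0) :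
    Setting2 X zz pp (q 0x4ea) (q 0x9) S0 := by
  have h1 : H1 σ KS := h1_of_card (h3 bS)
  have hL : KS ≤ N0 := KS_le_KP.trans KP_le_N0
  refine ⟨⟨zz_sq, pp_sq, zp, h0, ?_, ?_, ?_, ?_⟩, ?_, ?_, ?_⟩
  · obtain ⟨e, he, h⟩ := gl h0 KO_le_KS hL hf h1 b0 fl_rho.ko fl_rho.ks (n0_of (Or.inl (qz _)) rho_p)
    exact ⟨e, he, by rw [h, qz], by rw [h, rho_p]⟩
  · obtain ⟨e, he, h⟩ := gl h0 KO_le_KS hL hf h1 b0 fl_tau.ko fl_tau.ks (n0_of (Or.inr tau_z) tau_p)
    exact ⟨e, he, by rw [h, tau_z], by rw [h, tau_p]⟩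
  · obtain ⟨S, h2, h4⟩ := plane h0 KO_le_KS KS_le_KP KP_le_N0 hf h1 bP fl_xi.ko fl_xi.ks fl_xi.kp
    rw [xi_z, xi_p] at h2
    refine ⟨S, h2, h4.mono fun k hk => ?_⟩
    rw [mem_c3] at hk
    refine mem_c3.2 ⟨hk.1, hk.2.1, ?_⟩
    rw [ea_eq]
    exact comm_mul hk.2.1 hk.2.2
  · obtain ⟨S, h2, h4⟩ := plane h0 KO_le_KS KS_le_KP KP_le_N0 hf h1 bP (mul_mem fl_tau.ko fl_xi.ko)
      (mul_mem fl_tau.ks fl_xi.ks) (mul_mem fl_tau.kp fl_xi.kp)
    have key2 : ∀ g k s : G, g * k * s * (g * k)⁻¹ = g * (k * s * k⁻¹) * g⁻¹ := fun g s t => by group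
    rw [key2, key2, xi_z, xi_p, tau_z, tau_y] at h2
    refine ⟨S, h2, h4.mono fun k hk => ?_⟩
    rw [mem_c3] at hk
    refine mem_c3.2 ⟨hk.1, hk.2.1, ?_⟩
    have e : q 0xea = pp * (zz * (zz * q 0x4ea)) := by rw [← mul_assoc zz, zz_sq, one_mul, ea_eq]
    rw [e]
    exact comm_mul hk.2.1 (comm_mul hk.1 hk.2.2)
  · refine hf.mono (KO_le_KS.trans fun k hk => ?_)
    have h2 := mem_c4.1 hk
    refine mem_c4.2 ⟨h2.1, h2.2.1, ?_, h2.2.2.2⟩
    rw [y_eq]
    exact comm_mul h2.2.1 h2.2.2.1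
  · refine ⟨q 0x201000, qz _, ?_, comm_q (by decide +kernel)⟩
    rw [pp_eq]
    exact anti_q (by decide +kernel)
  · refine ⟨q 0x1000, qz _, ?_, anti_q (by decide +kernel)⟩
    rw [pp_eq]
    exact comm_q (by decide +kernel)

end Cfsg.Agent.B5591.LGSet
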