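import Cfsg.Agent.B5591.WMod

/-!
# S5591: the data for the local analysis at the Sylow `3`-subgroup of `NN` (interface)
-/

set_option autoImplicit false

namespace Cfsg.Agent.B5591.Geo

open Cfsg.Agent.BabyM.Conc Cfsg.Agent.H863.BRep

/-- The subgroup generated by `Q` and the sign changes `y_k`. -/
noncomputable def R0 : Subgroup G :=
  Subgroup.closure ((QQ : Set G) ∪ {g | ∃ l ∈ [Ltr.y1, .y2, .y3, .y4, .y5, .y6, .y7, .y8, .y9, .y10], g = gE l})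

theorem QQ_le_R0 : QQ ≤ R0 := fun _ h => Subgroup.subset_closure (Or.inl h)

theorem gE_mem_R0 {l : Ltr} (h : l ∈ [Ltr.y1, .y2, .y3, .y4, .y5, .y6, .y7, .y8, .y9, .y10]) : gE l ∈ R0 :=
  Subgroup.subset_closure (Or.inr ⟨l, h, rfl⟩)

/-- The class of the triple cover of the stabiliser of `dS` does not vanish on the pair `u, v`. -/
def BoxA0 (u v : G) : Prop :=
  ∃ a : G → G → F3, Z2 (triv F3 G) (MulAction.stabilizer G dS) a ∧ pairing a u v = 1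

/-- The data of the local analysis. -/
structure LocData (u v : G) where
  x1 : G
  x2 : G
  e3 : Ax
  n0 : G
  n1 : G
  k : G
  a : ℕ
  b : ℕ
  c : ℕ
  d : ℕ
  x1_3 : x1 ^ 3 = 1
  x2_3 : x2 ^ 3 = 1
  comm : x1 * x2 = x2 * x1
  x1_mem : x1 ∈ NN
  x2_mem : x2 ∈ NN
  fix1 : x1 • e3 = e3
  fix2 : x2 • e3 = e3
  phi_ne : phi e3 ≠ 0
  hR : ∀ n ∈ NN, ∃ ρ ∈ R0, n • e3 = ρ • e3 ∨ n • e3 = neg (ρ • e3)
  n0_mem : n0 ∈ NN
  n0_1 : n0 * x1 * n0⁻¹ = x1⁻¹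
  n0_2 : n0 * x2 * n0⁻¹ = x2⁻¹
  n0_phi : phi (n0 • e3) = phi e3
  n1_mem : n1 ∈ NN
  n1_1 : n1 * x1 * n1⁻¹ = x1 ^ a * x2 ^ b
  n1_2 : n1 * x2 * n1⁻¹ = x1 ^ c * x2 ^ d
  n1_det : (a : F3) * d - b * c = -1
  n1_phi : phi (n1 • e3) = -phi e3
  k_u : k * u * k⁻¹ = x1
  k_v : k * v * k⁻¹ = x2
  k_e : k • dS = e3 ∨ k • dS = neg e3
  cover : ∀ p : Ax, ∃ g : G, g * x1 = x1 * g ∧ g * x2 = x2 * g ∧ phi (g • p) = phi p ∧
    ((∃ t ∈ R0, t • g • p = neg (g • p)) ∨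
      ∃ n ∈ NN, ∃ s : G, s * x1 = x1 * s ∧ s * x2 = x2 * s ∧ phi (s • e3) = phi e3 ∧
        (g • p = n • s • e3 ∨ g • p = neg (n • s • e3)))

end Cfsg.Agent.B5591.Geo
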