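import Mathlib
import Cfsg.Agent.B5591.LocDef

/-!
# S5591: the orbits of `NN` on the signed axes; words acting on axes
-/

set_option autoImplicit false

namespace Cfsg.Agent.B5591.LocOrb

open Cfsg.Agent.Monster Cfsg.Agent.Monster.VecEngine Cfsg.Agent.Monster.VecSpace
open Cfsg.Agent.BabyM.Conc Cfsg.Agent.BabyM Cfsg.Agent.BabyM.CertVec Cfsg.Agent.BabyM.CertInv
open Cfsg.Agent.H863 Cfsg.Agent.H863.BRep Cfsg.Agent.H863.BVec Cfsg.Agent.H863.SMod
open Cfsg.Agent.B5591.Geo

theorem tab : CertAbs.Tab N C (E .xi) τ (0 : Fin 462) v Inst.d CertAsm.jof CertAsm.root CertAsm.tpF CertAsm.tmF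
    CertAsm.tgtF := CertAsm.tab (OrbInst.nb KLink.link)

theorem mem_iff (x : V) : x ∈ MulAction.orbit G Inst.M.d₀ ↔ x ∈ Inst.M.D := by
  rw [Count.D_eq_orbit Instance.all.orb]

theorem v_mem (r : Fin 19) : v r ∈ MulAction.orbit G Inst.M.d₀ := by
  rw [mem_iff]
  obtain ⟨g, hg⟩ := tab.rep r
  exact ⟨CertAsm.jof r, g.1, g.2, hg.symm⟩

/-- The representatives of the orbits. -/
noncomputable def ax (r : Fin 19) : Ax := ⟨v r, v_mem r⟩

theorem mem_NN {g : G} : g ∈ NN ↔ g.1 ∈ N := Iff.rfl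

/-- Every signed axis is in the orbit of a representative. -/
theorem cov (p : Ax) : ∃ r : Fin 19, ∃ n ∈ NN, p = n • ax r := by
  obtain ⟨j, g, hg, h⟩ := (mem_iff _).1 p.2
  obtain ⟨r, -, n, hn⟩ := tab.cov (OrbInst.nb KLink.link).xi j (p : V) ⟨⟨g, hg⟩, h.symm⟩
  exact ⟨r, ⟨n.1, InstMem.C_le_G (N_le_C n.2)⟩, n.2, Subtype.ext hn.symm⟩

theorem d0_eq : d0 = ax 0 := Subtype.ext (Inst.d_zero.symm.trans (CertAsm.dv_eq 0))

theorem phi_ax (r : Fin 19) : phi (ax r) = -((val (yv r) 1344 : ℤ) : F3) := phi_of rfl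

/-! ### Words -/

theorem gW_nil : gW [] = 1 := Subtype.ext W_nil

theorem gW_cons (l : Ltr) (w : List Ltr) : gW (l :: w) = gW w * gE l := Subtype.ext (W_cons l w)

theorem gW_single (l : Ltr) : gW [l] = gE l := Subtype.ext (W_single l)

/-- The check of an identity between axes. -/
noncomputable def axC (w : List Ltr) (r : ℕ) (w' : List Ltr) (s : ℕ) : Bool :=
  check (w.map Ltr.prog) (yv r) (w'.map Ltr.prog) (yv s)

/-- The check of an identity between an axis and the negative of an axis. -/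
noncomputable def axN (w : List Ltr) (r : ℕ) (w' : List Ltr) (s : ℕ) : Bool :=
  check (w.map Ltr.prog) (yv r) (w'.map Ltr.prog) (VecEngine.neg U (yv s))

theorem ax_eq {w w' : List Ltr} {r s : Fin 19} (h : axC w r w' s = true) : gW w • ax r = gW w' • ax s :=
  Subtype.ext (CertAsm.W_v (W_eq_of_check h))

theorem vecU_neg (P : Pl) : vecU ℚ U (VecEngine.neg U P) = -vecU ℚ U P := by
  funext i
  show ((val (VecEngine.neg U P) i.1 : ℤ) : ℚ) = -((val P i.1 : ℤ) : ℚ)
  rw [val_neg, if_pos i.2, Int.cast_neg]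

theorem ax_neg {w w' : List Ltr} {r s : Fin 19} (h : axN w r w' s = true) : gW w • ax r = neg (gW w' • ax s) := by
  apply Subtype.ext
  have h1 := W_eq_of_check h
  rw [vecU_neg, map_neg] at h1
  show W w (v r) = -(W w' (v s))
  rw [map_v, map_v, h1, smul_neg]

/-- The letters of `NN`. -/
def inN : Ltr → Bool
  | .xi => false
  | .xii => false
  | .tau => false
  | .taui => false
  | _ => true

theorem step {a b : Ltr} (h : W [a, .p] = W [b]) (ha : E a ∈ N) : E b ∈ N := by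
  rw [InstMem.W_two, W_single] at h
  rw [← h]
  exact N.mul_mem (E_mem_N rfl) ha

theorem gE_mem_NN {l : Ltr} (h : inN l = true) : gE l ∈ NN := by
  have p1 : E .p ∈ N := E_mem_N rfl
  have p2 := step ConcEq.w_p2 p1
  have p3 := step ConcEq.w_p3 p2
  have p4 := step ConcEq.w_p4 p3
  have p5 := step ConcEq.w_p5 p4
  have p6 := step ConcEq.w_p6 p5
  have p7 := step ConcEq.w_p7 p6
  have p8 := step ConcEq.w_p8 p7
  have p9 := step ConcEq.w_p9 p8
  have p10 := step ConcEq.w_p10 p9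
  show E l ∈ N
  cases l
  case z => exact Q_le_N InstMem.z_mem_Q
  case p2 => exact p2
  case p3 => exact p3
  case p4 => exact p4
  case p5 => exact p5
  case p6 => exact p6
  case p7 => exact p7
  case p8 => exact p8
  case p9 => exact p9
  case p10 => exact p10
  case hi => rw [InstMem.hi_eq]; exact N.inv_mem (E_mem_N rfl)
  case xi => exact absurd h (by decide)
  case xii => exact absurd h (by decide)
  case tau => exact absurd h (by decide)
  case taui => exact absurd h (by decide)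
  all_goals exact E_mem_N rfl

theorem gW_mem_NN {w : List Ltr} (h : w.all inN = true) : gW w ∈ NN := by
  induction w with
  | nil => rw [gW_nil]; exact NN.one_mem
  | cons l w ih =>
    rw [List.all_cons, Bool.and_eq_true] at h
    rw [gW_cons]
    exact NN.mul_mem (ih h.2) (gE_mem_NN h.1)

/-- The letters `y_k`. -/
def isY : Ltr → Bool
  | .y1 => true
  | .y2 => true
  | .y3 => true
  | .y4 => true
  | .y5 => true
  | .y6 => true
  | .y7 => true
  | .y8 => true
  | .y9 => true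
  | .y10 => true
  | _ => false

/-- The letters of `R0`. -/
def inR (l : Ltr) : Bool := or (KQ.isq l) (isY l)

theorem gE_mem_R {l : Ltr} (h : inR l = true) : gE l ∈ R0 := by
  unfold inR at h
  rw [Bool.or_eq_true] at h
  rcases h with h | h
  · exact QQ_le_R0 ⟨_, Subtype.ext (KQ.E_cl h).symm⟩
  · apply gE_mem_R0
    cases l <;> first | exact absurd h (by decide) | simp

theorem gW_mem_R {w : List Ltr} (h : w.all inR = true) : gW w ∈ R0 := by
  induction w with
  | nil => rw [gW_nil]; exact R0.one_mem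
  | cons l w ih =>
    rw [List.all_cons, Bool.and_eq_true] at h
    rw [gW_cons]
    exact R0.mul_mem (ih h.2) (gE_mem_R h.1)

theorem isN_cases {l : Ltr} (h : isN l = true) : inR l = true ∨ l = .p ∨ l = .h := by
  cases l <;>
    first | exact absurd h (by decide) | exact Or.inl rfl | exact Or.inr (Or.inl rfl) | exact Or.inr (Or.inr rfl)

/-- Induction over `NN`. -/
theorem NN_le {H : Subgroup G} (h0 : R0 ≤ H) (hp : gE .p ∈ H) (hh : gE .h ∈ H) : NN ≤ H := by
  have key : N ≤ H.map Inst.M.G.subtype := by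
    unfold N
    rw [Subgroup.closure_le]
    rintro _ ⟨l, hl, rfl⟩
    refine ⟨gE l, ?_, rfl⟩
    rcases isN_cases hl with h | rfl | rfl
    exacts [h0 (gE_mem_R h), hp, hh]
  intro g hg
  obtain ⟨k, hk, e⟩ := key hg
  rwa [← Subtype.ext e]

/-! ### `R0` is normal in `NN` -/

theorem norm_of {g : G} (hg : g ∈ CC)
    (h : ∀ l ∈ [Ltr.y1, .y2, .y3, .y4, .y5, .y6, .y7, .y8, .y9, .y10], g * gE l * g⁻¹ ∈ R0) :
    g ∈ Subgroup.normalizer (R0 : Set G) := by
  rw [mem_normalizer_iff_cjS]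
  apply Subgroup.eq_of_le_of_card_ge
  · unfold cjS
    rw [Subgroup.map_le_iff_le_comap]
    nth_rewrite 1 [R0]
    rw [Subgroup.closure_le]
    rintro _ (⟨y, rfl⟩ | ⟨l, hl, rfl⟩)
    · obtain ⟨α, hα⟩ := nrm g hg
      apply QQ_le_R0
      exact ⟨α y, by
        show r (α y) = g * r y * g⁻¹
        rw [hα, mul_inv_cancel_right]⟩
    · exact h l hl
  · exact (Subgroup.card_map_of_injective (MulAut.conj g).injective).ge

theorem cj_mem {a l : Ltr} {w : List Ltr} (h : BM.StageW.chk [l, a] (a :: w) = true) (hw : w.all inR = true) :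
    gE a * gE l * (gE a)⁻¹ ∈ R0 := by
  have h1 := gW_eq h
  rw [gW_cons, gW_single, gW_cons] at h1
  rw [h1, mul_inv_cancel_right]
  exact gW_mem_R hw

theorem p_norm : gE .p ∈ Subgroup.normalizer (R0 : Set G) := by
  apply norm_of (BGrp.gE_mem rfl)
  intro l hl
  simp only [List.mem_cons, List.not_mem_nil, or_false] at hl
  rcases hl with rfl | rfl | rfl | rfl | rfl | rfl | rfl | rfl | rfl | rfl
  · exact cj_mem (w := [.y4, .y10, .Z0, .Z4, .Z5]) (by decide +kernel) rfl
  · exact cj_mem (w := [.y6]) (by decide +kernel) rfl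
  · exact cj_mem (w := [.y2, .y4, .y8, .y10, .Z4, .Z6]) (by decide +kernel) rfl
  · exact cj_mem (w := [.y2, .y4, .y6, .y10, .Z4, .Z5, .Z7, .Z8]) (by decide +kernel) rfl
  · exact cj_mem (w := [.y6, .y8, .y10, .Z0, .Z1, .Z6, .Z8]) (by decide +kernel) rfl
  · exact cj_mem (w := [.y1, .y4, .y8, .Z1, .Z5, .Z6, .Z8]) (by decide +kernel) rfl
  · exact cj_mem (w := [.y2, .y3, .y4, .y6, .Z0, .Z1, .Z2, .Z3, .Z4, .Z5, .Z6, .Z7, .Z8, .Z9]) (by decide +kernel) rfl
  · exact cj_mem (w := [.y2, .y4, .y5, .y6, .y8, .Z0, .Z1, .Z4, .Z5, .Z8, .Z9]) (by decide +kernel) rfl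
  · exact cj_mem (w := [.y4, .y6, .y7, .y8, .y10, .Z0, .Z1, .Z2, .Z5, .Z6, .Z7, .Z8]) (by decide +kernel) rfl
  · exact cj_mem (w := [.y2, .y6, .y8, .y9, .y10, .Z1, .Z4, .Z6, .Z7, .Z8, .Z9]) (by decide +kernel) rfl

theorem h_norm : gE .h ∈ Subgroup.normalizer (R0 : Set G) := by
  apply norm_of (BGrp.gE_mem rfl)
  intro l hl
  simp only [List.mem_cons, List.not_mem_nil, or_false] at hl
  rcases hl with rfl | rfl | rfl | rfl | rfl | rfl | rfl | rfl | rfl | rfl
  · exact cj_mem (w := [.y1]) (by decide +kernel) rfl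
  · exact cj_mem (w := [.y2]) (by decide +kernel) rfl
  · exact cj_mem (w := [.y3]) (by decide +kernel) rfl
  · exact cj_mem (w := [.y2, .y3, .y8, .Z1, .Z2, .Z5, .Z6, .Z7, .Z8, .Z9]) (by decide +kernel) rfl
  · exact cj_mem (w := [.y2, .y9, .Z2, .Z6]) (by decide +kernel) rfl
  · exact cj_mem (w := [.y6]) (by decide +kernel) rfl
  · exact cj_mem (w := [.y2, .y3, .y10, .Z0, .Z1, .Z2, .Z3, .Z4, .Z7, .Z9]) (by decide +kernel) rfl
  · exact cj_mem (w := [.y2, .y3, .y4, .Z1, .Z2, .Z3, .Z5, .Z6, .Z8, .Z9]) (by decide +kernel) rfl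
  · exact cj_mem (w := [.y2, .y5, .Z2, .Z3, .Z6, .Z7]) (by decide +kernel) rfl
  · exact cj_mem (w := [.y2, .y3, .y7, .Z0, .Z1, .Z2, .Z3, .Z4, .Z6, .Z7]) (by decide +kernel) rfl

theorem R0_norm : NN ≤ Subgroup.normalizer (R0 : Set G) := NN_le Subgroup.le_normalizer p_norm h_norm

/-! ### The sign on the vector of the line -/

theorem fix_w {w : List Ltr} (h : check (w.map Ltr.prog) (p1 1344) [] (p1 1344) = true) : σV (gW w) wV = wV := by
  have h1 := W_eq_of_check (v₁ := w) (v₂ := []) h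
  rw [W_nil] at h1
  have h2 := tr two_ne (gW w) (x := zv (p1 bI.1)) (y := zv (p1 bI.1)) h1
  rwa [up_p1] at h2

theorem neg_w {w : List Ltr} (h : check (w.map Ltr.prog) (p1 1344) [] (m1 1344) = true) : σV (gW w) wV = -wV := by
  have h1 := W_eq_of_check (v₁ := w) (v₂ := []) h
  rw [W_nil] at h1
  have h2 := tr two_ne (gW w) (x := zv (p1 bI.1)) (y := zv (m1 bI.1)) h1
  rwa [up_p1, up_m1] at h2

end Cfsg.Agent.B5591.LocOrb
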