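import Cfsg.Agent.B5591.NegA

/-!
# S5591: every signed axis is negated by an element centralising `Ω`
-/

set_option autoImplicit false
set_option Elab.async false

namespace Cfsg.Agent.B5591.Neg

open Cfsg.Agent.Monster Cfsg.Agent.Monster.VecEngine Cfsg.Agent.Monster.VecSpace
open Cfsg.Agent.BabyM.Conc Cfsg.Agent.BabyM Cfsg.Agent.BabyM.KRow Cfsg.Agent.BabyM.CertVec Cfsg.Agent.BabyM.CertStab
open Cfsg.Agent.H863.BRep
open Cfsg.Agent.B5591.Geo Cfsg.Agent.B5591.NegData
open Cfsg.Agent.Lib.PermNet (seq seq_eq seqB seqB_eq)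

theorem okX : [Ltr.X0, .X1, .X2, .X3, .X4, .X5, .X6, .X7, .X8, .X9, .X10].all okL = true := by decide +kernel

theorem okZ : [Ltr.Z0, .Z1, .Z2, .Z3, .Z4, .Z5, .Z6, .Z7, .Z8, .Z9, .Z10].all okL = true := by decide +kernel

theorem okY : [Ltr.y1, .y2, .y3, .y4, .y5, .y6, .y7, .y8, .y9, .y10, .p, .h].all okL = true := by decide +kernel

theorem okN {l : Ltr} (h : isN l = true) : okL l = true := by
  have h1 := okX
  have h2 := okZ
  have h3 := okY
  simp only [List.all_cons, List.all_nil, Bool.and_eq_true, and_true] at h1 h2 h3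
  obtain ⟨a0, a1, a2, a3, a4, a5, a6, a7, a8, a9, a10⟩ := h1
  obtain ⟨b0, b1, b2, b3, b4, b5, b6, b7, b8, b9, b10⟩ := h2
  obtain ⟨c0, c1, c2, c3, c4, c5, c6, c7, c8, c9, c10, c11⟩ := h3
  cases l with
  | X0 => exact a0
  | X1 => exact a1
  | X2 => exact a2
  | X3 => exact a3
  | X4 => exact a4
  | X5 => exact a5
  | X6 => exact a6
  | X7 => exact a7
  | X8 => exact a8
  | X9 => exact a9
  | X10 => exact a10
  | Z0 => exact b0
  | Z1 => exact b1
  | Z2 => exact b2
  | Z3 => exact b3
  | Z4 => exact b4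
  | Z5 => exact b5
  | Z6 => exact b6
  | Z7 => exact b7
  | Z8 => exact b8
  | Z9 => exact b9
  | Z10 => exact b10
  | y1 => exact c0
  | y2 => exact c1
  | y3 => exact c2
  | y4 => exact c3
  | y5 => exact c4
  | y6 => exact c5
  | y7 => exact c6
  | y8 => exact c7
  | y9 => exact c8
  | y10 => exact c9
  | p => exact c10
  | h => exact c11
  | _ => exact absurd (show false = true from h) Bool.false_ne_true

theorem aw_sound {w : List Ltr} (h : w.all isN = true) {i : ℕ} (hi : i < 330) :
    aw w i < 330 ∧ Tr (gW w) i (aw w i) := by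
  induction w generalizing i with
  | nil =>
    have h2 : gW [] = 1 := Subtype.ext W_nil
    rw [h2]
    exact ⟨hi, Tr.one i⟩
  | cons l w ih =>
    rw [List.all_cons, Bool.and_eq_true] at h
    obtain ⟨h1, h2⟩ := okL_sound (okN h.1) hi
    have e : aw (l :: w) i = aw w (la l i) := seq_eq _ _
    rw [e, gW_cons]
    exact ⟨(ih h.2 h1).1, h2.mul (ih h.2 h1).2⟩

theorem grow_sound {x : V} {s t : List Ltr} (hs : s.all isN = true) (ht : t.all isN = true) (fs : W s x = x)
    (ft : W t x = x) {T B0 : ℕ} (h0 : ∀ i, B0.testBit i = true → Ng x i) (n : ℕ) :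
    ∀ i, (grow s t T B0 n).testBit i = true → Ng x i := by
  induction n with
  | zero => exact h0
  | succ n ih =>
    have e : grow s t T B0 (n + 1) = seq (grow s t T B0 n) fun B => seq (l9 T n) fun i =>
      Bool.rec B (Nat.lor B (Nat.pow 2 i))
        (and (Nat.ble i 329) (or (tb B (aw s i)) (tb B (aw t i)))) := rfl
    rw [e, seq_eq, seq_eq]
    cases h : and (Nat.ble (l9 T n) 329) (or (tb (grow s t T B0 n) (aw s (l9 T n)))
      (tb (grow s t T B0 n) (aw t (l9 T n))))
    · exact ih
    · intro i hi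
      rcases bit_lor hi with h1 | rfl
      · exact ih i h1
      · rw [Bool.and_eq_true, Bool.or_eq_true, tb_eq, tb_eq] at h
        have h2 : l9 T n < 330 := Nat.lt_succ_of_le (Nat.le_of_ble_eq_true h.1)
        rcases h.2 with h3 | h3
        · refine Ng.of (aw_sound hs h2).2 ?_
          show Ng (W s x) _
          rw [fs]
          exact ih _ h3
        · refine Ng.of (aw_sound ht h2).2 ?_
          show Ng (W t x) _
          rw [ft]
          exact ih _ h3

/-- The check for one representative. -/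
noncomputable def repOK (r : ℕ) : Bool :=
  and (baseOK (yv r) (bs r)) (Nat.beq (grow (s0 r) (s1 r) (od r) (msk (bs r)) 330) (2 ^ 330 - 1))

theorem rep_sound (r : Fin 19) (h : repOK r = true) {i : ℕ} (hi : i < 330) : Ng (CertInv.v r) i := by
  unfold repOK at h
  rw [Bool.and_eq_true] at h
  refine grow_sound (isN_s0 r r.2) (isN_s1 r r.2) ?_ ?_ (T := od r) (fun i hi => base_sound h.1 hi) 330 i ?_
  · show W (s0 r) ((1 / 8 : ℚ) • vecU ℚ U (yv r)) = (1 / 8 : ℚ) • vecU ℚ U (yv r)
    rw [map_smul, fix0 r r.2]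
  · show W (s1 r) ((1 / 8 : ℚ) • vecU ℚ U (yv r)) = (1 / 8 : ℚ) • vecU ℚ U (yv r)
    rw [map_smul, fix1 r r.2]
  · rw [Nat.eq_of_beq_eq_true h.2, Nat.testBit_two_pow_sub_one]
    exact decide_eq_true hi

theorem rep0 : repOK 0 = true := by decide +kernel
theorem rep1 : repOK 1 = true := by decide +kernel
theorem rep2 : repOK 2 = true := by decide +kernel
theorem rep3 : repOK 3 = true := by decide +kernel
theorem rep4 : repOK 4 = true := by decide +kernel
theorem rep5 : repOK 5 = true := by decide +kernel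
theorem rep6 : repOK 6 = true := by decide +kernel
theorem rep7 : repOK 7 = true := by decide +kernel
theorem rep8 : repOK 8 = true := by decide +kernel
theorem rep9 : repOK 9 = true := by decide +kernel
theorem rep10 : repOK 10 = true := by decide +kernel
theorem rep11 : repOK 11 = true := by decide +kernel
theorem rep12 : repOK 12 = true := by decide +kernel
theorem rep13 : repOK 13 = true := by decide +kernel
theorem rep14 : repOK 14 = true := by decide +kernel
theorem rep15 : repOK 15 = true := by decide +kernel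
theorem rep16 : repOK 16 = true := by decide +kernel
theorem rep17 : repOK 17 = true := by decide +kernel
theorem rep18 : repOK 18 = true := by decide +kernel

theorem repAll (r : Fin 19) : repOK r = true := by
  fin_cases r
  exacts [rep0, rep1, rep2, rep3, rep4, rep5, rep6, rep7, rep8, rep9, rep10, rep11, rep12, rep13, rep14, rep15, rep16,
    rep17, rep18]

theorem finG : Finite G := Nat.finite_of_card_ne_zero (by rw [Instance.isB.2]; norm_num)

/-- The elements permuting the 330 subgroups. -/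
def InvG : Subgroup G where
  carrier := {g | ∀ i < 330, ∃ j < 330, Tr g i j}
  one_mem' i hi := ⟨i, hi, Tr.one i⟩
  mul_mem' {a b} ha hb i hi := by
    obtain ⟨j, hj, h1⟩ := hb i hi
    obtain ⟨m, hm, h2⟩ := ha j hj
    exact ⟨m, hm, h1.mul h2⟩
  inv_mem' {a} ha := by
    have hf := finG
    have key : ∀ n : ℕ, ∀ i < 330, ∃ j < 330, Tr (a ^ n) i j := by
      intro n
      induction n with
      | zero => exact fun i hi => ⟨i, hi, by rw [pow_zero]; exact Tr.one i⟩
      | succ n ih =>
        intro i hi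
        obtain ⟨j, hj, h1⟩ := ha i hi
        obtain ⟨m, hm, h2⟩ := ih j hj
        exact ⟨m, hm, by rw [pow_succ]; exact h1.mul h2⟩
    have e : a⁻¹ = a ^ (orderOf a - 1) := by
      rw [inv_eq_iff_mul_eq_one, ← pow_succ', Nat.sub_add_cancel (orderOf_pos a), pow_orderOf_eq_one]
    rw [e]
    exact key _

theorem N_le : CertInv.N ≤ InvG.map Inst.M.G.subtype := by
  unfold CertInv.N
  rw [Subgroup.closure_le]
  rintro _ ⟨l, hl, rfl⟩
  exact ⟨gE l, fun i hi => ⟨_, okL_sound (okN hl) hi⟩, rfl⟩

theorem cover (d : Ax) : ∃ r : Fin 19, (d : V) ∈ MulAction.orbit CertInv.N (CertInv.v r) := by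
  have h1 : (d : V) ∈ Inst.M.D := by
    rw [Count.D_eq_orbit Instance.all.orb]
    exact d.2
  obtain ⟨j, g, hg, h2⟩ := h1
  have H := OrbInst.nb KLink.link
  obtain ⟨r, -, hr⟩ := (CertAsm.tab H).cov H.xi j (d : V) ⟨⟨g, hg⟩, h2.symm⟩
  exact ⟨r, hr⟩

/-- **Box Neg.** -/
theorem boxNeg : BoxNeg := by
  intro d
  obtain ⟨r, n, hn⟩ := cover d
  obtain ⟨g, hg, e⟩ := N_le n.2
  obtain ⟨j, hj, h1⟩ := InvG.inv_mem hg 0 (by norm_num)
  have h2 : (g⁻¹).1 (d : V) = CertInv.v r := by
    have h3 : g.1 (CertInv.v r) = (d : V) := by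
      have e' : g.1 = n.1 := e
      rw [e']
      exact hn
    rw [← h3]
    exact g.1.symm_apply_apply _
  obtain ⟨k, hk, h4⟩ := Ng.of h1 (by rw [h2]; exact rep_sound r (repAll r) hj)
  exact ⟨k, hk.ko, Subtype.ext h4⟩

end Cfsg.Agent.B5591.Neg
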