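import Cfsg.Agent.B5591.Geo
import Cfsg.Agent.B5591.NegData

/-!
# S5591: the 330 conjugates of `Ω` through the line `ℓ`; transport of negators
-/

set_option autoImplicit false

namespace Cfsg.Agent.B5591.Neg

open Cfsg.Agent.Monster Cfsg.Agent.Monster.VecEngine Cfsg.Agent.Monster.VecSpace
open Cfsg.Agent.Monster.PauliBasic Cfsg.Agent.Monster.PauliBits
open Cfsg.Agent.BabyM.Conc Cfsg.Agent.BabyM Cfsg.Agent.BabyM.KQ Cfsg.Agent.BabyM.KRow Cfsg.Agent.BabyM.KTab
open Cfsg.Agent.H863.BRep Cfsg.Agent.H863.BCode Cfsg.Agent.H863.BGrp Cfsg.Agent.H863.SMod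
open Cfsg.Agent.B5591.Geo Cfsg.Agent.B5591.NegData
open Cfsg.Agent.Lib.PermNet (seq seq_eq seqB seqB_eq)

/-! ### Products of codes -/

theorem q_zero : q 0 = 1 := by rw [q, dec_zero, map_one]

theorem q_top : q 0x400000 = zz := by rw [q, KQ.dec_z]; exact gE_z.symm

theorem q_xor (x : ℕ) {c : ℕ} (h : (dec 11 c).a = 0) : q (x ^^^ c) = q x * q c := by
  rw [q, q, q, ← map_mul]
  congr 1
  refine Pauli.ext ?_ ?_ ?_
  · rw [Pauli.mul_s, h, dotProduct_zero, add_zero]
    exact bit_xor _ _ _
  · funext i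
    exact bit_xor _ _ _
  · funext i
    exact bit_xor _ _ _

theorem a_top : (dec 11 0x400000).a = 0 := by rw [KQ.dec_z]; rfl

theorem a_pure {c : ℕ} (h : c < 2 ^ 11) : (dec 11 c).a = 0 := by rw [dec_pure c h]

/-- Membership in the span of a list of codes. -/
noncomputable def inSp (l : List ℕ) : ℕ → Bool :=
  List.rec (motive := fun _ => ℕ → Bool) (fun y => Nat.beq y 0) (fun c _ ih y => or (ih y) (seqB (Nat.xor y c) ih)) l

theorem inSp_sound {k : G} {l : List ℕ} (h : ∀ c ∈ l, (dec 11 c).a = 0 ∧ Commute k (q c)) {y : ℕ}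
    (hy : inSp l y = true) : Commute k (q y) := by
  induction l generalizing y with
  | nil =>
    have h1 : y = 0 := Nat.eq_of_beq_eq_true hy
    rw [h1, q_zero]
    exact Commute.one_right k
  | cons c l ih =>
    have h1 : or (inSp l y) (seqB (Nat.xor y c) (inSp l)) = true := hy
    have h2 : ∀ c ∈ l, (dec 11 c).a = 0 ∧ Commute k (q c) := fun c hc => h c (List.mem_cons_of_mem _ hc)
    rw [seqB_eq, Bool.or_eq_true] at h1
    rcases h1 with h1 | h1
    · exact ih h2 h1
    · have h3 := h c List.mem_cons_self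
      have e : y = (y ^^^ c) ^^^ c := by rw [Nat.xor_assoc, Nat.xor_self, Nat.xor_zero]
      rw [e, q_xor _ h3.1]
      exact (ih h2 h1).mul_right h3.2

/-! ### The exact action of the letters on codes -/

/-- The code is the product of its generators. -/
noncomputable def okx (x : ℕ) : Bool := Nat.beq (wfold (fun k => 2 ^ k) x pos (Nat.land x 0x400000)) x

/-- The image of a code under a letter. -/
noncomputable def ex (l : Ltr) (x : ℕ) : ℕ :=
  Bool.rec (wfold (im (Ic l)) x pos (Nat.land x 0x400000))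
    (Bool.rec x (Nat.xor x 0x400000) (fm (cl l) x)) (isq l)

theorem land_top (x : ℕ) : Nat.land x 0x400000 = 0 ∨ Nat.land x 0x400000 = 0x400000 := by
  have h : x &&& 2 ^ 22 = (x.testBit 22).toNat * 2 ^ 22 := Nat.and_two_pow x 22
  show x &&& 2 ^ 22 = 0 ∨ x &&& 2 ^ 22 = 2 ^ 22
  rw [h]
  cases x.testBit 22
  · left; rfl
  · right; rfl

theorem ex_sound {l : Ltr} (hl : or (isq l) (inW l) = true) {x : ℕ} (hx : okx x = true) :
    gE l * q x = q (ex l x) * gE l := by
  unfold ex
  cases h : isq l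
  · rw [h, Bool.false_or] at hl
    obtain ⟨α, hα⟩ := KCore.exists_aut Cd.R Cd.R_injective (E l) closure_gens (by
      rintro x ⟨k, hk, rfl⟩
      exact ⟨_, rel hl k hk⟩)
    have hk : ∀ k < 22, α (dec 11 (2 ^ k)) = dec 11 (im (Ic l) k) := by
      intro k hk
      apply Cd.R_injective
      exact mul_right_cancel ((hα _).symm.trans (rel hl k hk))
    have h0 : α (dec 11 (Nat.land x 0x400000)) = dec 11 (Nat.land x 0x400000) := by
      rcases land_top x with e | e
      · rw [e, dec_zero, map_one]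
      · rw [e, KQ.dec_z]
        apply Cd.R_injective
        have h1 : E l * E .z = E .z * E l :=
          congrArg Subtype.val (z_comm (g := gE l) (E_mem_C (isC_of_inW hl)))
        rw [E_z'] at h1
        exact mul_right_cancel ((hα _).symm.trans h1)
    have h1 := wfold_sound hk x pos (by decide) _ _ h0
    rw [Nat.eq_of_beq_eq_true hx] at h1
    apply Subtype.ext
    have h2 := hα (dec 11 x)
    rw [h1] at h2
    exact h2
  · have e : gE l = r (dec 11 (cl l)) := Subtype.ext (E_cl h)
    rw [e]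
    cases h2 : fm (cl l) x
    · exact comm_codes h2
    · show _ = q (x ^^^ 0x400000) * _
      rw [q_xor _ a_top, q_top]
      have h3 : q x * zz = zz * q x := z_comm (r_mem _)
      rw [h3]
      exact anti_codes h2

theorem gW_cons (l : Ltr) (w : List Ltr) : gW (l :: w) = gW w * gE l := Subtype.ext (W_cons l w)

/-- The word maps the code `x` to the code `x0`. -/
noncomputable def fixW (w : List Ltr) (x0 : ℕ) : ℕ → Bool :=
  List.rec (motive := fun _ => ℕ → Bool) (fun x => Nat.beq x x0)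
    (fun l _ ih x => and (or (isq l) (inW l)) (and (okx x) (seqB (ex l x) ih))) w

theorem fixW_sound {w : List Ltr} {x0 x : ℕ} (h : fixW w x0 x = true) : gW w * q x = q x0 * gW w := by
  induction w generalizing x with
  | nil =>
    have h1 : x = x0 := Nat.eq_of_beq_eq_true h
    have h2 : gW [] = 1 := Subtype.ext W_nil
    rw [h1, h2, one_mul, mul_one]
  | cons l w ih =>
    have h1 : and (or (isq l) (inW l)) (and (okx x) (seqB (ex l x) (fixW w x0))) = true := h
    rw [seqB_eq, Bool.and_eq_true, Bool.and_eq_true] at h1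
    rw [gW_cons, mul_assoc, ex_sound h1.1 h1.2.1, ← mul_assoc, ih h1.2.2, mul_assoc]

/-! ### The 330 subgroups -/

/-- Entries of ten bits. -/
noncomputable def l10 (n : ℕ) : ℕ := Nat.land (Nat.shiftRight tT (Nat.mul 10 n)) 1023

theorem l10_lt (n : ℕ) : l10 n < 2 ^ 11 := lt_of_le_of_lt Nat.and_le_right (by norm_num)

/-- The generators of the subgroup number `i`. -/
noncomputable def gl (i : ℕ) : List ℕ :=
  [0x400000, 0x400, l10 (Nat.mul 3 i), l10 (Nat.add (Nat.mul 3 i) 1), l10 (Nat.add (Nat.mul 3 i) 2)]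

theorem gl_a (i : ℕ) : ∀ c ∈ gl i, (dec 11 c).a = 0 := by
  intro c hc
  simp only [gl, List.mem_cons, List.not_mem_nil, or_false] at hc
  rcases hc with rfl | rfl | rfl | rfl | rfl
  · exact a_top
  · exact a_pure (by norm_num)
  · exact a_pure (l10_lt _)
  · exact a_pure (l10_lt _)
  · exact a_pure (l10_lt _)

/-- `k` centralises the subgroup number `i`. -/
def Cen (i : ℕ) (k : G) : Prop := ∀ c ∈ gl i, Commute k (q c)

theorem gl_zero : gl 0 = [0x400000, 0x400, 0xea, 0x9, 0x140] := by decide +kernel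

theorem Cen.ko {k : G} (h : Cen 0 k) : k ∈ KO := by
  unfold Cen at h
  rw [gl_zero] at h
  rw [KO, Subgroup.mem_centralizer_iff]
  intro y hy
  simp only [Set.mem_insert_iff, Set.mem_singleton_iff] at hy
  rcases hy with rfl | rfl | rfl | rfl | rfl
  · rw [← q_top]; exact (h _ (by simp)).symm.eq
  · have e : pp = q 0x400 := gE_Z10
    rw [e]; exact (h _ (by simp)).symm.eq
  · exact (h _ (by simp)).symm.eq
  · exact (h _ (by simp)).symm.eq
  · exact (h _ (by simp)).symm.eq

/-- `g` maps the subgroup number `i` into the subgroup number `j`. -/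
def Tr (g : G) (i j : ℕ) : Prop := ∀ k, Cen j k → Cen i (g⁻¹ * k * g)

theorem Tr.one (i : ℕ) : Tr 1 i i := fun k hk => by rwa [inv_one, one_mul, mul_one]

theorem Tr.mul {g h : G} {i j m : ℕ} (h1 : Tr g i j) (h2 : Tr h j m) : Tr (h * g) i m := fun k hk => by
  have h3 := h1 _ (h2 k hk)
  have e : (h * g)⁻¹ * k * (h * g) = g⁻¹ * (h⁻¹ * k * h) * g := by group
  rwa [e]

/-- Entries of nine bits. -/
noncomputable def l9 (t n : ℕ) : ℕ := Nat.land (Nat.shiftRight t (Nat.mul 9 n)) 511

/-- The action of the letters on the numbers. -/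
noncomputable def la : Ltr → ℕ → ℕ
  | .p, i => l9 tP i
  | .h, i => l9 tH i
  | _, i => i

/-- The check of a letter at one number. -/
noncomputable def okI (l : Ltr) (i : ℕ) : Bool :=
  seqB (la l i) fun j => and (Nat.ble j 329) ((gl i).all fun c => and (okx c) (seqB (ex l c) (inSp (gl j))))

/-- The check of a letter. -/
noncomputable def okL (l : Ltr) : Bool :=
  and (or (isq l) (inW l)) (allN 9 (fun i => or (Nat.ble 330 i) (okI l i)) 0)

theorem okL_sound {l : Ltr} (h : okL l = true) {i : ℕ} (hi : i < 330) : la l i < 330 ∧ Tr (gE l) i (la l i) := by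
  unfold okL at h
  rw [Bool.and_eq_true] at h
  have h1 := allN_spec h.2 (Nat.zero_le i) (by omega)
  rw [Bool.or_eq_true] at h1
  rcases h1 with h1 | h1
  · have := Nat.le_of_ble_eq_true h1
    omega
  unfold okI at h1
  rw [seqB_eq, Bool.and_eq_true, List.all_eq_true] at h1
  refine ⟨Nat.lt_succ_of_le (Nat.le_of_ble_eq_true h1.1), fun k hk c hc => ?_⟩
  have h2 := h1.2 c hc
  rw [seqB_eq, Bool.and_eq_true] at h2
  have h3 := ex_sound h.1 h2.1
  have h4 := (inSp_sound (fun c hc => ⟨gl_a _ c hc, hk c hc⟩) h2.2).eq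
  show (gE l)⁻¹ * k * gE l * q c = q c * ((gE l)⁻¹ * k * gE l)
  have h5 : (gE l)⁻¹ * q (ex l c) = q c * (gE l)⁻¹ := by
    rw [inv_mul_eq_iff_eq_mul, ← mul_assoc, h3, mul_inv_cancel_right]
  rw [mul_assoc, h3, ← mul_assoc, mul_assoc _ k, h4, ← mul_assoc, h5]
  simp only [mul_assoc]

/-- The action of a word on the numbers. -/
noncomputable def aw (w : List Ltr) : ℕ → ℕ :=
  List.rec (motive := fun _ => ℕ → ℕ) (fun i => i) (fun l _ ih i => seq (la l i) ih) w

/-- Some element centralising the subgroup number `i` negates `x`. -/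
def Ng (x : V) (i : ℕ) : Prop := ∃ k : G, Cen i k ∧ k.1 x = -x

theorem Ng.of {g : G} {x : V} {i j : ℕ} (h : Tr g i j) (hx : Ng (g.1 x) j) : Ng x i := by
  obtain ⟨k, hk, h1⟩ := hx
  refine ⟨_, h k hk, ?_⟩
  show (g.1)⁻¹ (k.1 (g.1 x)) = -x
  rw [h1, map_neg]
  congr 1
  exact g.1.symm_apply_apply x

/-- The check of the negators. -/
noncomputable def baseOK (P : Pl) (L : List (ℕ × List Ltr)) : Bool :=
  L.all fun p => and ((gl p.1).all fun c => fixW p.2 c c) (check (p.2.map Ltr.prog) P [] (VecEngine.neg U P))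

/-- The set of the numbers of a list. -/
noncomputable def msk (L : List (ℕ × List Ltr)) : ℕ :=
  List.rec (motive := fun _ => ℕ) 0 (fun p _ ih => Nat.lor ih (Nat.pow 2 p.1)) L

theorem vecU_neg (P : Pl) : vecU ℚ U (VecEngine.neg U P) = -vecU ℚ U P := by
  funext i
  show ((val (VecEngine.neg U P) i.1 : ℤ) : ℚ) = -((val P i.1 : ℤ) : ℚ)
  rw [val_neg, if_pos i.2, Int.cast_neg]

theorem bit_lor {B i n : ℕ} (h : (Nat.lor B (Nat.pow 2 i)).testBit n = true) : B.testBit n = true ∨ n = i := by
  have h1 : (B ||| 2 ^ i).testBit n = true := h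
  rw [Nat.testBit_or, Bool.or_eq_true, Nat.testBit_two_pow, decide_eq_true_eq] at h1
  exact h1.imp id Eq.symm

theorem base_sound {P : Pl} {L : List (ℕ × List Ltr)} (h : baseOK P L = true) {n : ℕ}
    (hn : (msk L).testBit n = true) : Ng ((1 / 8 : ℚ) • vecU ℚ U P) n := by
  induction L with
  | nil => exact absurd hn (by simp [msk])
  | cons p L ih =>
    unfold baseOK at h
    rw [List.all_cons, Bool.and_eq_true, Bool.and_eq_true, List.all_eq_true] at h
    rcases bit_lor (show (Nat.lor (msk L) (Nat.pow 2 p.1)).testBit n = true from hn) with h1 | rfl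
    · exact ih h.2 h1
    · refine ⟨gW p.2, fun c hc => fixW_sound (h.1.1 c hc), ?_⟩
      have h2 := W_eq_of_check (v₂ := []) h.1.2
      rw [W_nil, vecU_neg] at h2
      show W p.2 _ = _
      rw [map_smul, h2]
      exact smul_neg _ _

/-- The search. -/
noncomputable def grow (s t : List Ltr) (T B0 : ℕ) : ℕ → ℕ :=
  Nat.rec (motive := fun _ => ℕ) B0 (fun n B => seq B fun B => seq (l9 T n) fun i =>
    Bool.rec B (Nat.lor B (Nat.pow 2 i))
      (and (Nat.ble i 329) (or (tb B (aw s i)) (tb B (aw t i)))))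

end Cfsg.Agent.B5591.Neg
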