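import Cfsg.Agent.H138.CoxEng

/-!
# S5591: the spider relator is central in an extension without `2`-torsion

`x 1, ..., x 11` satisfy the Coxeter relations of `Y433` in `E`, the kernel of `π : E →* G` has no involutions, the three
additional relators hold after applying `π`, and some involution `φ` over the centre of the `E₇` with long arm
`x 4, x 3, x 2` commutes with `x 2, ..., x 7, x 9, x 10`.  Then the two `E₇` relators hold in `E` and the tenth power of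
the spider commutes with all `x i`.
-/

set_option autoImplicit false

namespace Cfsg.Agent.B5591.Spider3

open Cfsg.Agent.H138.CoxEng

def sW : List ℕ := [5, 4, 3, 5, 6, 7, 5, 9, 10]
def tT : List ℕ := [9, 5, 4, 3, 6, 5, 4, 7, 6, 5, 9, 5, 6, 7, 4, 5, 6, 3, 4, 5, 9, 10]
def s0 : List ℕ := [3, 4, 5, 9, 10, 6, 5, 9, 4, 5, 6, 3, 4, 5, 9, 10, 7, 6, 5, 9, 4, 5, 6, 3, 4, 5, 9, 10, 7, 6, 5, 9,
  4, 5, 6, 3, 4, 5, 9, 10, 7, 6, 5, 9, 4, 5, 6, 7]
def g3 : List ℕ := [4, 5, 9, 10, 3, 4, 5, 9]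
def g7 : List ℕ := [7, 6, 5, 9, 10, 7, 6, 5, 9]
def wD : List ℕ := [8, 7, 6, 5, 4, 3]
def c1 : List ℕ := [5, 4, 3, 6, 7, 8, 9]
def c2 : List ℕ := [5, 9, 10, 6, 7, 8, 4]
def c3 : List ℕ := [5, 4, 3, 6, 9, 10, 11]
def c4 : List ℕ := [5, 6, 7, 4, 9, 10, 11]
def c5 : List ℕ := [5, 4, 3, 2, 6, 7, 9]
def c6 : List ℕ := [5, 4, 3, 2, 9, 10, 6]
def d8 : List ℕ := pw [7, 5, 8, 6, 4, 9] 5
def d11 : List ℕ := pw [10, 5, 11, 9, 4, 6] 5
def d2 : List ℕ := pw [3, 5, 2, 4, 6, 9] 5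
def a8 : List ℕ := [3, 4, 5, 6, 7, 8, 9, 5, 4, 3, 6, 5, 4, 7, 6, 5, 9, 5, 6, 7, 4, 5, 6, 3, 4, 5, 9, 8, 7, 6, 5, 4, 3]
def b8 : List ℕ :=
  [10, 9, 5, 4, 6, 5, 7, 6, 8, 7, 9, 5, 4, 6, 5, 9, 10, 9, 5, 6, 4, 5, 9, 7, 8, 6, 7, 5, 6, 4, 5, 9, 10]
def a11 : List ℕ :=
  [3, 4, 5, 6, 9, 5, 4, 3, 10, 9, 5, 4, 6, 5, 9, 10, 11, 10, 9, 5, 6, 4, 5, 9, 10, 3, 4, 5, 9, 6, 5, 4, 3]
def b11 : List ℕ :=
  [7, 6, 5, 4, 9, 5, 6, 7, 10, 9, 5, 4, 6, 5, 9, 10, 11, 10, 9, 5, 6, 4, 5, 9, 10, 7, 6, 5, 9, 4, 5, 6, 7]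
def a2 : List ℕ := [7, 6, 5, 4, 3, 2, 9, 5, 4, 3, 6, 5, 4, 7, 6, 5, 9, 5, 6, 7, 4, 5, 6, 3, 4, 5, 9, 2, 3, 4, 5, 6, 7]
def b2 : List ℕ :=
  [10, 9, 5, 4, 3, 2, 6, 5, 4, 3, 9, 5, 4, 6, 5, 9, 10, 9, 5, 6, 4, 5, 9, 3, 4, 5, 6, 2, 3, 4, 5, 9, 10]
def h8 : List ℕ := [3, 4, 5, 9, 10, 6, 5, 9, 4, 5, 6, 3, 4, 5, 9, 10, 7, 6, 5, 9, 4, 5, 6, 3, 4, 5, 9, 7, 6, 5, 4, 3]
def h11 : List ℕ := [3, 4, 5, 9, 10, 6, 5, 9, 4, 5, 6, 3, 4, 5, 9, 10, 7, 6, 5, 9, 4, 5, 6, 7]
def h2 : List ℕ := [3, 4, 5, 9, 10, 6, 5, 9, 4, 5, 6, 3, 4, 5, 9, 10]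

theorem q1 : chk (pw c1 9 ++ pw c1 9) [] = true := by decide +kernel
theorem q2 : chk (pw c2 9 ++ pw c2 9) [] = true := by decide +kernel
theorem q3 : chk (pw c3 9 ++ pw c3 9) [] = true := by decide +kernel
theorem q4 : chk (pw c4 9 ++ pw c4 9) [] = true := by decide +kernel
theorem q5 : chk (pw c5 9 ++ pw c5 9) [] = true := by decide +kernel
theorem q6 : chk (pw c6 9 ++ pw c6 9) [] = true := by decide +kernel
theorem f1 : chk (pw c1 9) (d8 ++ a8) = true := by decide +kernel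
theorem f2 : chk (pw c2 9) (d8 ++ b8) = true := by decide +kernel
theorem f3 : chk (pw c3 9) (d11 ++ a11) = true := by decide +kernel
theorem f4 : chk (pw c4 9) (d11 ++ b11) = true := by decide +kernel
theorem f5 : chk (pw c5 9) (d2 ++ a2) = true := by decide +kernel
theorem f6 : chk (pw c6 9) (d2 ++ b2) = true := by decide +kernel
theorem e8 : chk ([8] ++ h8) (h8 ++ a8) = true := by decide +kernel
theorem e8' : chk (s0 ++ ([8] ++ (s0.reverse ++ h8))) (h8 ++ b8) = true := by decide +kernel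
theorem e11 : chk ([11] ++ h11) (h11 ++ b11) = true := by decide +kernel
theorem e11' : chk (s0 ++ ([11] ++ (s0.reverse ++ h11))) (h11 ++ a11) = true := by decide +kernel
theorem e2 : chk ([2] ++ h2) (h2 ++ b2) = true := by decide +kernel
theorem e2' : chk (s0 ++ ([2] ++ (s0.reverse ++ h2))) (h2 ++ a2) = true := by decide +kernel
theorem k8 : chk (pw (b8 ++ [10]) 3) [] = true := by decide +kernel
theorem k12 : chk (wD ++ (a8 ++ [10])) (tT ++ wD) = true := by decide +kernel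
theorem k13 : chk ([10] ++ (pw sW 10 ++ ([10] ++ pw tT 3))) (pw sW 10) = true := by decide +kernel
theorem k14 : chk (pw sW 10) ([3] ++ (s0 ++ ([3] ++ ([9] ++ (pw tT 3 ++ [9]))))) = true := by decide +kernel
theorem k3 : chk ([3] ++ (s0 ++ ([3] ++ g3))) (s0 ++ (g3 ++ pw tT 3)) = true := by decide +kernel
theorem k7 : chk ([7] ++ (s0 ++ ([7] ++ g7))) (s0 ++ (g7 ++ pw tT 3)) = true := by decide +kernel
theorem kc : ∀ i ∈ [1, 4, 5, 6, 9, 10], chk (s0 ++ [i]) ([i] ++ s0) = true := by decide +kernel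
theorem gs0 : good s0 = true := by decide +kernel

variable {E G : Type*} [Group E] [Group G]

theorem comm_P {x : ℕ → E} {φ : E} (w : List ℕ) (h : ∀ i ∈ w, Commute φ (x i)) : Commute φ (P x w) := by
  induction w with
  | nil => exact Commute.one_right φ
  | cons n w ih =>
    rw [P_cons]
    exact (h n List.mem_cons_self).mul_right (ih fun i hi => h i (List.mem_cons_of_mem _ hi))

/-- **The spider relator is central.** -/
theorem central (π : E →* G) (x : ℕ → E)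
    (sq : ∀ i, 1 ≤ i → i ≤ 11 → x i * x i = 1)
    (cm : ∀ i j, 1 ≤ i → i < j → j ≤ 11 → (i, j) ∉ edges → x i * x j = x j * x i)
    (br : ∀ i j, (i, j) ∈ edges → x i * x j * x i = x j * x i * x j)
    (n2 : ∀ a, π a = 1 → a * a = 1 → a = 1)
    (g0 : π ((x 5 * x 4 * x 3 * x 5 * x 6 * x 7 * x 5 * x 9 * x 10) ^ 10) = 1)
    (g1 : π ((x 5 * x 4 * x 3 * x 6 * x 7 * x 8 * x 9) ^ 9) = 1)
    (g2 : π ((x 5 * x 4 * x 3 * x 6 * x 9 * x 10 * x 11) ^ 9) = 1)
    (φ : E) (hφ2 : φ * φ = 1) (hφc : ∀ i ∈ [2, 3, 4, 5, 6, 7, 9, 10], Commute φ (x i))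
    (hφπ : π φ = π ((x 5 * x 4 * x 3 * x 2 * x 6 * x 7 * x 9) ^ 9)) :
    (∀ i, 1 ≤ i → i ≤ 11 → Commute ((x 5 * x 4 * x 3 * x 5 * x 6 * x 7 * x 5 * x 9 * x 10) ^ 10) (x i)) ∧
      (x 5 * x 4 * x 3 * x 6 * x 7 * x 8 * x 9) ^ 9 = 1 ∧
      (x 5 * x 4 * x 3 * x 6 * x 9 * x 10 * x 11) ^ 9 = 1 := by
  have we : ∀ u v : List ℕ, chk u v = true → P x u = P x v := wordEq sq cm br
  have hs : x 5 * x 4 * x 3 * x 5 * x 6 * x 7 * x 5 * x 9 * x 10 = P x sW := by
    simp [P, sW, mul_assoc]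
  have h1 : x 5 * x 4 * x 3 * x 6 * x 7 * x 8 * x 9 = P x c1 := by
    simp [P, c1, mul_assoc]
  have h3 : x 5 * x 4 * x 3 * x 6 * x 9 * x 10 * x 11 = P x c3 := by
    simp [P, c3, mul_assoc]
  have h5 : x 5 * x 4 * x 3 * x 2 * x 6 * x 7 * x 9 = P x c5 := by
    simp [P, c5, mul_assoc]
  rw [hs] at g0 ⊢
  rw [h1] at g1 ⊢
  rw [h3] at g2 ⊢
  rw [h5] at hφπ
  clear hs h1 h3 h5
  have Q : ∀ c : List ℕ, chk (pw c 9 ++ pw c 9) [] = true → P x c ^ 9 * P x c ^ 9 = 1 := fun c hc => by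
    have h := we _ _ hc
    rwa [P_append, P_pw, P_nil] at h
  have Fd : ∀ c d a : List ℕ, chk (pw c 9) (d ++ a) = true → P x c ^ 9 = P x d * P x a := fun c d a hc => by
    have h := we _ _ hc
    rwa [P_append, P_pw] at h
  -- the relations between the arms
  have Ex : ∀ (e : ℕ) (h a b : List ℕ), chk ([e] ++ h) (h ++ a) = true →
      chk (s0 ++ ([e] ++ (s0.reverse ++ h))) (h ++ b) = true →
      (π (P x s0) = 1 → π (P x a) = π (P x b)) ∧ (P x a = P x b → Commute (P x s0) (x e)) := by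
    intro e h a b u v
    have u' := we _ _ u
    have v' := we _ _ v
    rw [P_append, P_append, P_single] at u'
    rw [P_append, P_append, P_append, P_append, P_single, P_reverse sq _ gs0] at v'
    constructor
    · intro h0
      have u'' := congrArg π u'
      have v'' := congrArg π v'
      simp only [map_mul, map_inv, h0, inv_one, one_mul] at u'' v''
      exact mul_left_cancel (u''.symm.trans v'')
    · intro h0
      rw [← h0, ← u', ← mul_assoc, ← mul_assoc] at v'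
      have h2 := mul_right_cancel v'
      rw [commute_iff_eq, ← mul_inv_eq_iff_eq_mul]
      exact h2
  -- the images
  have e13 := we _ _ k13
  rw [P_append, P_append, P_append, P_pw, P_pw, P_single] at e13
  have e14 := we _ _ k14
  rw [P_append, P_append, P_append, P_append, P_append, P_pw, P_pw, P_single, P_single] at e14
  have s3 := sq 3 (by norm_num) (by norm_num)
  have s7 := sq 7 (by norm_num) (by norm_num)
  have s9 := sq 9 (by norm_num) (by norm_num)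
  have s10 := sq 10 (by norm_num) (by norm_num)
  have pT : π (P x tT ^ 3) = 1 := by
    have h := congrArg π e13
    rw [map_mul, map_mul, map_mul, g0, one_mul, ← mul_assoc, ← map_mul, s10, map_one, one_mul] at h
    exact h
  have p0 : π (P x s0) = 1 := by
    have h := congrArg π e14
    rw [g0, map_mul, map_mul, map_mul, map_mul, map_mul, pT, one_mul, ← map_mul π (x 9), s9, map_one,
      mul_one] at h
    have h' : π (x 3) * π (x 3) = 1 := by rw [← map_mul, s3, map_one]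
    have h2 : π (x 3) * (π (P x s0) * π (x 3)) = π (x 3) * (1 * π (x 3)) := by rw [← h, one_mul, h']
    exact mul_right_cancel (mul_left_cancel h2)
  -- the arm of `x 8`
  have z1 : P x c1 ^ 9 = 1 := n2 _ g1 (Q _ q1)
  have z2 : P x c2 ^ 9 = 1 := by
    refine n2 _ ?_ (Q _ q2)
    rw [Fd _ _ _ f2, map_mul, ← (Ex 8 _ _ _ e8 e8').1 p0, ← map_mul, ← Fd _ _ _ f1, g1]
  have ab8 : P x a8 = P x b8 := by
    have h := z1.trans z2.symm
    rw [Fd _ _ _ f1, Fd _ _ _ f2] at h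
    exact mul_left_cancel h
  -- the arm of `x 11`
  have z3 : P x c3 ^ 9 = 1 := n2 _ g2 (Q _ q3)
  have z4 : P x c4 ^ 9 = 1 := by
    refine n2 _ ?_ (Q _ q4)
    rw [Fd _ _ _ f4, map_mul, (Ex 11 _ _ _ e11 e11').1 p0, ← map_mul, ← Fd _ _ _ f3, g2]
  have ab11 : P x b11 = P x a11 := by
    have h := z4.trans z3.symm
    rw [Fd _ _ _ f3, Fd _ _ _ f4] at h
    exact mul_left_cancel h
  -- the arm of `x 2`
  have key : ∀ c : List ℕ, (∀ i ∈ c, i ∈ [2, 3, 4, 5, 6, 7, 9, 10]) → chk (pw c 9 ++ pw c 9) [] = true →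
      π φ = π (P x c ^ 9) → φ = P x c ^ 9 := by
    intro c hc hq hp
    have hcm : Commute φ (P x c ^ 9) := (comm_P c fun i hi => hφc i (hc i hi)).pow_right 9
    have h := n2 (φ * P x c ^ 9) (by rw [map_mul, hp, ← map_mul, Q c hq, map_one]) (by
      calc φ * P x c ^ 9 * (φ * P x c ^ 9) = φ * (P x c ^ 9 * φ) * P x c ^ 9 := by simp only [mul_assoc]
        _ = (φ * φ) * (P x c ^ 9 * P x c ^ 9) := by rw [← hcm.eq]; simp only [mul_assoc]
        _ = 1 := by rw [hφ2, Q c hq, one_mul])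
    exact mul_right_cancel (h.trans (Q c hq).symm)
  have z5 := key c5 (by decide) q5 hφπ
  have z6 := key c6 (by decide) q6 (by
    rw [hφπ, Fd _ _ _ f5, Fd _ _ _ f6, map_mul, map_mul, (Ex 2 _ _ _ e2 e2').1 p0])
  have ab2 : P x b2 = P x a2 := by
    have h := z6.symm.trans z5
    rw [Fd _ _ _ f5, Fd _ _ _ f6] at h
    exact mul_left_cancel h
  -- the translations
  have hT : P x tT ^ 3 = 1 := by
    have h := we _ _ k12
    rw [P_append, P_append, P_append, P_single, ab8] at h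
    have h' := we _ _ k8
    rw [P_pw, P_append, P_single, P_nil] at h'
    have h2 : P x tT = P x wD * (P x b8 * x 10) * (P x wD)⁻¹ := by rw [h, mul_inv_cancel_right]
    rw [h2, conj_pow, h', mul_one, mul_inv_cancel]
  have ci : ∀ (i : ℕ) (g : List ℕ), x i * x i = 1 →
      chk ([i] ++ (s0 ++ ([i] ++ g))) (s0 ++ (g ++ pw tT 3)) = true → Commute (P x s0) (x i) := by
    intro i g hi hk
    have h := we _ _ hk
    rw [P_append, P_append, P_append, P_append, P_append, P_pw, P_single, hT, mul_one, ← mul_assoc,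
      ← mul_assoc] at h
    have h2 := mul_right_cancel h
    calc P x s0 * x i = (x i * x i) * P x s0 * x i := by rw [hi, one_mul]
      _ = x i * (x i * P x s0 * x i) := by simp only [mul_assoc]
      _ = x i * P x s0 := by rw [h2]
  have c3' := ci 3 g3 s3 k3
  have c7' := ci 7 g7 s7 k7
  have cc : ∀ i ∈ [1, 4, 5, 6, 9, 10], Commute (P x s0) (x i) := by
    intro i hi
    have h := we _ _ (kc i hi)
    rw [P_append, P_append, P_single] at h
    exact h
  have hs0 : P x sW ^ 10 = P x s0 := by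
    rw [e14, hT, one_mul, s9, mul_one, c3'.eq, ← mul_assoc, s3, one_mul]
  refine ⟨fun i h1 h11 => ?_, z1, z3⟩
  rw [hs0]
  interval_cases i
  · exact cc 1 (by decide)
  · exact (Ex 2 _ _ _ e2 e2').2 ab2
  · exact c3'
  · exact cc 4 (by decide)
  · exact cc 5 (by decide)
  · exact cc 6 (by decide)
  · exact c7'
  · exact (Ex 8 _ _ _ e8 e8').2 ab8
  · exact cc 9 (by decide)
  · exact cc 10 (by decide)
  · exact (Ex 11 _ _ _ e11 e11').2 ab11

end Cfsg.Agent.B5591.Spider3
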