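import Cfsg.Agent.H863.SAsm
import Cfsg.Agent.B5591.Spider3
import Cfsg.Agent.B5591.CocC

/-!
# S5591: from Coxeter lifts to a section over the Baby Monster (box SPLIT, part B)

Valid for every module without `2`-torsion on which the Baby Monster fixes no non-zero vector.
-/

set_option autoImplicit false

namespace Cfsg.Agent.B5591.Sp

open Cfsg Cfsg.Spor Cfsg.Spor.BabyMonster
open Cfsg.Agent.H863.SExt Cfsg.Agent.H863.SAsm

variable {F V G : Type*} [Field F] [AddCommGroup V] [Module F V] [Group G] {σ : G →* Module.End F V}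
  {E : Type*} [Group E] (X : Ext σ E)

theorem gen_surj (t : Gen) : ∃ i, 1 ≤ i ∧ i ≤ 11 ∧ gen i = t := by
  cases t
  exacts [⟨1, by decide, by decide, rfl⟩, ⟨2, by decide, by decide, rfl⟩, ⟨3, by decide, by decide, rfl⟩,
    ⟨4, by decide, by decide, rfl⟩, ⟨5, by decide, by decide, rfl⟩, ⟨6, by decide, by decide, rfl⟩,
    ⟨7, by decide, by decide, rfl⟩, ⟨8, by decide, by decide, rfl⟩, ⟨9, by decide, by decide, rfl⟩,
    ⟨10, by decide, by decide, rfl⟩, ⟨11, by decide, by decide, rfl⟩]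

/-- All relators of the Baby Monster hold for Coxeter lifts. -/
theorem rel_of_cox (h2 : (2 : F) ≠ 0) (θ : BabyMonster →* G) (y : Gen → E)
    (hπ : ∀ t, X.π (y t) = θ (PresentedGroup.of t))
    (hcox : ∀ a b, (y a * y b) ^ coxLabel edges a b = 1)
    (φ : E) (hφ2 : φ * φ = 1)
    (hφc : ∀ t ∈ [Gen.t2, .t3, .t4, .t5, .t6, .t7, .t9, .t10], φ * y t = y t * φ)
    (hφπ : X.π φ = X.π ((y .t5 * y .t4 * y .t3 * y .t2 * y .t6 * y .t7 * y .t9) ^ 9))
    (h0 : ∀ v : V, (∀ t, σ (θ (PresentedGroup.of t)) v = v) → v = 0) :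
    ∀ r ∈ coxRelators BabyMonster.edges ∪ {r | r ∈ BabyMonster.extra}, FreeGroup.lift y r = 1 := by
  have hsq : ∀ t, y t * y t = 1 := fun t => by
    have h := hcox t t
    have e : coxLabel edges t t = 1 := if_pos rfl
    rwa [e, pow_one] at h
  have hl : ∀ r : FreeGroup Gen, X.π (FreeGroup.lift y r) =
      θ (PresentedGroup.mk (coxRelators BabyMonster.edges ∪ {r | r ∈ BabyMonster.extra}) r) := by
    intro r
    have e : X.π.comp (FreeGroup.lift y) =
        θ.comp (PresentedGroup.mk (coxRelators BabyMonster.edges ∪ {r | r ∈ BabyMonster.extra})) := by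
      ext t
      show X.π (FreeGroup.lift y (FreeGroup.of t)) = _
      rw [FreeGroup.lift_apply_of, hπ]
      rfl
    exact DFunLike.congr_fun e r
  have hx : ∀ r ∈ BabyMonster.extra, X.π (FreeGroup.lift y r) = 1 := by
    intro r hr
    rw [hl, PresentedGroup.one_of_mem (Or.inr hr), map_one]
  have g0 := hx _ (List.mem_cons_self)
  have g1 := hx _ (List.mem_cons_of_mem _ List.mem_cons_self)
  have g2 := hx _ (List.mem_cons_of_mem _ (List.mem_cons_of_mem _ List.mem_cons_self))
  rw [map_pow (FreeGroup.lift y)] at g0 g1 g2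
  simp only [map_mul (FreeGroup.lift y), FreeGroup.lift_apply_of] at g0 g1 g2
  obtain ⟨k0, k2, k3⟩ := Spider3.central X.π (fun i => y (gen i)) (fun i _ _ => hsq _)
    (fun i j h1 h4 h5 h6 => comm_of_two (hsq _) (hsq _) (by
      have := hcox (gen i) (gen j)
      rwa [lab2 i (by omega) j (by omega) h4 h1 h6] at this))
    (fun i j h => braid_of_three (hsq _) (hsq _) (by
      have := hcox (gen i) (gen j)
      rwa [lab3 (i, j) h] at this))
    (fun a ha haa => by
      obtain ⟨u, rfl⟩ := X.ker a ha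
      rw [← X.j_add, ← X.j_zero] at haa
      have h1 := X.j_inj haa
      rw [← two_smul F] at h1
      rw [(smul_eq_zero.1 h1).resolve_left h2, X.j_zero])
    g0 g1 g2 φ hφ2
    (by
      intro i hi
      simp only [List.mem_cons, List.not_mem_nil, or_false] at hi
      rcases hi with rfl | rfl | rfl | rfl | rfl | rfl | rfl | rfl
      all_goals exact hφc _ (by decide))
    hφπ
  have k1 : (y .t5 * y .t4 * y .t3 * y .t5 * y .t6 * y .t7 * y .t5 * y .t9 * y .t10) ^ 10 = 1 := by
    obtain ⟨v, hv⟩ := X.ker _ g0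
    have h1 : v = 0 := by
      apply h0
      intro t
      obtain ⟨i, hi1, hi2, rfl⟩ := gen_surj t
      have h3 : Commute ((y .t5 * y .t4 * y .t3 * y .t5 * y .t6 * y .t7 * y .t5 * y .t9 * y .t10) ^ 10)
        (y (gen i)) := k0 i hi1 hi2
      rw [hv] at h3
      rw [← hπ]
      exact fixed_of_j_comm h3.symm.eq
    rw [hv, h1, X.j_zero]
  rintro r (⟨a, -, b, -, rfl⟩ | hr)
  · rw [map_pow, map_mul, FreeGroup.lift_apply_of, FreeGroup.lift_apply_of]
    exact hcox a b
  · have hr' : r ∈ BabyMonster.extra := hr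
    unfold BabyMonster.extra at hr'
    simp only [List.mem_cons, List.not_mem_nil, or_false] at hr'
    rcases hr' with rfl | rfl | rfl
    · simpa only [map_pow, map_mul, FreeGroup.lift_apply_of] using k1
    · simpa only [map_pow, map_mul, FreeGroup.lift_apply_of, gen] using k2
    · simpa only [map_pow, map_mul, FreeGroup.lift_apply_of, gen] using k3

/-- A section over the Baby Monster from Coxeter lifts. -/
theorem sec_of_cox (h2 : (2 : F) ≠ 0) (θ : BabyMonster →* G) (y : Gen → E)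
    (hπ : ∀ t, X.π (y t) = θ (PresentedGroup.of t))
    (hcox : ∀ a b, (y a * y b) ^ coxLabel edges a b = 1)
    (φ : E) (hφ2 : φ * φ = 1)
    (hφc : ∀ t ∈ [Gen.t2, .t3, .t4, .t5, .t6, .t7, .t9, .t10], φ * y t = y t * φ)
    (hφπ : X.π φ = X.π ((y .t5 * y .t4 * y .t3 * y .t2 * y .t6 * y .t7 * y .t9) ^ 9))
    (h0 : ∀ v : V, (∀ t, σ (θ (PresentedGroup.of t)) v = v) → v = 0) :
    ∃ s : BabyMonster →* E, ∀ g, X.π (s g) = θ g := by
  let s : BabyMonster →* E := PresentedGroup.toGroup (rel_of_cox X h2 θ y hπ hcox φ hφ2 hφc hφπ h0)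
  have hs : ∀ t : Gen, s (PresentedGroup.of t) = y t := fun t => PresentedGroup.toGroup.of _
  refine ⟨s, fun g => ?_⟩
  have h4 : X.π.comp s = θ := by
    apply PresentedGroup.ext
    intro t
    show X.π (s (PresentedGroup.of t)) = θ (PresentedGroup.of t)
    rw [hs, hπ]
  exact DFunLike.congr_fun h4 g

/-- The same, as a splitting over the whole group when `θ` is onto. -/
theorem spl_of_sec (θ : BabyMonster ≃* G) {s : BabyMonster →* E} (hs : ∀ g, X.π (s g) = θ g) : Spl X ⊤ := by
  refine ⟨s.range, ?_, ?_⟩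
  · rintro _ ⟨g, rfl⟩ h
    rw [hs, map_eq_one_iff _ θ.injective] at h
    rw [h, map_one]
  · rw [eq_top_iff]
    intro g _
    exact ⟨s (θ.symm g), ⟨_, rfl⟩, by rw [hs, MulEquiv.apply_symm_apply]⟩

end Cfsg.Agent.B5591.Sp
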