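import Cfsg.Agent.B5591.SylR0
import Cfsg.Agent.B5591.LocAbs
import Cfsg.Agent.H863.BTI

/-!
# S5591: the boxes `BoxSyl` and `BoxR`
-/

set_option autoImplicit false

namespace Cfsg.Agent.B5591.Geo

open Cfsg Cfsg.Agent.Leech Cfsg.Agent.Leech.Code Cfsg.Agent.Leech.Basic Cfsg.Agent.Leech.Co0Elts
open Cfsg.Agent.Leech.Min Cfsg.Agent.Leech.Trans Cfsg.Agent.Leech.TransPair
open Cfsg.Agent.BabyM.Co2Gen Cfsg.Agent.BabyM.Co2GenStd Cfsg.Agent.SporadicA
open Cfsg.Agent.Monster Cfsg.Agent.Monster.VecEngine Cfsg.Agent.Monster.VecSpace Cfsg.Agent.Monster.PauliBasic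
open Cfsg.Agent.BabyM.Conc Cfsg.Agent.BabyM Cfsg.Agent.H863 Cfsg.Agent.H863.BRep Cfsg.Agent.H863.BVec
open Cfsg.Agent.BabyM.ThetaInst Cfsg.Agent.BabyM.ThetaHom
open Cfsg.Agent.BabyM.NbAct (w₀)

/-! ### The vector of the frame -/

theorem pt_ne {k : ℕ} (h0 : k ≠ 0) (hk : k < 23) : GolayBase.pt k ≠ none ∧ GolayBase.pt k ≠ some 0 := by
  constructor
  · intro h
    have h1 := congrArg GolayBase.idx h
    rw [GolayBase.idx_pt (by omega), idx_none] at h1
    omega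
  · intro h
    have h1 := congrArg GolayBase.idx h
    rw [GolayBase.idx_pt (by omega), idx_zero] at h1
    omega

theorem θ_w₀ : θ w₀ = (4 : ℚ) • b 0 := by
  unfold θ
  rw [Finset.sum_eq_single 0]
  · rw [coef_zero]
    congr 1
    show (((two none (some 0) 4 4 none : ℤ) : ℚ) + ((two none (some 0) 4 4 (some 0) : ℤ) : ℚ)) / 2 = 4
    rw [two_left, two_right hne]
    norm_num
  · intro k hk h0
    rw [Finset.mem_range] at hk
    rw [coef_pos h0]
    have h1 : (w₀ : GolayPt → ℤ) (GolayBase.pt k) = 0 := two_other (pt_ne h0 hk).1 (pt_ne h0 hk).2 _ _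
    rw [h1]
    simp
  · intro h
    exact absurd (Finset.mem_range.2 (by norm_num)) h

theorem b_eq {k : ℕ} (i : Lane U) (h : i.1 = 1344 + k) : b k = Pi.single i 1 := by
  funext j
  rw [b_apply, Pi.single_apply]
  exact if_congr (by rw [← h]; exact Subtype.ext_iff.symm) rfl rfl

theorem tau_b0 : (gE .tau).1 (b 0) = b 0 := E_b chk_t_I

theorem tau_w₀ : (gE .tau).1 (θ w₀) = θ w₀ := by rw [θ_w₀, map_smul, tau_b0]

theorem R0_w₀ {g : G} (hg : g ∈ R0) : g.1 (θ w₀) = θ w₀ := by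
  obtain ⟨s, hs, h1, h2, h3⟩ := sgn_of_pm (R0_le_NN hg) (pm_of_R0 hg)
  rw [h3.2, NbAct.sgn_w₀ hs h1 h2]

theorem R0_b0 {g : G} (hg : g ∈ R0) : g.1 (b 0) = b 0 := by
  have h := R0_w₀ hg
  rw [θ_w₀, map_smul] at h
  exact smul_right_injective _ (by norm_num : (4 : ℚ) ≠ 0) h

theorem QQ_conj {g x : G} (hg : g ∈ CC) (hx : x ∈ QQ) : g * x * g⁻¹ ∈ QQ :=
  mem_QQ.2 (Instance.all.grp.Q_normal g.1 hg x.1 (mem_QQ.1 hx))

/-! ### `N0 ≤ NN` -/

theorem tau_y {l : Ltr} {k : ℕ} (h : yIdx l = some k) : (gE .tau)⁻¹ * gE l * gE .tau ∈ QQ := by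
  rw [mem_QQ]
  show τ⁻¹ * E l * τ ∈ Q
  cases l
  case y1 => rw [ConcGrp.conj_of' ConcRelT.taui_y1]; exact ConcGrp.W_mem_Q rfl
  case y2 => rw [ConcGrp.conj_of' ConcRelT.taui_y2]; exact ConcGrp.W_mem_Q rfl
  case y3 => rw [ConcGrp.conj_of' ConcRelT.taui_y3]; exact ConcGrp.W_mem_Q rfl
  case y4 => rw [ConcGrp.conj_of' ConcRelT.taui_y4]; exact ConcGrp.W_mem_Q rfl
  case y5 => rw [ConcGrp.conj_of' ConcRelT.taui_y5]; exact ConcGrp.W_mem_Q rfl
  case y6 => rw [ConcGrp.conj_of' ConcRelT.taui_y6]; exact ConcGrp.W_mem_Q rfl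
  case y7 => rw [ConcGrp.conj_of' ConcRelT.taui_y7]; exact ConcGrp.W_mem_Q rfl
  case y8 => rw [ConcGrp.conj_of' ConcRelT.taui_y8]; exact ConcGrp.W_mem_Q rfl
  case y9 => rw [ConcGrp.conj_of' ConcRelT.taui_y9]; exact ConcGrp.W_mem_Q rfl
  case y10 => rw [ConcGrp.conj_of' ConcRelT.taui_y10]; exact ConcGrp.W_mem_Q rfl
  all_goals exact absurd h (by simp [yIdx])

theorem exists_y (k : ℕ) (hk : k < 10) :
    ∃ l ∈ [Ltr.y1, .y2, .y3, .y4, .y5, .y6, .y7, .y8, .y9, .y10], yIdx l = some k := by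
  interval_cases k
  · exact ⟨.y1, by simp, rfl⟩
  · exact ⟨.y2, by simp, rfl⟩
  · exact ⟨.y3, by simp, rfl⟩
  · exact ⟨.y4, by simp, rfl⟩
  · exact ⟨.y5, by simp, rfl⟩
  · exact ⟨.y6, by simp, rfl⟩
  · exact ⟨.y7, by simp, rfl⟩
  · exact ⟨.y8, by simp, rfl⟩
  · exact ⟨.y9, by simp, rfl⟩
  · exact ⟨.y10, by simp, rfl⟩

theorem dMask_cover : ∀ j < 23, j ≠ 0 → ∃ k < 10, (dMask k).testBit j = true := by decide +kernel

theorem N0_zz {g : G} (hg : g ∈ N0) : g * gE .z = gE .z * g :=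
  (Subgroup.mem_centralizer_iff.1 hg zz (Set.mem_insert _ _)).symm

theorem N0_pp {g : G} (hg : g ∈ N0) : g * gE .Z10 = gE .Z10 * g :=
  (Subgroup.mem_centralizer_iff.1 hg pp (Set.mem_insert_of_mem _ rfl)).symm

theorem N0_le_CC : N0 ≤ CC := fun _ hg => BGrp.cent (N0_zz hg)

theorem N0_tau {g : G} (hg : g ∈ N0) : (gE .tau)⁻¹ * g * gE .tau ∈ CC := by
  apply BGrp.cent
  calc (gE .tau)⁻¹ * g * gE .tau * gE .z = (gE .tau)⁻¹ * g * (gE .tau * gE .z) := by group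
    _ = (gE .tau)⁻¹ * (g * gE .Z10) * gE .tau := by rw [BGrp.tz]; group
    _ = (gE .tau)⁻¹ * (gE .Z10 * gE .tau) * ((gE .tau)⁻¹ * g * gE .tau) := by rw [N0_pp hg]; group
    _ = gE .z * ((gE .tau)⁻¹ * g * gE .tau) := by rw [← BGrp.tz]; group

theorem y_fix {g : G} (hg : g ∈ N0) {l : Ltr} {k : ℕ} (h : yIdx l = some k) :
    (gE l).1 (g.1 (θ w₀)) = g.1 (θ w₀) := by
  have h1 := QQ_conj (inv_mem (N0_tau hg)) (tau_y h)
  have h2 := R0_w₀ (QQ_le_R0 h1)
  have e : gE l * g * gE .tau = g * gE .tau *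
      (((gE .tau)⁻¹ * g * gE .tau)⁻¹ * ((gE .tau)⁻¹ * gE l * gE .tau) * ((gE .tau)⁻¹ * g * gE .tau)⁻¹⁻¹) := by
    group
  have h3 : (gE l * g * gE .tau).1 (θ w₀) = (gE l).1 (g.1 ((gE .tau).1 (θ w₀))) := rfl
  rw [tau_w₀] at h3
  have h4 : ∀ a b : G, ∀ v : V, (a * b).1 v = a.1 (b.1 v) := fun _ _ _ => rfl
  rw [← h3, e, h4, h2, h4, tau_w₀]

/-- **The centraliser of the line lies in `NN`.** -/
theorem N0_le_NN : N0 ≤ NN := by
  intro g hg
  obtain ⟨c, hc⟩ := rel_C g.1 (N0_le_CC hg)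
  refine ThetaN.mem_N_of (GroupInst.ker_rel KLink.link) (N0_le_CC hg) ⟨hc.1, ?_⟩ hc
  have hz : ∀ x : GolayPt, x ≠ none → x ≠ some 0 → ((c • w₀ : leechLattice) : GolayPt → ℤ) x = 0 := by
    intro x h1 h2
    have h3 : GolayBase.idx x ≠ 23 := fun h => h1 (GolayBase.idx_injective h)
    have h4 : GolayBase.idx x ≠ 0 := fun h => h2 (GolayBase.idx_injective h)
    have h5 := GolayBase.idx_lt x
    obtain ⟨k, hk, h6⟩ := dMask_cover _ (by omega) h4
    obtain ⟨l, -, hl⟩ := exists_y k hk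
    have h7 := y_fix hg hl
    have hy := rel_y hl
    rw [hc.2] at h7
    have h8 : sgn _ (fin_dMask_mem k (yIdx_lt hl)) • c • w₀ = c • w₀ := by
      apply θ_inj
      · rw [← hy.2]
        exact h7
      · have h9 := dotInt_smul (sgn _ (fin_dMask_mem k (yIdx_lt hl))) l₀ (c • w₀)
        rw [hy.1] at h9
        exact h9
    have h9 := congrFun (congrArg Subtype.val h8) x
    rw [sgn_coe, sgnMap_apply, if_pos (GolayBase.mem_fin.2 h6)] at h9
    omega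
  have hd : ((c • w₀ : leechLattice) : GolayPt → ℤ) none = ((c • w₀ : leechLattice) : GolayPt → ℤ) (some 0) := by
    have h1 := dotInt_smul c l₀ w₀
    rw [hc.1, dot_v0, dot_v0] at h1
    have h2 : (w₀ : GolayPt → ℤ) none = 4 := two_left none (some 0) 4 4
    have h3 : (w₀ : GolayPt → ℤ) (some 0) = 4 := two_right hne 4 4
    rw [h2, h3] at h1
    omega
  have hn : sqNorm ((c • w₀ : leechLattice) : GolayPt → ℤ) = 32 := by
    rw [sqNorm_smul]
    exact sqNorm_lv _ _ _ _ _ _ _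
  unfold sqNorm at hn
  rw [Finset.sum_eq_add none (some 0) hne (fun i _ hi => by rw [hz i hi.1 hi.2]; rfl)
    (fun h => absurd (Finset.mem_univ _) h) (fun h => absurd (Finset.mem_univ _) h), ← hd] at hn
  have key : ∀ a : ℤ, ((c • w₀ : leechLattice) : GolayPt → ℤ) none = a →
      ((c • w₀ : leechLattice) : GolayPt → ℤ) = two none (some 0) a a := by
    intro a ha
    funext x
    by_cases h1 : x = none
    · rw [h1, two_left, ha]
    · by_cases h2 : x = some 0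
      · rw [h2, two_right hne, ← hd, ha]
      · rw [two_other h1 h2, hz x h1 h2]
  have h4 : ((c • w₀ : leechLattice) : GolayPt → ℤ) none ^ 2 = 4 ^ 2 := by omega
  rcases sq_eq_sq_iff_eq_or_eq_neg.1 h4 with h5 | h5
  · exact Or.inl (Subtype.ext (key _ h5))
  · right
    rw [← neg_lv hne]
    exact Subtype.ext (key _ h5)

theorem boxSyl : BoxSyl := ⟨N0_le_NN, NN_27⟩

/-! ### The fixed points of `R0` on the module -/

theorem R0_wV {g : G} (hg : g ∈ R0) : σV g wV = wV := by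
  have h1 := R0_b0 hg
  rw [b_eq bI rfl] at h1
  have h2 := tr_mono two_ne (g := g) (i := bI) (j := bI) (s := 0) (by rw [sg_zero, one_smul]; exact h1)
  rw [sg_zero, one_smul] at h2
  exact h2

theorem y_A (j : Fin 22) : ∃ g ∈ R0, σV g (Pi.single (bA j) 1) = -Pi.single (bA j) 1 := by
  obtain ⟨k, hk, h6⟩ := dMask_cover (j.1 + 1) (by omega) (by omega)
  obtain ⟨l, hl', hl⟩ := exists_y k hk
  refine ⟨gE l, gE_mem_R0 hl', ?_⟩
  have h1 := E_b (y_check l (dMask k) (by rw [hl]; rfl) (j.1 + 1) (by omega))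
  rw [res_eq, if_pos h6, id, b_eq (bA j) rfl] at h1
  have h2 := tr_mono two_ne (g := gE l) (i := bA j) (j := bA j) (s := 1) (by rw [sg_one]; exact h1)
  rw [sg_one, neg_one_smul] at h2
  exact h2

theorem R0_fixed {v : V3} (h : ∀ g ∈ R0, σV g v = v) : v = v bI • wV := by
  have hU : v ∈ BE.U (BInst.M two_ne) := (BE.mem_U _).2 fun x => h (r x) (QQ_le_R0 ⟨x, rfl⟩)
  funext i
  rw [Pi.smul_apply, smul_eq_mul]
  by_cases hi : i = bI
  · rw [hi]
    show _ = _ * (Pi.single bI (1 : F3) : V3) bI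
    rw [Pi.single_eq_same, mul_one]
  · have h0 : wV i = 0 := Pi.single_eq_of_ne hi _
    rw [h0, mul_zero]
    by_cases hu : KTab.Cd.isU i
    · rcases BTI.U_cases i hu with h1 | ⟨j, rfl⟩
      · exact absurd h1 hi
      · obtain ⟨g, hg, h2⟩ := y_A j
        have h3 := dot_inv g v (Pi.single (bA j) 1)
        rw [h g hg, h2, dotW_comm, ← neg_one_smul F3, dotW_smul_left, dotW_comm, neg_one_mul] at h3
        have h4 := eq_zero_of_eq_neg3 h3.symm
        rw [dotW_single] at h4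
        exact (mul_eq_zero.1 h4).resolve_left (zpow_ne_zero _ two_ne)
    · exact hU i hu

theorem boxR : BoxR :=
  ⟨R0, R0_three, R0_le_NN, R0_norm, QQ_le_R0, fun _ h => gE_mem_R0 h, fun _ h => R0_wV h,
    fun v h => ⟨v bI, R0_fixed h⟩⟩

end Cfsg.Agent.B5591.Geo
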