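import Cfsg.Agent.B5591.LocDef
import Cfsg.Agent.BabyM.ThetaN
import Cfsg.Agent.H863.BGrp

/-!
# S5591: the permutation of the 24 points attached to an element of `NN`; its kernel is `R0`
-/

set_option autoImplicit false

namespace Cfsg.Agent.B5591.Geo

open Cfsg Cfsg.Agent.Leech Cfsg.Agent.Leech.Code Cfsg.Agent.Leech.Basic Cfsg.Agent.Leech.Co0Elts
open Cfsg.Agent.Leech.Min Cfsg.Agent.Leech.Trans Cfsg.Agent.Leech.TransPair
open Cfsg.Agent.BabyM.Co2Gen Cfsg.Agent.BabyM.Co2GenStd Cfsg.Agent.SporadicA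
open Cfsg.Agent.BabyM.Conc Cfsg.Agent.BabyM Cfsg.Agent.H863.BRep
open Cfsg.Agent.BabyM.ThetaInst Cfsg.Agent.BabyM.ThetaHom
open Cfsg.Agent.Leech.FrameAux (e8 coe_e8)
open Cfsg.Agent.BabyM.NbAct (w₀ pPerm hPerm pPerm_tab hPerm_tab)

/-! ### Monomial elements of `Co0` -/

/-- `c` is monomial with permutation `σ`. -/
def Mono (c : Co0) (σ : Equiv.Perm GolayPt) : Prop :=
  ∀ (v : leechLattice) (x : GolayPt),
    ((c • v : leechLattice) : GolayPt → ℤ) (σ x) ^ 2 = (v : GolayPt → ℤ) x ^ 2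

theorem Mono.one : Mono 1 1 := fun v x => by rw [one_smul]; rfl

theorem Mono.mul {c d : Co0} {σ τ : Equiv.Perm GolayPt} (h : Mono c σ) (h' : Mono d τ) :
    Mono (c * d) (σ * τ) := fun v x => by
  rw [mul_smul, Equiv.Perm.mul_apply, h, h']

theorem Mono.inv {c : Co0} {σ : Equiv.Perm GolayPt} (h : Mono c σ) : Mono c⁻¹ σ⁻¹ := fun v x => by
  have h1 := h (c⁻¹ • v) (σ⁻¹ x)
  rw [smul_inv_smul, show σ (σ⁻¹ x) = x from σ.apply_symm_apply x] at h1
  exact h1.symm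

theorem Mono.unique {c : Co0} {σ τ : Equiv.Perm GolayPt} (h : Mono c σ) (h' : Mono c τ) : σ = τ := by
  apply Equiv.ext
  intro x
  have h1 := h (e8 x) x
  have h2 := h' (e8 x) (τ⁻¹ (σ x))
  rw [show τ (τ⁻¹ (σ x)) = σ x from τ.apply_symm_apply _, h1, coe_e8, Pi.single_eq_same] at h2
  by_contra hne'
  rw [Pi.single_eq_of_ne] at h2
  · exact absurd h2 (by norm_num)
  · intro h3
    apply hne'
    rw [Equiv.Perm.inv_eq_iff_eq] at h3
    exact h3

theorem mono_sgn (s : Finset GolayPt) (hs : s ∈ Words) : Mono (sgn s hs) 1 := fun v x => by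
  rw [sgn_coe, sgnMap_apply, Equiv.Perm.one_apply]
  split_ifs
  · exact neg_sq _
  · rfl

theorem mono_perm (σ : Equiv.Perm GolayPt) (hσ : σ ∈ M24) : Mono (Co0Elts.perm σ hσ) σ := fun v x => by
  rw [perm_coe, permMap_apply, Equiv.symm_apply_apply]

/-- A monomial element of the frame stabiliser with trivial permutation is a sign change. -/
theorem Mono.sgn_of {c : Co0} (hc : c ∈ NbAct.NN) (h : Mono c 1) :
    ∃ (s : Finset GolayPt) (hs : s ∈ Words), none ∉ s ∧ some 0 ∉ s ∧ c = sgn s hs := by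
  obtain ⟨h1, h2 | h2⟩ := hc
  · obtain ⟨σ, hσ, s, hs, -, -, h3, h4, e⟩ := exists_monomial_of_fix c h1 h2
    have h5 : Mono c (1 * σ) := by
      rw [e]
      exact (mono_sgn s hs).mul (mono_perm σ hσ)
    have h6 : σ = 1 := by
      have := h5.unique h
      rwa [one_mul] at this
    subst h6
    exact ⟨s, hs, h3, h4, by rw [e, perm_one, mul_one]⟩
  · exfalso
    have h3 := h (e8 none) none
    rw [e8_left hne, smul_add_co0, h1, h2] at h3
    revert h3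
    show ¬ (two none (some 0) 4 (-4) none + -two none (some 0) 4 4 none) ^ 2 =
      (two none (some 0) 4 (-4) none + two none (some 0) 4 4 none) ^ 2
    rw [two_left, two_left]
    norm_num

/-! ### The permutation of an element of `G` -/

/-- `g` acts on the head as a monomial element with permutation `σ`. -/
def Pm (g : G) (σ : Equiv.Perm GolayPt) : Prop := ∃ c : Co0, Rel g.1 c ∧ Mono c σ

theorem Pm.one : Pm 1 1 := ⟨1, Rel.one, Mono.one⟩

theorem Pm.mul {g g' : G} {σ τ : Equiv.Perm GolayPt} (h : Pm g σ) (h' : Pm g' τ) : Pm (g * g') (σ * τ) := by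
  obtain ⟨c, h1, h2⟩ := h
  obtain ⟨d, h3, h4⟩ := h'
  exact ⟨c * d, h1.mul h3, h2.mul h4⟩

theorem Pm.inv {g : G} {σ : Equiv.Perm GolayPt} (h : Pm g σ) : Pm g⁻¹ σ⁻¹ := by
  obtain ⟨c, h1, h2⟩ := h
  exact ⟨c⁻¹, h1.inv, h2.inv⟩

theorem Pm.unique {g : G} {σ τ : Equiv.Perm GolayPt} (h : Pm g σ) (h' : Pm g τ) : σ = τ := by
  obtain ⟨c, h1, h2⟩ := h
  obtain ⟨d, h3, h4⟩ := h'
  rw [← h1.unique h3] at h4
  exact h2.unique h4

theorem mem_NN {g : G} : g ∈ NN ↔ g.1 ∈ CertInv.N := Iff.rfl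

theorem mem_QQ {g : G} : g ∈ QQ ↔ g.1 ∈ Q := by
  rw [KQ.Q_eq]
  constructor
  · rintro ⟨x, rfl⟩
    exact ⟨x, rfl⟩
  · rintro ⟨x, hx⟩
    exact ⟨x, Subtype.ext hx⟩

theorem QQ_le_NN : QQ ≤ NN := fun _ h => CertInv.Q_le_N (mem_QQ.1 h)

theorem NN_le_CC : NN ≤ CC := fun _ h => CertInv.N_le_C h

theorem gE_mem_NN {l : Ltr} (h : CertVec.isN l = true) : gE l ∈ NN := CertInv.E_mem_N h

theorem gW_mem_NN {w : List Ltr} (h : w.all CertVec.isN = true) : gW w ∈ NN := CertInv.W_mem_N h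

theorem rel_of_QQ {g : G} (h : g ∈ QQ) : Rel g.1 1 :=
  (GroupInst.rel_iff KLink.link (NN_le_CC (QQ_le_NN h))).2 (mem_QQ.1 h)

theorem QQ_of_rel {g : G} (hg : g ∈ CC) (h : Rel g.1 1) : g ∈ QQ :=
  mem_QQ.2 ((GroupInst.rel_iff KLink.link hg).1 h)

theorem pm_Q {g : G} (h : g ∈ QQ) : Pm g 1 := ⟨1, rel_of_QQ h, Mono.one⟩

theorem pm_y {l : Ltr} {k : ℕ} (h : yIdx l = some k) : Pm (gE l) 1 := ⟨_, rel_y h, mono_sgn _ _⟩

theorem pm_p : Pm (gE .p) pPerm := ⟨_, rel_p, mono_perm _ _⟩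

theorem pm_h : Pm (gE .h) hPerm := by
  refine ⟨_, rel_h, ?_⟩
  have h1 := (mono_sgn Finset.univ univ_mem).mul (mono_perm hPerm (DuadGen.h_mem hPerm_tab))
  rw [one_mul] at h1
  exact h1

theorem pPerm_mem : pPerm ∈ DuadGen.duad :=
  DuadGen.closure_le pPerm_tab hPerm_tab (Subgroup.subset_closure (Or.inl rfl))

theorem hPerm_mem : hPerm ∈ DuadGen.duad :=
  DuadGen.closure_le pPerm_tab hPerm_tab (Subgroup.subset_closure (Or.inr rfl))

/-- Induction over the letters of `NN`. -/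
theorem NN_ind {P : G → Prop} (hl : ∀ l, CertVec.isN l = true → P (gE l)) (h1 : P 1)
    (hm : ∀ a b, a ∈ NN → b ∈ NN → P a → P b → P (a * b)) (hi : ∀ a, a ∈ NN → P a → P a⁻¹) {g : G}
    (hg : g ∈ NN) : P g := by
  have key : ∀ (a : V ≃ₗ[ℚ] V) (ha : a ∈ CertInv.N), P ⟨a, InstMem.C_le_G (CertInv.N_le_C ha)⟩ := by
    intro a ha
    induction ha using Subgroup.closure_induction with
    | mem a ha =>
      obtain ⟨l, h, rfl⟩ := ha
      exact hl l h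
    | one => exact h1
    | mul a b ha hb iha ihb => exact hm _ _ ha hb iha ihb
    | inv a ha ih => exact hi _ ha ih
  exact key g.1 hg

theorem exists_pm {g : G} (hg : g ∈ NN) : ∃ σ ∈ DuadGen.duad, Pm g σ := by
  refine NN_ind (P := fun g => ∃ σ ∈ DuadGen.duad, Pm g σ) ?_ ⟨1, one_mem _, Pm.one⟩ ?_ ?_ hg
  · intro l hl
    rcases ThetaN.cases_isN hl with ⟨h1, -⟩ | ⟨k, hk, -⟩ | rfl | rfl
    · exact ⟨1, one_mem _, 1, rel_Q h1, Mono.one⟩
    · exact ⟨1, one_mem _, pm_y hk⟩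
    · exact ⟨_, pPerm_mem, pm_p⟩
    · exact ⟨_, hPerm_mem, pm_h⟩
  · rintro a b - - ⟨σ, h1, h2⟩ ⟨τ, h3, h4⟩
    exact ⟨σ * τ, mul_mem h1 h3, h2.mul h4⟩
  · rintro a - ⟨σ, h1, h2⟩
    exact ⟨σ⁻¹, inv_mem h1, h2.inv⟩

/-! ### The kernel -/

theorem y_cases {l : Ltr} (h : l ∈ [Ltr.y1, .y2, .y3, .y4, .y5, .y6, .y7, .y8, .y9, .y10]) :
    CertVec.isN l = true ∧ ∃ k, yIdx l = some k := by
  simp only [List.mem_cons, List.not_mem_nil, or_false] at h
  rcases h with rfl | rfl | rfl | rfl | rfl | rfl | rfl | rfl | rfl | rfl <;> exact ⟨rfl, _, rfl⟩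

theorem R0_le {H : Subgroup G} (h1 : QQ ≤ H)
    (h2 : ∀ l ∈ [Ltr.y1, .y2, .y3, .y4, .y5, .y6, .y7, .y8, .y9, .y10], gE l ∈ H) : R0 ≤ H := by
  unfold R0
  rw [Subgroup.closure_le]
  rintro g (hg | ⟨l, hl, rfl⟩)
  · exact h1 hg
  · exact h2 l hl

theorem R0_le_NN : R0 ≤ NN := R0_le QQ_le_NN fun _ hl => gE_mem_NN (y_cases hl).1

theorem pm_of_R0 {g : G} (hg : g ∈ R0) : Pm g 1 := by
  let H : Subgroup G :=
    { carrier := {g | Pm g 1}
      one_mem' := Pm.one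
      mul_mem' := fun ha hb => by
        have h := Pm.mul ha hb
        rwa [one_mul] at h
      inv_mem' := fun ha => by
        have h := Pm.inv ha
        rwa [inv_one] at h }
  refine R0_le (H := H) (fun _ h => pm_Q h) (fun l hl => ?_) hg
  obtain ⟨-, k, hk⟩ := y_cases hl
  exact pm_y hk

theorem exists_R0_sgn {s : Finset GolayPt} (hs : s ∈ Words) (h1 : none ∉ s) (h2 : some 0 ∉ s) :
    ∃ ρ ∈ R0, Rel ρ.1 (sgn s hs) := by
  let H : Subgroup Co0 :=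
    { carrier := {c | ∃ ρ ∈ R0, Rel ρ.1 c}
      one_mem' := ⟨1, one_mem _, Rel.one⟩
      mul_mem' := by
        rintro a b ⟨ρ, h1, h2⟩ ⟨ρ', h3, h4⟩
        exact ⟨ρ * ρ', mul_mem h1 h3, h2.mul h4⟩
      inv_mem' := by
        rintro a ⟨ρ, h1, h2⟩
        exact ⟨ρ⁻¹, inv_mem h1, h2.inv⟩ }
  refine sgn_mem_of (H := H) (fun k hk => ?_) hs h1 h2
  have : ∃ l ∈ [Ltr.y1, .y2, .y3, .y4, .y5, .y6, .y7, .y8, .y9, .y10], yIdx l = some k := by
    interval_cases k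
    · exact ⟨.y1, by simp, rfl⟩
    · exact ⟨.y2, by simp, rfl⟩
    · exact ⟨.y3, by simp, rfl⟩
    · exact ⟨.y4, by simp, rfl⟩
    · exact ⟨.y5, by simp, rfl⟩
    · exact ⟨.y6, by simp, rfl⟩
    · exact ⟨.y7, by simp, rfl⟩
    · exact ⟨.y8, by simp, rfl⟩
    · exact ⟨.y9, by simp, rfl⟩
    · exact ⟨.y10, by simp, rfl⟩
  obtain ⟨l, hl, hk'⟩ := this
  exact ⟨gE l, gE_mem_R0 hl, rel_y hk'⟩

theorem sgn_of_pm {g : G} (hg : g ∈ NN) (h : Pm g 1) :
    ∃ (s : Finset GolayPt) (hs : s ∈ Words), none ∉ s ∧ some 0 ∉ s ∧ Rel g.1 (sgn s hs) := by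
  obtain ⟨c, h1, h2⟩ := h
  obtain ⟨s, hs, h3, h4, rfl⟩ := h2.sgn_of (ThetaN.rel_NN hg h1)
  exact ⟨s, hs, h3, h4, h1⟩

theorem R0_of_pm {g : G} (hg : g ∈ NN) (h : Pm g 1) : g ∈ R0 := by
  obtain ⟨s, hs, h3, h4, h1⟩ := sgn_of_pm hg h
  obtain ⟨ρ, h5, h6⟩ := exists_R0_sgn hs h3 h4
  have h7 : g * ρ⁻¹ ∈ QQ := by
    apply QQ_of_rel (NN_le_CC (mul_mem hg (inv_mem (R0_le_NN h5))))
    have := h1.mul h6.inv
    rwa [mul_inv_cancel] at this
  have h8 := mul_mem (QQ_le_R0 h7) h5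
  rwa [inv_mul_cancel_right] at h8

theorem conj_mem_R0 {n g : G} (hn : n ∈ NN) (hg : g ∈ R0) : n * g * n⁻¹ ∈ R0 := by
  obtain ⟨σ, -, h⟩ := exists_pm hn
  apply R0_of_pm (mul_mem (mul_mem hn (R0_le_NN hg)) (inv_mem hn))
  have h1 := (h.mul (pm_of_R0 hg)).mul h.inv
  rwa [mul_one, mul_inv_cancel] at h1

/-- **`R0` is normal in `NN`.** -/
theorem R0_norm : NN ≤ Subgroup.normalizer (R0 : Set G) := by
  intro n hn
  rw [Subgroup.mem_normalizer_iff]
  intro g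
  refine ⟨conj_mem_R0 hn, fun h => ?_⟩
  have h1 := conj_mem_R0 (inv_mem hn) h
  have e : n⁻¹ * (n * g * n⁻¹) * n⁻¹⁻¹ = g := by group
  rwa [e] at h1

/-! ### Orders -/

theorem sgn_sq (s : Finset GolayPt) (hs : s ∈ Words) : sgn s hs * sgn s hs = 1 := by
  apply Cfsg.Agent.Leech.FrameAux.co0_ext
  intro v
  rw [mul_smul, sgn_coe, sgn_coe, sgnMap_sgnMap, one_smul]

theorem QQ_pow {g : G} (h : g ∈ QQ) : g ^ 4 = 1 := by
  have h1 := Instance.all.grp.Q_sq g.1 (mem_QQ.1 h)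
  have h2 : g * g = 1 ∨ g * g = gE .z := h1.imp (fun h => Subtype.ext h) (fun h => Subtype.ext h)
  have e : g ^ 4 = (g * g) * (g * g) := by
    rw [show (4 : ℕ) = 1 + 1 + 1 + 1 from rfl, pow_succ, pow_succ, pow_succ, pow_one, mul_assoc]
  rcases h2 with h2 | h2
  · rw [e, h2, one_mul]
  · rw [e, h2, H863.BGrp.z_sq]

theorem R0_pow {g : G} (h : g ∈ R0) : g ^ 2 ^ 3 = 1 := by
  obtain ⟨s, hs, -, -, h1⟩ := sgn_of_pm (R0_le_NN h) (pm_of_R0 h)
  have h2 : g * g ∈ QQ := by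
    apply QQ_of_rel (NN_le_CC (R0_le_NN (mul_mem h h)))
    have := h1.mul h1
    rwa [sgn_sq] at this
  have h3 := QQ_pow h2
  rw [← pow_two, ← pow_mul] at h3
  exact h3

theorem R0_pgroup : IsPGroup 2 R0 := fun g => ⟨3, Subtype.ext (R0_pow g.2)⟩

theorem R0_card : ∃ k, Nat.card R0 = 2 ^ k := by
  have : Fact (Nat.Prime 2) := ⟨Nat.prime_two⟩
  exact IsPGroup.iff_card.1 R0_pgroup

theorem R0_three : ¬ 3 ∣ Nat.card R0 := by
  obtain ⟨k, hk⟩ := R0_card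
  rw [hk]
  intro h
  exact absurd (Nat.prime_three.dvd_of_dvd_pow h) (by norm_num)

/-- The permutation of an element of `NN`. -/
noncomputable def per : NN →* Equiv.Perm GolayPt where
  toFun g := (exists_pm g.2).choose
  map_one' := (exists_pm (1 : NN).2).choose_spec.2.unique Pm.one
  map_mul' a b := (exists_pm (a * b).2).choose_spec.2.unique
    ((exists_pm a.2).choose_spec.2.mul (exists_pm b.2).choose_spec.2)

theorem pm_per (g : NN) : Pm g.1 (per g) := (exists_pm g.2).choose_spec.2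

theorem per_mem (g : NN) : per g ∈ DuadGen.duad := (exists_pm g.2).choose_spec.1

theorem per_ker : per.ker = R0.subgroupOf NN := by
  ext g
  rw [MonoidHom.mem_ker, Subgroup.mem_subgroupOf]
  constructor
  · intro h
    exact R0_of_pm g.2 (h ▸ pm_per g)
  · intro h
    exact (pm_per g).unique (pm_of_R0 h)

theorem card_NN : ∃ k m, m ∣ 887040 ∧ Nat.card NN = m * 2 ^ k := by
  obtain ⟨k, hk⟩ := R0_card
  refine ⟨k, Nat.card per.range, ?_, ?_⟩
  · rw [← DuadGen.card_duad]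
    apply Subgroup.card_dvd_of_le
    rintro _ ⟨g, rfl⟩
    exact per_mem g
  · rw [← hk, ← Nat.card_congr (Subgroup.subgroupOfEquivOfLe R0_le_NN).toEquiv, ← per_ker,
      ← Nat.card_congr (QuotientGroup.quotientKerEquivRange per).toEquiv]
    exact Subgroup.card_eq_card_quotient_mul_card_subgroup _

/-- **The Sylow `3`-subgroups of `NN` have order at most nine.** -/
theorem NN_27 : ¬ 27 ∣ Nat.card NN := by
  obtain ⟨k, m, hm, h⟩ := card_NN
  rw [h]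
  intro h1
  have h2 : Nat.Coprime 27 (2 ^ k) := Nat.Coprime.pow_right k (by norm_num)
  exact absurd ((h2.dvd_of_dvd_mul_right h1).trans hm) (by norm_num)

end Cfsg.Agent.B5591.Geo
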