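import Cfsg.Agent.B5591.Geo
import Cfsg.Agent.B5591.CocG
import Cfsg.Agent.H863.BFin
import Cfsg.Agent.H863.BVec

/-!
# S5591: the module of functions on the signed axes (box WMod)

`red d` is the axis `d` modulo `3`, `iota v d = (v, red d)`, `phi = iota wV`, `J = even + iota V`, `M = W / J`.
-/

set_option autoImplicit false

namespace Cfsg.Agent.B5591.Geo

open Cfsg.Agent.Monster Cfsg.Agent.Monster.VecEngine Cfsg.Agent.Monster.VecSpace
open Cfsg.Agent.BabyM.Conc Cfsg.Agent.BabyM
open Cfsg.Agent.H863 Cfsg.Agent.H863.BRep Cfsg.Agent.H863.BRed Cfsg.Agent.H863.SExt Cfsg.Agent.H863.BVec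

/-! ### Reduction modulo three -/

/-- The reduction of a rational vector. -/
def rv (v : V) : V3 := fun i => ((v i : ℚ) : F3)

/-- Vectors with denominators powers of two. -/
def Dy (v : V) : Prop := ∃ (k : ℕ) (y : Lane U → ℤ), (2 : ℚ) ^ k • v = up ℚ y

theorem rv_of {v : V} {k : ℕ} {y : Lane U → ℤ} (h : (2 : ℚ) ^ k • v = up ℚ y) :
    (2 : F3) ^ k • rv v = up F3 y := by
  funext i
  have h1 : (2 : ℚ) ^ k * v i = (y i : ℚ) := congrFun h i
  have h2 : v i = (y i : ℚ) / ((2 ^ k : ℤ) : ℚ) := by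
    rw [← h1]
    push_cast
    field_simp
  have h3 : (((2 ^ k : ℤ)) : F3) ≠ 0 := by
    push_cast
    exact pow_ne_zero k two_ne
  show (2 : F3) ^ k * ((v i : ℚ) : F3) = (y i : F3)
  rw [h2, ← Rat.divInt_eq_div, Rat.cast_divInt_of_ne_zero _ h3]
  push_cast
  exact mul_div_cancel₀ _ (pow_ne_zero k two_ne)

theorem Dy.smul {v : V} (h : Dy v) (g : G) : Dy (g.1 v) ∧ rv (g.1 v) = σV g (rv v) := by
  obtain ⟨k, y, hy⟩ := h
  obtain ⟨l, w, h1, h2⟩ := sigma_red two_ne g y
  have h3 : (2 : ℚ) ^ (l + k) • g.1 v = up ℚ w := by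
    rw [← h1, ← hy, pow_add, mul_smul, map_smul]
    rfl
  refine ⟨⟨_, _, h3⟩, ?_⟩
  have h4 := rv_of h3
  rw [← h2, ← rv_of hy, map_smul, smul_smul, ← pow_add] at h4
  exact smul_right_injective _ (pow_ne_zero _ two_ne) h4

theorem dy_eighth (P : Pl) : (2 : ℚ) ^ 3 • ((1 / 8 : ℚ) • vecU ℚ U P) = up ℚ (zv P) := by
  rw [smul_smul]
  have : (2 : ℚ) ^ 3 * (1 / 8) = 1 := by norm_num
  rw [this, one_smul]
  rfl

theorem d0_val : (d0 : V) = (1 / 8 : ℚ) • vecU ℚ U (InstVec.dv 0) := Inst.d_zero.symm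

theorem dy_ax (d : Ax) : Dy (d : V) := by
  obtain ⟨g, rfl⟩ := trans d
  rw [smul_val]
  exact (Dy.smul ⟨3, _, by rw [d0_val]; exact dy_eighth _⟩ g).1

/-- The axis modulo three. -/
def red (d : Ax) : V3 := rv (d : V)

theorem red_smul (g : G) (d : Ax) : red (g • d) = σV g (red d) := ((dy_ax d).smul g).2

theorem red_neg (d : Ax) : red (neg d) = -red d := by
  funext i
  show (((-(d : V)) i : ℚ) : F3) = -(((d : V) i : ℚ) : F3)
  rw [Pi.neg_apply, Rat.cast_neg]

theorem red_of {d : Ax} {P : Pl} (h : (d : V) = (1 / 8 : ℚ) • vecU ℚ U P) : red d = -up F3 (zv P) := by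
  have h1 := rv_of (dy_eighth P)
  rw [← h] at h1
  have h2 : (2 : F3) ^ 3 = -1 := by decide
  rw [h2, neg_smul, one_smul] at h1
  rw [← h1, neg_neg]
  rfl

/-! ### The invariant form -/

theorem σV_gE (l : Ltr) : σV (gE l) = (semU F3 U l.prog : Module.End F3 V3) :=
  (sigma_red two_ne (gE l)).unique two_ne (red_E two_ne l)

theorem dot_inv (g : G) (u v : V3) : dotW F3 U wt (σV g u) (σV g v) = dotW F3 U wt u v := by
  have key : ∀ (a : V ≃ₗ[ℚ] V) (ha : a ∈ Subgroup.closure {g | ∃ l, g = E l}), ∀ u v : V3,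
      dotW F3 U wt (σV ⟨a, gen_eq ▸ ha⟩ u) (σV ⟨a, gen_eq ▸ ha⟩ v) = dotW F3 U wt u v := by
    intro a ha
    induction ha using Subgroup.closure_induction with
    | mem a ha =>
      obtain ⟨l, rfl⟩ := ha
      intro u v
      have h1 := dotW_semU F3 two_ne (good_prog l) u v
      rw [← σV_gE] at h1
      exact h1
    | one =>
      intro u v
      have e : ∀ w : V3, σV (1 : G) w = w := fun w => act_one w
      exact congrArg₂ _ (e u) (e v)
    | mul a b ha hb iha ihb =>
      intro u v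
      have e : ∀ w : V3, σV ((⟨a, gen_eq ▸ ha⟩ : G) * ⟨b, gen_eq ▸ hb⟩) w =
        σV ⟨a, gen_eq ▸ ha⟩ (σV ⟨b, gen_eq ▸ hb⟩ w) := fun w => act_mul _ _ w
      exact (congrArg₂ _ (e u) (e v)).trans ((iha _ _).trans (ihb u v))
    | inv a ha ih =>
      intro u v
      have e : ∀ w : V3, σV (⟨a, gen_eq ▸ ha⟩ : G) (σV (⟨a, gen_eq ▸ ha⟩ : G)⁻¹ w) = w := fun w => act_act_inv _ w
      exact (ih _ _).symm.trans (congrArg₂ _ (e u) (e v))
  exact key g.1 (gen_eq ▸ g.2) u v

/-! ### The embedding -/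

/-- The permutation module. -/
noncomputable abbrev σW : G →* Module.End F3 (Ax → F3) := perm F3 G Ax

/-- The embedding of `V3` into the functions on the signed axes. -/
noncomputable def iota : V3 →ₗ[F3] (Ax → F3) where
  toFun v d := dotW F3 U wt v (red d)
  map_add' u v := funext fun _ => dotW_add_left F3 U wt u v _
  map_smul' c v := funext fun _ => dotW_smul_left F3 U wt c v _

theorem iota_apply (v : V3) (d : Ax) : iota v d = dotW F3 U wt v (red d) := rfl

theorem iota_smul (g : G) (v : V3) (d : Ax) : iota (σV g v) (g • d) = iota v d := by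
  rw [iota_apply, red_smul, dot_inv, iota_apply]

theorem iota_equiv (g : G) (v : V3) : iota (σV g v) = σW g (iota v) := by
  funext d
  rw [perm_apply, ← iota_smul g v (g⁻¹ • d), smul_inv_smul]

theorem iota_neg (v : V3) (d : Ax) : iota v (neg d) = -iota v d := by
  rw [iota_apply, red_neg, iota_apply, dotW_comm, dotW_comm F3 U wt v, ← neg_one_smul F3 (red d), dotW_smul_left,
    neg_one_mul]

/-- The function of the line `ℓ`. -/
noncomputable def phi : Ax → F3 := iota wV

theorem phi_eq (d : Ax) : phi d = red d bI := by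
  show dotW F3 U wt (Pi.single bI 1) (red d) = _
  rw [dotW_comm, dotW_single]
  have h : val wt bI.1 = 0 := Inst.wt_I
  rw [h, neg_zero, zpow_zero, one_mul]

/-- The value of `phi` on an explicit axis. -/
theorem phi_of {d : Ax} {P : Pl} (h : (d : V) = (1 / 8 : ℚ) • vecU ℚ U P) : phi d = -((val P 1344 : ℤ) : F3) := by
  rw [phi_eq, red_of h]
  rfl

theorem phi_neg (d : Ax) : phi (neg d) = -phi d := iota_neg _ d

theorem phi_smul_of_fix {g : G} (h : σV g wV = wV) (d : Ax) : phi (g • d) = phi d := by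
  have h1 := iota_smul g wV d
  rwa [h] at h1

theorem phi_smul_of_neg {g : G} (h : σV g wV = -wV) (d : Ax) : phi (g • d) = -phi d := by
  have h1 := iota_smul g wV d
  rw [h, map_neg, Pi.neg_apply] at h1
  exact neg_eq_iff_eq_neg.1 h1

theorem phi_d0 : phi d0 ≠ 0 := by
  rw [phi_of d0_val, show val (InstVec.dv 0) 1344 = 32 by decide +kernel]
  decide

theorem iota_injective : Function.Injective iota := by
  rw [← LinearMap.ker_eq_bot]
  rcases BFin.irred two_ne (LinearMap.ker iota) (fun g m hm => by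
    rw [LinearMap.mem_ker] at hm ⊢
    have h := iota_equiv g m
    rw [hm, map_zero] at h
    exact h) with h | h
  · exact h
  · exfalso
    have h1 : wV ∈ LinearMap.ker iota := by rw [h]; exact Submodule.mem_top
    exact phi_d0 (congrFun (LinearMap.mem_ker.1 h1) d0)

/-! ### Even and odd functions, the quotient -/

/-- The even functions. -/
def Ev : Submodule F3 (Ax → F3) where
  carrier := {f | ∀ d, f (neg d) = f d}
  add_mem' {f g} hf hg d := by rw [Pi.add_apply, Pi.add_apply, hf d, hg d]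
  zero_mem' _ := rfl
  smul_mem' c f hf d := by rw [Pi.smul_apply, Pi.smul_apply, hf d]

/-- `f ↦ f - f ∘ neg` (twice the odd part). -/
noncomputable def od : (Ax → F3) →ₗ[F3] (Ax → F3) where
  toFun f d := f d - f (neg d)
  map_add' f g := by
    funext d
    simp only [Pi.add_apply]
    ring
  map_smul' c f := by
    funext d
    simp only [Pi.smul_apply, smul_eq_mul, RingHom.id_apply]
    ring

theorem od_apply (f : Ax → F3) (d : Ax) : od f d = f d - f (neg d) := rfl

theorem od_equiv (g : G) (f : Ax → F3) : od (σW g f) = σW g (od f) := by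
  funext d
  rw [od_apply, perm_apply, perm_apply, perm_apply, od_apply, smul_neg']

theorem od_neg (f : Ax → F3) (d : Ax) : od f (neg d) = -od f d := by
  rw [od_apply, od_apply, neg_neg', neg_sub]

theorem od_of_even {f : Ax → F3} (h : f ∈ Ev) : od f = 0 := by
  funext d
  rw [od_apply, h d, sub_self, Pi.zero_apply]

theorem od_of_odd {f : Ax → F3} (h : ∀ d, f (neg d) = -f d) : od f = -f := by
  funext d
  rw [od_apply, h d, Pi.neg_apply]
  generalize f d = a
  revert a
  decide

/-- The submodule `even + iota V`. -/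
noncomputable def J : Submodule F3 (Ax → F3) := Ev ⊔ LinearMap.range iota

theorem J_inv (g : G) (f : Ax → F3) (hf : f ∈ J) : σW g f ∈ J := by
  obtain ⟨e, he, _, ⟨v, rfl⟩, rfl⟩ := Submodule.mem_sup.1 hf
  rw [map_add, ← iota_equiv]
  refine Submodule.add_mem _ (Submodule.mem_sup_left ?_) (Submodule.mem_sup_right ⟨_, rfl⟩)
  intro d
  rw [perm_apply, perm_apply, smul_neg', he]

theorem od_mem {f : Ax → F3} (hf : f ∈ J) : od f ∈ LinearMap.range iota := by
  obtain ⟨e, he, _, ⟨v, rfl⟩, rfl⟩ := Submodule.mem_sup.1 hf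
  rw [map_add, od_of_even he, zero_add, od_of_odd (iota_neg v)]
  exact Submodule.neg_mem _ ⟨v, rfl⟩

theorem iota_mem (v : V3) : iota v ∈ J := Submodule.mem_sup_right ⟨v, rfl⟩

/-- The module `M = W / J`. -/
noncomputable abbrev σM : G →* Module.End F3 ((Ax → F3) ⧸ J) := quo σW J J_inv

theorem even_of_fixed (hN : BoxNeg) {f : Ax → F3} (h : ∀ g ∈ KO, σW g f = f) : f ∈ Ev := by
  intro d
  obtain ⟨k, hk, hd⟩ := hN d
  have h1 := congrFun (h k hk) (k • d)
  rw [perm_apply, inv_smul_smul, hd] at h1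
  exact h1.symm

theorem card_KO (hK : BoxKS) : (Nat.card KO : F3) ≠ 0 := by
  intro h
  exact hK (((ZMod.natCast_eq_zero_iff _ 3).1 h).trans (Subgroup.card_dvd_of_le KO_le_KS))

theorem fx_V (hN : BoxNeg) : Fx σV KO := by
  intro v hv
  apply iota_injective
  have h1 : iota v ∈ Ev := even_of_fixed hN fun g hg => by rw [← iota_equiv, hv g hg]
  have h2 := od_of_even h1
  rw [od_of_odd (iota_neg v), neg_eq_zero] at h2
  rw [h2, map_zero]

theorem fx_M (hN : BoxNeg) (hK : BoxKS) : Fx σM KO :=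
  fx_quo_of_mem (card_KO hK) fun _ hf => Submodule.mem_sup_left (even_of_fixed hN hf)

end Cfsg.Agent.B5591.Geo
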